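import Cfsg.Agent.Lib.TW.PV

/-!
# The unipotent radical attached to a tensor factor; coefficients
-/

set_option autoImplicit false
set_option linter.unusedSectionVars false

namespace Cfsg.Lib.TW

open Module Function Cfsg.Lib.Unitary Cfsg.Lib.TMax

variable {F U W V : Type*} [Field F] [AddCommGroup U] [Module F U] [AddCommGroup W] [Module F W]
  [AddCommGroup V] [Module F V] {σ : F →+* F} {ε ε' : F} {A : U →ₛₗ[σ] U →ₗ[F] F}
  {B : V →ₛₗ[σ] V →ₗ[F] F} {N : Subgroup (U ≃ₗ[F] U)} {M : Subgroup (V ≃ₗ[F] V)}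
  {T : TF F U W V} {ι : Type*} [DecidableEq ι] [Fintype ι] {Φ : Fam ι F U W V}

/-- Adjoint pairs. -/
def Ad (B : V →ₛₗ[σ] V →ₗ[F] F) (X X' : End F V) : Prop := ∀ x y, B (X x) y = B x (X' y)

namespace Ad

variable {X X' Y Y' : End F V}

theorem mul (h : Ad B X X') (h' : Ad B Y Y') : Ad B (X * Y) (Y' * X') := fun x y => by
  rw [End.mul_apply, h, h', End.mul_apply]

theorem add (h : Ad B X X') (h' : Ad B Y Y') : Ad B (X + Y) (X' + Y') := fun x y => by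
  simp [h x, h' x]

theorem sub (h : Ad B X X') (h' : Ad B Y Y') : Ad B (X - Y) (X' - Y') := fun x y => by
  simp [h x, h' x]

theorem smul (h : Ad B X X') (c : F) : Ad B (c • X) (σ c • X') := fun x y => by simp [h x]

theorem one : Ad B 1 1 := fun _ _ => rfl

theorem symm (h : Ad B X X') (hB : EF σ ε' B) : Ad B X' X := hB.adj_symm h

theorem unique (h : Ad B X X') (hB : EF σ ε' B) (h' : Ad B X Y') : X' = Y' :=
  LinearMap.ext fun y => hB.ext' fun x => (h x y).symm.trans (h' x y)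

theorem of_UG {g : V ≃ₗ[F] V} (hg : g ∈ UG B) : Ad B g.toLinearMap (g⁻¹).toLinearMap :=
  UG_apply_left hg

theorem rk (hA : EF σ ε A) (x y : U) : Ad A (rk A x y) (ε • rk A y x) := fun v v' => by
  simp only [rk_apply, LinearMap.map_smulₛₗ, LinearMap.smul_apply, smul_eq_mul, hA.symm,
    RingHom.id_apply]
  ring

theorem e (h : Cp A B T) {a a' : End F U} (ha : Ad A a a') : Ad B (T.e a) (T.e a') := h.adj ha

theorem cm [FiniteDimensional F U] (h : Ad B X X') (hA : EF σ ε A) (hB : EF σ ε' B) (cp : Cp A B T)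
    (hX : Cm T X) : Cm T X' := fun a => by
  obtain ⟨a', ha⟩ := hA.exists_adj a
  have h1 := Ad.e cp (Ad.symm ha hA)
  exact (h1.mul h).unique hB (hX a' ▸ h.mul h1)

end Ad

theorem rk_smul (a b : F) (x y : U) : rk A (a • x) (b • y) = (a * σ b) • rk A x y :=
  LinearMap.ext fun v => by simp [smul_smul, mul_comm, mul_left_comm, mul_assoc]

theorem r_eq_rk (c : F) (w : U) : (c • A w).smulRight w = c • rk A w w := r_smul _ _ _

theorem Un.conj_e {n : End F U} {β : End F V} (h : Un M (T.e n * β)) (hβ : Cm T β) {b : U ≃ₗ[F] U}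
    (hb : T.kr b 1 ∈ M) : Un M (T.e (b.toLinearMap * n * (b⁻¹).toLinearMap) * β) := by
  have h1 : ∀ b : U ≃ₗ[F] U, (T.kr b 1).toLinearMap = T.e b.toLinearMap := fun b =>
    LinearMap.ext (T.kr_one_apply b)
  convert h.conj hb using 1
  rw [TF.kr_inv, inv_one, h1, h1, map_mul, map_mul, mul_assoc, mul_assoc, mul_assoc, mul_assoc, hβ]

theorem Gm.exists_tor (γ : Gm ε A N) {e f : U} (he : A e e = 0) (hf : A f f = 0) (hef : A e f = 1)
    {l : F} (hl : σ l = l) (h0 : l ≠ 0) :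
    ∃ b ∈ N, b e = l • e ∧ b f = l⁻¹ • f ∧ ∀ z, A e z = 0 → A f z = 0 → b z = z := by
  obtain ⟨c, hc0, hc⟩ := γ.tr
  have h1 : σ c = -ε * c := by linear_combination ε * hc - σ c * γ.h.eps_sq
  have h2 : A f e = ε := by rw [γ.h.flip, hef, map_one, mul_one]
  have h3 : ∀ a, σ a = a → a * c + ε * σ (a * c) = 0 := fun a ha => by
    rw [map_mul, ha]; linear_combination a * hc
  have h4 : ∀ a, σ a = a → a * c⁻¹ + ε * σ (a * c⁻¹) = 0 := fun a ha => by
    rw [map_mul, ha, map_inv₀, h1]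
    rcases γ.h.eps with rfl | rfl <;> field_simp <;> ring
  obtain ⟨b₁, e1, f1⟩ := γ.h.exists_transv hf hc
  obtain ⟨b₂, e2, f2⟩ := γ.h.exists_transv he (h4 ((l - 1) * ε) (by simp [hl, γ.h.map_eps]))
  obtain ⟨b₃, e3, f3⟩ := γ.h.exists_transv hf (h3 (-l⁻¹) (by simp [hl]))
  obtain ⟨b₄, e4, f4⟩ := γ.h.exists_transv he (h4 (-(l * (l - 1) * ε)) (by simp [hl, γ.h.map_eps]))
  refine ⟨b₄ * b₃ * b₂ * b₁, mul_mem (mul_mem (mul_mem (γ.qe e he e4) (γ.qe f hf e3)) (γ.qe e he e2))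
    (γ.qe f hf e1), ?_, ?_, fun z h5 h6 => by simp [f1, f2, f3, f4, h5, h6]⟩ <;>
  · simp only [LinearEquiv.mul_apply, f1, f2, f3, f4, map_add, map_smul, he, hf, hef, h2, smul_eq_mul]
    rcases γ.h.eps with rfl | rfl <;> match_scalars <;> field_simp <;> ring

theorem Gm.tor (γ : Gm ε A N) {l : F} (hl : σ l = l) (h0 : l ≠ 0) (h1 : l ^ 2 ≠ 1) : Tor A N :=
  ⟨l, l⁻¹, 1, fun h => h1 (by rw [sq]; nth_rw 1 [← h]; exact inv_mul_cancel₀ h0),
    fun h => h1 (by simp [inv_eq_one.1 h]), fun e f he hf hef => by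
      simpa using γ.exists_tor he hf hef hl h0⟩

variable (γ : Gm ε A N) (su : ∀ b ∈ N, T.kr b 1 ∈ M)
include γ su

theorem smul_mem_coeffs [Finite F] {w ψ} (hw : RF ε A w ψ) {β : End F V}
    (h : β ∈ coeffs M T (r_sq hw.zero)) {μ : F} (hμ : σ μ = μ) : μ • β ∈ coeffs M T (r_sq hw.zero) := by
  have key : ∀ l, σ l = l → (l * l) • β ∈ coeffs M T (r_sq hw.zero) := fun l hl => by
    rcases eq_or_ne l 0 with rfl | h0
    · simp
    obtain ⟨h1, h2, c, h3, h4, rfl⟩ := hw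
    obtain ⟨f, hf, hwf⟩ := γ.h.exists_hyp h1 h2
    obtain ⟨b, hb, e, -⟩ := γ.exists_tor h2 hf hwf hl h0
    refine ⟨h.1.smul _, ?_⟩
    convert h.2.conj_e h.1 (su b hb) using 1
    rw [r_eq_rk, mul_smul_comm c, smul_mul_assoc, conj_rk (γ.le hb), e, rk_smul, hl]
    simp [smul_comm c]
  by_cases h2 : (2 : F) = 0
  · have : CharP F 2 := CharTwo.of_one_ne_zero_of_two_eq_zero one_ne_zero h2
    obtain ⟨l, rfl⟩ := surjective_frobenius F 2 μ
    rw [frobenius_def, sq]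
    exact key l (frobenius_inj F 2 (by rw [frobenius_def, ← map_pow]; exact hμ))
  · convert sub_mem (key ((μ + 1) / 2) (by simp [hμ, map_ofNat])) (key ((μ - 1) / 2)
      (by simp [hμ, map_ofNat])) using 1
    rw [← sub_smul]
    congr 1
    field_simp
    ring

omit su in
theorem Fam.tr_form (su : ∀ i, ∀ b ∈ N, (Φ.T i).kr b 1 ∈ M) : Φ.Tr (RF ε A) M := by
  rintro i β hβ w _ w' _ ⟨h1, h2, c, hc, -, rfl⟩ ⟨h3, h4, c', hc', -, rfl⟩ h
  obtain ⟨b, hb, a, ha, e⟩ := γ.h.ptRel_of_T3 γ.t3 γ.qe h1 h3 h2 h4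
  refine ⟨c * (a * σ a) / c', by simp [hc, hc', ha], ?_⟩
  convert h.conj_e hβ (su i b hb) using 1
  rw [r_eq_rk, r_eq_rk, mul_smul_comm c, smul_mul_assoc, conj_rk (γ.le hb), e, rk_smul]
  simp [smul_smul, hc']

omit su in
theorem Fam.sand_of_fixed [Finite F] (su : ∀ i, ∀ b ∈ N, (Φ.T i).kr b 1 ∈ M) {l : F} (h1 : σ l = l)
    (h2 : l ≠ 0) (h3 : l ≠ 1) : Φ.Sand (RF ε A) M := fun i j hij w ψ hw β hβ h x χ hx => by
  have key : ∀ {χ}, RF ε A x χ → _ := fun {χ} hx =>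
    let ⟨b, hb, hb'⟩ := γ.exists_root hx
    delta_mem_coeffs (hN := r_sq hw.zero) ⟨hβ, h⟩ ((isRt_kr hb').un (su i b (γ.qe x hx.2.1 hb)))
      ((Φ.T i).e_r_mul hx.zero) (Φ.cm_e hij.symm _)
  have := smul_mem_coeffs γ (su j) hw (sub_mem (smul_mem_coeffs γ (su j) hw (key hx) h1)
    (key (hx.smul h1 h2))) (μ := (l * (l - 1))⁻¹) (by simp [h1])
  convert this.2 using 2
  rw [r_smul, map_smul, eq_inv_smul_iff₀ (mul_ne_zero h2 (sub_ne_zero.2 h3))]
  simp only [smul_mul_assoc, mul_smul_comm]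
  module

omit su in
theorem PV.tv_of_Q [Finite F] [FiniteDimensional F V] [Nonempty ι] (p : PV Φ A B) (hB : EF σ ε' B)
    (hM : M ≤ UG B) (su : ∀ i, ∀ b ∈ N, (Φ.T i).kr b 1 ∈ M) (hQ : Φ.Q (RF ε A) M Finset.univ)
    (x : ι → U) (hx : ∀ i, A (x i) (x i) = 0) (c : F) (hc : c + ε' * σ c = 0) :
    Un M (c • rk B (p.v x) (p.v x)) := by
  rcases eq_or_ne (p.v x) 0 with h | h
  · simpa [h, rk] using Un.zero
  have h0 : ∀ i, x i ≠ 0 := fun i h0 => h (p.v.map_coord_zero i h0)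
  obtain ⟨j⟩ := ‹Nonempty ι›
  obtain ⟨c₀, h1, h2⟩ := γ.tr
  have r : ∀ i, RF ε A (x i) (c₀ • A (x i)) := fun i => ⟨h0 i, hx i, c₀, h1, h2, rfl⟩
  obtain ⟨d, hd, h3⟩ := hQ.any (Fam.tr_form γ su) (a := fun i => (c₀ • A (x i)).smulRight (x i))
    ⟨fun i _ => ⟨_, _, r i, rfl⟩, by simp⟩
  have h4 : d • Φ.π (fun i => (c₀ • A (x i)).smulRight (x i)) =
      (d * c₀ ^ Fintype.card ι * p.κ⁻¹) • rk B (p.v x) (p.v x) := by
    simpa [r_eq_rk, ← p.π_rk, smul_smul, p.κ0] using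
      congrArg (d • ·) (Φ.smul_eq Finset.univ (fun _ => c₀) fun i => rk A (x i) (x i))
  have h5 := trace_of_un hB hM h (p.B_eq_zero (hx j)) (h4 ▸ h3)
  have h6 : d * c₀ ^ Fintype.card ι * p.κ⁻¹ ≠ 0 := by simp [hd, h1, p.κ0]
  generalize d * c₀ ^ Fintype.card ι * p.κ⁻¹ = d' at h4 h5 h6
  rw [Φ.eq_mul _ j, ← mul_smul_comm] at h3 h4
  have := (smul_mem_coeffs γ (su j) (r j) ⟨(Φ.cm_update _ j).smul d, h3⟩ (μ := c / d') (by
    rw [map_div₀, div_eq_div_iff (by simpa) h6]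
    exact mul_left_cancel₀ hB.eps_ne (by linear_combination d' * hc - c * h5))).2
  rwa [mul_smul_comm, h4, smul_smul, div_mul_cancel₀ _ h6] at this

variable [FiniteDimensional F U] [FiniteDimensional F V] (hB : EF σ ε' B) (cp : Cp A B T)
  {w : U} (h0 : w ≠ 0) (hw : A w w = 0) {g : V ≃ₗ[F] V}

omit su in
include hB cp h0 in
theorem exists_cen (hg : g ∈ UG B) (h : ∀ x, T.c (A w) x = 0 → g x = x) :
    ∃ β, Cm T β ∧ g.toLinearMap = 1 + T.e (rk A w w) * β := by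
  have := γ.nontrivial
  obtain ⟨f, hf⟩ := γ.h.exists_eq_one h0
  obtain ⟨χ, hχ⟩ := exists_dual_one (F := F) h0
  refine ⟨_, T.cm_coef χ f (g.toLinearMap - 1), LinearMap.ext fun x => ?_⟩
  have h1 := h (x - T.t f (T.c (A w) x)) (by simp [hf])
  obtain ⟨u, hu⟩ := T.mem_P1.1 (hB.sub_mem_of_fix (W := T.P (F ∙ w)) hg
    (fun x hx => h x ((cp.mem_perp hB).1 hx)) (T.t f (T.c (A w) x)))
  simp only [rk, TF.coef, LinearMap.add_apply, End.mul_apply, TF.e_r, TF.c_km, End.one_eq_id,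
    LinearMap.comp_id, LinearMap.comp_apply, LinearMap.sub_apply, LinearMap.id_apply,
    LinearEquiv.coe_coe, ← hu, TF.c_t, hχ, one_smul]
  rw [map_sub] at h1
  linear_combination (norm := module) h1 - hu

omit γ su in
include h0 in
theorem exists_left (h : ∀ x, T.c (A w) x = 0 → g x - x ∈ T.P (F ∙ w)) {a : U} (ha : A w a = 0) :
    ∃ H, Cm T H ∧ ∀ z, g.toLinearMap * T.e (rk A a z) = T.e (rk A a z) + T.e (rk A w z) * H := by
  obtain ⟨χ, hχ⟩ := exists_dual_one (F := F) h0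
  refine ⟨_, T.cm_coef χ a (g.toLinearMap - 1), fun z => LinearMap.ext fun x => ?_⟩
  obtain ⟨u, hu⟩ := T.mem_P1.1 (h (T.t a (T.c (A z) x)) (by simp [ha]))
  simp only [rk, TF.coef, LinearMap.add_apply, End.mul_apply, TF.e_r, TF.c_km, End.one_eq_id,
    LinearMap.comp_id, LinearMap.comp_apply, LinearMap.sub_apply, LinearMap.id_apply,
    LinearEquiv.coe_coe, ← hu, TF.c_t, hχ, one_smul]
  rw [hu, add_sub_cancel]

omit su in
include hB cp in
theorem right_of_left (hg : g ∈ UG B) {a : U} {H H' : End F V} (hH : Ad B H H')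
    (h : ∀ z, g.toLinearMap * T.e (rk A a z) = T.e (rk A a z) + T.e (rk A w z) * H) (z : U) :
    T.e (rk A z a) * (g⁻¹).toLinearMap = T.e (rk A z a) + H' * T.e (rk A z w) := by
  have := ((Ad.of_UG hg).mul (.e cp (.rk γ.h a z))).unique hB
    (h z ▸ (Ad.e cp (.rk γ.h a z)).add ((Ad.e cp (.rk γ.h w z)).mul hH))
  simp only [map_smul, smul_mul_assoc, mul_smul_comm, ← smul_add] at this
  exact smul_right_injective _ γ.h.eps_ne this

include hB cp h0 hw in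
theorem rad_of_scalar (hM : M ≤ UG B) (hg : g ∈ M) (h1 : ∀ x ∈ T.P (F ∙ w), g x = x)
    (h2 : ∀ a, A w a = 0 → ∃ c : F, ∀ u, g (T.t a u) = T.t a u + c • T.t w u)
    (h3 : ∀ β, Cm T β → Un M (T.e (rk A w w) * β) → ∃ c : F, β = c • 1) :
    ∃ a, ∀ x, g x = T.e a x := by
  rcases subsingleton_or_nontrivial W with hW | hW
  · exact ⟨1, fun x => T.ind x (by simp) (fun v u => by simp [Subsingleton.elim u 0])
      fun _ _ h h' => by simpa using congrArg₂ (· + ·) h h'⟩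
  obtain ⟨u₀, hu₀⟩ := exists_ne (0 : W)
  obtain ⟨χ, hχ⟩ := exists_dual_one (F := F) h0
  obtain ⟨χ', hχ'⟩ := exists_dual_one (F := F) hu₀
  obtain ⟨a, ha⟩ := γ.h.exists_eq (χ' ∘ₗ T.c χ ∘ₗ (g.toLinearMap - 1) ∘ₗ T.t.flip u₀)
  obtain ⟨b, hb, hb'⟩ := γ.h.exists_E (a := a) hw (γ.h.swap (by simp [ha, h1 _ (T.t_mem_P1 w u₀)]))
  have hk := mul_mem (inv_mem (su b (γ.qe w hw hb))) hg
  obtain ⟨β, h4, h5⟩ := exists_cen γ hB cp h0 (hM hk) fun x hx => by
    rw [LinearEquiv.mul_apply, LinearEquiv.coe_inv, LinearEquiv.symm_apply_eq]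
    refine T.P_ext (f := g.toLinearMap) (g := (T.kr b 1).toLinearMap) (fun y hy u => ?_)
      (T.mem_P_ker.2 hx)
    obtain ⟨c, hc⟩ := h2 y hy
    simp [hb' y hy, ha, hc, hχ, hχ']
  obtain ⟨c, rfl⟩ := h3 β h4 ⟨_, hk, LinearMap.congr_fun h5⟩
  refine ⟨b.toLinearMap * (1 + c • rk A w w), fun x => ?_⟩
  have := congrArg (T.kr b 1) (LinearMap.congr_fun h5 x)
  simpa [TF.kr_one_apply] using this

end Cfsg.Lib.TW
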