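import Cfsg.Agent.Lib.PSL2.Subfield
import Cfsg.Agent.Lib.TW.Rad

/-!
# Two quadratic root groups generate `SL₂(q)`
-/

set_option autoImplicit false
set_option linter.unusedSectionVars false

namespace Cfsg.Lib.TW

open Module Polynomial Matrix MulAction Cfsg.Lib.PSL2
open scoped MatrixGroups

variable {F K V : Type*} [Field F] [Field K] [Algebra F K] [AddCommGroup V] [Module F V]

theorem mem_range_of_dickson [Finite F] [IsAlgClosed K] (h2 : (2 : F) ≠ 0) (h5 : 5 ≤ Nat.card F)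
    (H : Subgroup PGL(2, K)) [Finite H] {ζ : K} (h0 : ζ ≠ 0)
    (h1 : ∀ b, aff 1 b ∈ H ↔ ∃ t : F, algebraMap F K t * ζ = b)
    (h3 : pt 1 ∈ orbit H (inf : P1 K)) (h4 : pt 2⁻¹ ∈ orbit H (inf : P1 K)) :
    ∃ z : F, algebraMap F K z = ζ := by
  have hi : Function.Injective fun t : F => algebraMap F K t * ζ := fun _ _ h =>
    (algebraMap F K).injective (mul_right_cancel₀ h0 h)
  have h6 : Nat.card ↥(H ⊓ unip inf) = Nat.card F := by
    rw [← card_transl, ← Nat.card_range_of_injective hi]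
    exact Nat.card_congr (Equiv.setCongr (Set.ext h1))
  have h7 : (2 : K) ≠ 0 := by simpa [map_ofNat] using (map_ne_zero (algebraMap F K)).2 h2
  rcases irregular_count H (x := inf) (fun h => by simp [h] at h6; omega) with
    h | ⟨h, -⟩ | ⟨h, ⟨e⟩⟩ | ⟨h, -⟩
  · obtain ⟨g, hg⟩ := h3
    exact absurd ((h g g.2).symm.trans hg) (by simp)
  · exact absurd (by simpa [h] using ringChar.Nat.cast_ringChar (R := K)) h7
  · have := Fintype.ofFinite F
    have : CharP F 3 := ringChar.of_eq ((Algebra.ringChar_eq F K).trans h)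
    obtain ⟨n, -, hn⟩ := FiniteField.card F 3
    have h8 := Subgroup.card_dvd_of_le (inf_le_left : H ⊓ unip inf ≤ H)
    rw [h6, Nat.card_congr e.toEquiv, nat_card_alternatingGroup, Nat.card_eq_fintype_card, hn] at h8
    rw [Nat.card_eq_fintype_card, hn] at h5
    have h9 : 2 ≤ (n : ℕ) := by
      by_contra! h
      interval_cases (n : ℕ) <;> omega
    exact absurd ((pow_dvd_pow 3 h9).trans h8) (by simp [Nat.factorial])
  have h8 : insert inf (Set.range fun t : F => pt (1 + algebraMap F K t * ζ)) = orbit H (inf : P1 K) := by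
    refine Set.eq_of_subset_of_ncard_le (Set.insert_subset (mem_orbit_self _) ?_) ?_ (Set.finite_range _)
    · rintro _ ⟨t, rfl⟩
      simpa [Subgroup.smul_def] using mem_orbit_of_mem_orbit (⟨_, (h1 _).2 ⟨t, rfl⟩⟩ : H) h3
    · rw [h, h6, Set.ncard_insert_of_notMem (by simp), Set.ncard_range_of_injective
        fun _ _ h => hi (add_left_cancel (pt_injective h))]
  obtain ⟨t, ht⟩ : ∃ t : F, 1 + algebraMap F K t * ζ = 2⁻¹ := by simpa [← h8] using h4
  have h9 : algebraMap F K t ≠ 0 := fun h => by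
    rw [h] at ht
    field_simp at ht
    exact one_ne_zero (α := K) (by linear_combination ht)
  refine ⟨-(2 * t)⁻¹, ?_⟩
  rw [map_neg, map_inv₀, map_mul, map_ofNat]
  field_simp at ht ⊢
  linear_combination -ht

theorem exists_left_eigen [FiniteDimensional F V] [IsAlgClosed K] {Z : End F V} (h0 : Z ≠ 0)
    (h : ∀ y, Z (Z y) = 0 → Z y = 0) :
    ∃ ζ : K, ζ ≠ 0 ∧ ∃ θ : V →ₗ[F] K, θ ≠ 0 ∧ ∀ y, θ (Z y) = ζ * θ y := by
  let Z₁ : End F (LinearMap.range Z) := Z.restrict fun y _ => LinearMap.mem_range_self Z y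
  have h1 : Function.Surjective Z₁ := LinearMap.injective_iff_surjective.1
    ((injective_iff_map_eq_zero _).2 fun ⟨_, y, rfl⟩ e => Subtype.ext (h y (congrArg Subtype.val e)))
  obtain ⟨y, hy⟩ := DFunLike.ne_iff.1 h0
  obtain ⟨φ, hφ⟩ := exists_dual_one (F := F) (show Z.rangeRestrict y ≠ 0 from
    fun h => hy (congrArg Subtype.val h))
  have : Nontrivial (LinearMap.range Z →ₗ[F] K) := ⟨Algebra.linearMap F K ∘ₗ φ, 0, fun h =>
    by simpa [hφ] using LinearMap.congr_fun h (Z.rangeRestrict y)⟩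
  obtain ⟨ζ, hζ⟩ := End.exists_eigenvalue (LinearMap.lcomp K K Z₁)
  obtain ⟨θ, hθ⟩ := hζ.exists_hasEigenvector
  have h2 : ∀ y, θ (Z₁ y) = ζ * θ y := LinearMap.congr_fun hθ.apply_eq_smul
  refine ⟨ζ, fun h => hθ.2 (LinearMap.ext fun y => ?_), θ ∘ₗ Z.rangeRestrict,
    fun h => hθ.2 (LinearMap.ext fun ⟨_, y, rfl⟩ => LinearMap.congr_fun h y),
    fun y => h2 (Z.rangeRestrict y)⟩
  obtain ⟨y, rfl⟩ := h1 y
  simp [h2, h]

/-- Two quadratic root groups in general position. -/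
structure Two (Γ : Subgroup (V ≃ₗ[F] V)) (R R' : End F V) : Prop where
  sq : R * R = 0
  sq' : R' * R' = 0
  ker : ∀ y, R y = 0 → ∃ z, R z = y
  u : ∀ t : F, ∃ g ∈ Γ, g.toLinearMap = 1 + t • R
  l : ∀ t : F, ∃ g ∈ Γ, g.toLinearMap = 1 + t • R'
  fix : ∀ g ∈ Γ, ∀ y, R y = 0 → R' y = 0 → g y = y
  sub : ∀ g ∈ Γ, ∀ y, ∃ p, R' p = 0 ∧ R (g y - y) = R p
  nice : ∀ y, R' y = 0 → R' (R y) = 0 → R y = 0
  nice' : ∀ y, R y = 0 → R (R' y) = 0 → R' y = 0
  tri : ∀ g ∈ Γ, (∀ y, R y = 0 → R (g y) = 0 → R' y = 0) ∨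
    Commute R (g.toLinearMap * R * (g⁻¹).toLinearMap) ∨ ∀ y, R y = 0 → R (g y) = 0
  root : ∀ g ∈ Γ, R * g.toLinearMap = R → ∃ t : F, g.toLinearMap = 1 + t • R
  ne : R * R' ≠ 0

/-- The matrix `m` describes the action of `g`. -/
def Rp (R R' g : End F V) (m : Matrix (Fin 2) (Fin 2) F[X]) : Prop :=
  ∀ i, ![R * R', R] i * g = ∑ j, aeval (R * R') (m i j) * ![R * R', R] j

variable {Γ : Subgroup (V ≃ₗ[F] V)} {R R' : End F V} {m m' : Matrix (Fin 2) (Fin 2) F[X]}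
  {g g' : V ≃ₗ[F] V}

theorem Rp.sum {g} (h : Rp R R' g m) (m' : Matrix (Fin 2) (Fin 2) F[X]) (i : Fin 2) :
    (∑ j, aeval (R * R') (m' i j) * ![R * R', R] j) * g =
      ∑ j, aeval (R * R') ((m' * m) i j) * ![R * R', R] j := by
  simp only [Finset.sum_mul, mul_assoc, h _, Finset.mul_sum, mul_apply, map_sum, map_mul]
  exact Finset.sum_comm

theorem rp_one : Rp R R' 1 1 := Fin.forall_fin_two.2 ⟨by simp, by simp⟩

/-- The graph of the representation. -/
def Ok (Γ : Subgroup (V ≃ₗ[F] V)) (R R' : End F V) (g : V ≃ₗ[F] V)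
    (m : Matrix (Fin 2) (Fin 2) F[X]) : Prop := g ∈ Γ ∧ m.det = 1 ∧ Rp R R' g.toLinearMap m

theorem Ok.zero (h : Ok Γ R R' g m) :
    R * R' * g.toLinearMap = aeval (R * R') (m 0 0) * (R * R') + aeval (R * R') (m 0 1) * R := by
  simpa using h.2.2 0

theorem Ok.one (h : Ok Γ R R' g m) :
    R * g.toLinearMap = aeval (R * R') (m 1 0) * (R * R') + aeval (R * R') (m 1 1) * R := by
  simpa using h.2.2 1

theorem Ok.mul (h : Ok Γ R R' g m) (h' : Ok Γ R R' g' m') : Ok Γ R R' (g * g') (m * m') :=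
  ⟨mul_mem h.1 h'.1, by simp [h.2.1, h'.2.1], fun i => by
    rw [LinearEquiv.coe_toLinearMap_mul, ← mul_assoc, h.2.2, h'.2.2.sum]⟩

theorem Ok.inv (h : Ok Γ R R' g m) : Ok Γ R R' g⁻¹ m.adjugate :=
  ⟨inv_mem h.1, by simp [det_adjugate, h.2.1], fun i => LinearMap.ext fun y => by
    have := LinearMap.congr_fun (h.2.2.sum m.adjugate i) (g⁻¹ y)
    rw [adjugate_mul, h.2.1, one_smul, ← rp_one] at this
    simpa using this.symm⟩

variable (Γ R R') in
/-- The image in `PGL₂`. -/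
def Im (ζ : K) : Subgroup PGL(2, K) where
  carrier := {p | ∃ g m, Ok Γ R R' g m ∧ ∃ k : GL (Fin 2) K, p = .mk k ∧ k.1 = m.map (aeval ζ)}
  one_mem' := ⟨1, 1, ⟨one_mem _, det_one, rp_one⟩, 1, rfl, by simp⟩
  mul_mem' := by
    rintro _ _ ⟨_, _, h, k, rfl, e⟩ ⟨_, _, h', k', rfl, e'⟩
    exact ⟨_, _, h.mul h', k * k', rfl, by rw [Units.val_mul, e, e', Matrix.map_mul]⟩
  inv_mem' := by
    rintro _ ⟨_, _, h, k, rfl, e⟩
    exact ⟨_, _, h.inv, k⁻¹, rfl, Units.inv_eq_of_mul_eq_one_right (by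
      rw [e, ← Matrix.map_mul, mul_adjugate, h.2.1]; simp)⟩

namespace Two

variable (h : Two Γ R R')
include h

theorem u_mem (t : F) : ∃ g, Ok Γ R R' g !![1, C t * X; 0, 1] ∧ g.toLinearMap = 1 + t • R :=
  let ⟨g, hg, e⟩ := h.u t
  ⟨g, ⟨hg, by simp, fun i => by
    fin_cases i <;> simp [e, mul_add, h.sq, Algebra.algebraMap_eq_smul_one]⟩, e⟩

theorem l_mem (t : F) : ∃ g, Ok Γ R R' g !![1, 0; C t, 1] :=
  let ⟨g, hg, e⟩ := h.l t
  ⟨g, hg, by simp, fun i => by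
    fin_cases i <;> simp [e, mul_add, h.sq', mul_assoc, add_comm, Algebra.algebraMap_eq_smul_one]⟩

theorem R_R (y : V) : R (R y) = 0 := LinearMap.congr_fun h.sq y

theorem R'_R' (y : V) : R' (R' y) = 0 := LinearMap.congr_fun h.sq' y

theorem Z_inj (y : V) (e : (R * R') ((R * R') y) = 0) : (R * R') y = 0 :=
  h.nice _ (h.R'_R' y) (h.nice' _ (h.R_R _) e)

theorem comm (hx : Ok Γ R R' g m) (h2 : (2 : F) ≠ 0)
    (e : Commute R (g.toLinearMap * R * (g⁻¹).toLinearMap)) (y : V) (hy : R y = 0) :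
    R (g y) = 0 := by
  obtain ⟨y, rfl⟩ := h.ker y hy
  have h1 := hx.zero
  have h3 := hx.one
  have h4 := hx.inv.one
  have h5 := hx.2.1
  rw [det_fin_two] at h5
  simp only [adjugate_fin_two, of_apply, cons_val', cons_val_zero, cons_val_one,
    cons_val_fin_one] at h4
  change (R * g.toLinearMap * R) y = 0
  generalize m 0 0 = a, m 0 1 = b, m 1 0 = c, m 1 1 = d, g.toLinearMap = g,
    (g⁻¹).toLinearMap = g' at *
  have hi := h.Z_inj
  obtain ⟨ρ, hρ⟩ : ∃ ρ : F[X] →ₐ[F] End F V, ρ = aeval (R * R') := ⟨_, rfl⟩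
  have hX : R * R' = ρ X := by simp [hρ]
  rw [← hρ, hX] at h1 h3 h4
  rw [hX] at hi
  have k1 : R * g * R = ρ (c * X) * R := by simp [h3, add_mul, mul_assoc, h.sq]
  have k2 : ρ X * g * R = ρ (a * X) * R := by simp [h1, add_mul, mul_assoc, h.sq]
  have k3 : R * g' * R = ρ (-c * X) * R := by simp [h4, add_mul, mul_assoc, h.sq]
  have e1 : ρ (c * X * (c * X)) * R = 0 := by
    have : R * R * (g * R * g') = R * g * R * g' * R := by
      rw [mul_assoc, e.eq]; simp only [mul_assoc]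
    rw [h.sq, zero_mul, k1, mul_assoc _ R, mul_assoc _ _ R, k3, ← mul_assoc, ← map_mul, neg_mul,
      mul_neg] at this
    simpa using this
  have e2 : ρ (a * X * (c * X)) * R = 0 := by
    have : ρ X * (R * g * R) * g' = ρ X * g * R * g' * R := by
      simpa only [mul_assoc] using congrArg (ρ X * ·) e.eq
    rw [k1, k2, mul_assoc _ R, mul_assoc _ _ R, k3, ← mul_assoc (ρ X), mul_assoc _ R, h4, mul_add,
      ← map_mul, ← map_mul, ← mul_assoc _ (ρ a), ← mul_assoc _ _ R, ← map_mul, ← map_mul, ← map_mul,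
      show X * (c * X) * (-c * X) = -(c * X * (c * X) * X) by ring, map_neg, map_mul _ _ X,
      ← hX, ← mul_assoc, e1, show X * (c * X) * a = a * X * (c * X) by ring,
      show a * X * (-c * X) = -(a * X * (c * X)) by ring, map_neg] at this
    refine (smul_eq_zero.1 ?_).resolve_left h2
    rw [two_smul, add_eq_zero_iff_eq_neg]
    simpa only [zero_mul, neg_zero, zero_add, neg_mul] using this
  have e3 : ρ (X * (X * c)) * R = 0 := by
    rw [show X * (X * c) = d * (a * X * (c * X)) - b * (c * X * (c * X)) by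
      linear_combination -(X * (X * c)) * h5, map_sub, sub_mul, map_mul ρ d, map_mul ρ b,
      mul_assoc (ρ d), mul_assoc (ρ b), e1, e2]
    simp
  rw [k1, mul_comm c]
  simpa using hi (ρ c (R y)) (by simpa using LinearMap.congr_fun e3 y)

variable {ζ : K} {θ : V →ₗ[F] K} (hθ : ∀ y, θ ((R * R') y) = ζ * θ y)
include hθ

omit h in
theorem ev (f : F[X]) (y : V) : θ (aeval (R * R') f y) = aeval ζ f * θ y := by
  induction f using Polynomial.induction_on generalizing y with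
  | C a => simp [Algebra.smul_def]
  | add f g h h' => simp [h, h', add_mul]
  | monomial n a h => rw [pow_succ, ← mul_assoc, map_mul, End.mul_apply, h, aeval_X, hθ]; simp; ring

omit h in
theorem ev_zero (hx : Ok Γ R R' g m) (y : V) :
    ζ * θ (g y) = aeval ζ (m 0 0) * (ζ * θ y) + aeval ζ (m 0 1) * θ (R y) := by
  simpa only [End.mul_apply (R * R'), End.mul_apply (aeval _ _), LinearMap.add_apply, map_add,
    ev hθ, hθ, LinearEquiv.coe_coe] using congrArg θ (LinearMap.congr_fun hx.zero y)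

omit h in
theorem ev_one (hx : Ok Γ R R' g m) (y : V) :
    θ (R (g y)) = aeval ζ (m 1 0) * (ζ * θ y) + aeval ζ (m 1 1) * θ (R y) := by
  simpa only [End.mul_apply R g.toLinearMap, End.mul_apply (aeval _ _), LinearMap.add_apply,
    map_add, ev hθ, hθ, LinearEquiv.coe_coe] using congrArg θ (LinearMap.congr_fun hx.one y)

variable (hζ : ζ ≠ 0) (hθ0 : θ ≠ 0)
include hζ hθ0

theorem exists_vec : ∃ y₀ y₁, R y₀ = 0 ∧ θ y₀ ≠ 0 ∧ θ y₁ = 0 ∧ θ (R y₁) ≠ 0 :=
  let ⟨y, hy⟩ := DFunLike.ne_iff.1 hθ0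
  ⟨(R * R') y, R' y, h.R_R _, hθ y ▸ mul_ne_zero hζ hy,
    by simpa [h.R'_R', hζ] using hθ (R' y), (hθ y ▸ mul_ne_zero hζ hy :)⟩

theorem map_eq (hx : Ok Γ R R' g m) (hx' : Ok Γ R R' g m') : m.map (aeval ζ) = m'.map (aeval ζ) := by
  obtain ⟨y₀, y₁, h1, h2, h3, h4⟩ := h.exists_vec hθ hζ hθ0
  ext i j
  fin_cases i <;> fin_cases j
  exacts [by simpa [h1, h2, hζ] using (ev_zero hθ hx y₀).symm.trans (ev_zero hθ hx' y₀),
    by simpa [h3, h4] using (ev_zero hθ hx y₁).symm.trans (ev_zero hθ hx' y₁),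
    by simpa [h1, h2, hζ] using (ev_one hθ hx y₀).symm.trans (ev_one hθ hx' y₀),
    by simpa [h3, h4] using (ev_one hθ hx y₁).symm.trans (ev_one hθ hx' y₁)]

theorem finite_Im [Finite V] : Finite (Im Γ R R' ζ) := by
  have : Finite (V ≃ₗ[F] V) := Finite.of_injective _ DFunLike.coe_injective
  have : ∀ p : Im Γ R R' ζ, _ := fun p => p.2
  choose g m h1 k h2 h3 using this
  refine Finite.of_injective g fun p q e => Subtype.ext ?_
  rw [h2, h2, Units.ext ((h3 p).trans ((h.map_eq hθ hζ hθ0 (h1 p) (e ▸ h1 q)).trans (h3 q).symm))]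

variable [FiniteDimensional F V] (h2 : (2 : F) ≠ 0)
include h2

theorem stab (hx : Ok Γ R R' g m) (hc : aeval ζ (m 1 0) = 0) (y : V) (hy : R y = 0) :
    R (g y) = 0 := by
  rcases h.tri _ hx.1 with e | e | e
  swap
  · exact h.comm hx h2 e y hy
  swap
  · exact e y hy
  let f : End F (LinearMap.range (R * R')) := (R * g.toLinearMap).restrict (by
    rintro _ ⟨y, rfl⟩
    refine ⟨aeval (R * R') (m 1 0) ((R * R') y), ?_⟩
    have := ((commute_X (m 1 0)).map (aeval (R * R'))).eq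
    rw [aeval_X] at this
    rw [hx.one, ← End.mul_apply, this]
    simp [h.R_R])
  have := LinearMap.injective_iff_surjective.1 ((injective_iff_map_eq_zero f).2
    fun ⟨_, y, rfl⟩ e' => Subtype.ext (h.nice _ (h.R'_R' y) (e _ (h.R_R _) (congrArg Subtype.val e'))))
  obtain ⟨y₀, hy₀⟩ := DFunLike.ne_iff.1 hθ0
  obtain ⟨⟨_, y₁, rfl⟩, e'⟩ := this ⟨_, y₀, rfl⟩
  have := ev_one hθ hx ((R * R') y₁)
  rw [show R (g ((R * R') y₁)) = (R * R') y₀ from congrArg Subtype.val e', hθ, hc] at this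
  simp [h.R_R, hζ] at this
  exact (hy₀ this).elim

theorem conj (hx : Ok Γ R R' g m) (hc : aeval ζ (m 1 0) = 0) : ∃ μ : F,
    (∀ y, g (R y) = μ • R (g y)) ∧ aeval ζ (m 0 0) = algebraMap F K μ * aeval ζ (m 1 1) := by
  obtain ⟨u, hu, e⟩ := h.u 1
  have e' : ∀ y, u y = y + R y := fun y => by simpa using LinearMap.congr_fun e y
  obtain ⟨μ, hμ⟩ := h.root _ (mul_mem (mul_mem hx.1 hu) (inv_mem hx.1)) (LinearMap.ext fun y => by
    simp [e', h.stab hθ hζ hθ0 h2 hx hc _ (h.R_R _)])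
  have h1 : ∀ y, g (R y) = μ • R (g y) := fun y => by simpa [e'] using LinearMap.congr_fun hμ (g y)
  obtain ⟨-, y, -, -, -, h4⟩ := h.exists_vec hθ hζ hθ0
  have h5 := ev_zero hθ hx (R y)
  rw [h1, map_smul, ev_one hθ hx, hc, h.R_R, Algebra.smul_def, map_zero] at h5
  exact ⟨μ, h1, mul_right_cancel₀ (mul_ne_zero hζ h4) (by linear_combination -h5)⟩

theorem aff_mem {b : K} : aff 1 b ∈ Im Γ R R' ζ ↔ ∃ t : F, algebraMap F K t * ζ = b := by
  have key : ∀ t : F, (gl2 ((1 : Kˣ) : K) (algebraMap F K t * ζ) 0 1 (by simp)).1 =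
      !![1, C t * X; 0, 1].map (aeval ζ) := fun t => by
    ext i j; fin_cases i <;> fin_cases j <;> simp
  refine ⟨fun ⟨g, m, hx, k, e, hk⟩ => ?_, fun ⟨t, ht⟩ =>
    let ⟨g, hg, _⟩ := h.u_mem t; ⟨g, _, hg, _, ht ▸ rfl, key t⟩⟩
  obtain ⟨u, hu, e1, -, e2, e3⟩ := (pgl_mk_eq_mk_iff _ _).1 e
  simp only [hk, map_apply, gl2_coe, of_apply, cons_val', cons_val_zero, cons_val_one,
    cons_val_fin_one, Units.val_one, mul_one, mul_zero] at e1 e2 e3
  obtain ⟨μ, h1, h3⟩ := h.conj hθ hζ hθ0 h2 hx e2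
  obtain rfl : μ = 1 := (algebraMap F K).injective (mul_right_cancel₀ hu (by rw [← e3, ← h3, e1, e3]; simp))
  have h4 := h.stab hθ hζ hθ0 h2 hx e2
  have k0 := fun y => LinearMap.congr_fun hx.zero y
  have k1 := fun y => LinearMap.congr_fun hx.one y
  simp only [End.mul_apply, LinearMap.add_apply, LinearEquiv.coe_coe] at k0 k1
  have k2 : ∀ y, aeval (R * R') (m 1 0) (R (R' (R y))) = 0 := fun y => by
    simpa [h.R_R, h4 _ (h.R_R y)] using (k1 (R y)).symm
  have k3 : ∀ (f : F[X]) y, R (R' (aeval (R * R') f y)) = aeval (R * R') f (R (R' y)) := fun f y => by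
    simpa using LinearMap.congr_fun ((commute_X f).map (aeval (R * R'))).eq y
  have k4 : ∀ y, R (R' (g (g (R y)) - R y)) = 0 := fun y => by
    have e4 := k0 (R y)
    have e5 := congrArg (aeval (R * R') (m 0 0)) (e4.symm.trans (by rw [h1, one_smul, k1]))
    have e6 := congrArg (fun f => aeval (R * R') f (R (R' (R y)))) ((det_fin_two m).symm.trans hx.2.1)
    simp only [map_add, k3, k2, h.R_R, map_zero, add_zero, zero_add, map_sub, map_mul,
      LinearMap.sub_apply, End.mul_apply, map_one, End.one_apply, sub_zero] at e4 e5 e6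
    rw [map_sub, map_sub, k0, h4 _ (h.R_R y), e4, e5, e6]
    simp
  obtain ⟨t, ht⟩ := h.root _ (mul_mem hx.1 hx.1) (LinearMap.ext fun y => by
    obtain ⟨p, e4, e5⟩ := h.sub _ (mul_mem hx.1 hx.1) y
    have e6 : R (g (g y) - y) = g (g (R y)) - R y := by simp [h1]
    rw [LinearEquiv.mul_apply] at e5
    have := h.nice p e4 (by rw [← e5]; exact h.nice' _ (h.R_R _) (e6 ▸ k4 y))
    rwa [← e5, map_sub, sub_eq_zero] at this)
  obtain ⟨g', hg', e4⟩ := h.u_mem t
  obtain rfl : g' = g * g := LinearEquiv.toLinearMap_injective (e4.trans ht.symm)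
  have e5 : aff 1 b * aff 1 b = aff 1 (algebraMap F K t * ζ) := by
    rw [e, ← map_mul]
    exact congrArg _ (Units.ext (by
      rw [Units.val_mul, hk, ← Matrix.map_mul, key, h.map_eq hθ hζ hθ0 (hx.mul hx) hg']))
  rw [aff_mul, aff_inj] at e5
  have h7 : (2 : K) ≠ 0 := by simpa [map_ofNat] using (_root_.map_ne_zero (algebraMap F K)).2 h2
  refine ⟨t / 2, ?_⟩
  rw [map_div₀, map_ofNat, div_mul_eq_mul_div, ← e5.2]
  simp [← two_mul, h7]

theorem exists_eq [Finite F] [IsAlgClosed K] (h5 : 5 ≤ Nat.card F) : ∃ z, algebraMap F K z = ζ := by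
  have : Finite V := Module.finite_of_finite F
  have := h.finite_Im hθ hζ hθ0
  have h7 : (2 : K) ≠ 0 := by simpa [map_ofNat] using (_root_.map_ne_zero (algebraMap F K)).2 h2
  have key : ∀ t : F, ∀ y, y * algebraMap F K t = 1 → pt y ∈ orbit (Im Γ R R' ζ) (inf : P1 K) :=
    fun t y e =>
      let ⟨g, hg⟩ := h.l_mem t
      ⟨⟨_, g, _, hg, gl2 1 0 (algebraMap F K t) 1 (by simp), rfl, by
        ext i j; fin_cases i <;> fin_cases j <;> simp⟩,
        (pgl_mk_smul _ _).trans ((gl_smul_inf_eq_pt _ _).2 (by simp [e]))⟩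
  exact mem_range_of_dickson h2 h5 _ hζ (fun _ => h.aff_mem hθ hζ hθ0 h2) (key 1 1 (by simp))
    (key 2 _ (by simp [map_ofNat, h7]))

omit hθ hζ hθ0 in
theorem exists_tor [Finite F] (h5 : 5 ≤ Nat.card F) {l : F} (h0 : l ≠ 0) (h1 : l ^ 2 ≠ 1) :
    ∃ g ∈ Γ, (∀ y, R y = 0 → g y = l • y) ∧ ∀ y, R' y = 0 → g y = l⁻¹ • y := by
  obtain ⟨ζ, hζ, θ, hθ0, hθ⟩ := exists_left_eigen (K := AlgebraicClosure F) h.ne h.Z_inj
  obtain ⟨z, rfl⟩ := h.exists_eq hθ hζ hθ0 h2 h5
  have hz : z ≠ 0 := fun h => hζ (by simp [h])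
  have hl : l - 1 ≠ 0 := fun h => h1 (by simp [sub_eq_zero.1 h])
  obtain ⟨g, m, hx, e0, e1, e2, κ, hκ, e3⟩ : ∃ g m, Ok Γ R R' g m ∧ eval z (m 0 0) = l ∧
      eval z (m 0 1) = 0 ∧ eval z (m 1 1) = l⁻¹ ∧ ∃ κ ≠ 0, m 1 0 = C κ * (X - C z) := by
    obtain ⟨g₁, f1⟩ := h.l_mem (-((l - 1) / l))
    obtain ⟨g₂, f2, -⟩ := h.u_mem z⁻¹
    obtain ⟨g₃, f3⟩ := h.l_mem (l - 1)
    obtain ⟨g₄, f4, -⟩ := h.u_mem (-(l * z)⁻¹)
    refine ⟨_, _, ((f1.mul f2).mul f3).mul f4, ?_, ?_, ?_, -((l - 1) / l) * z⁻¹ * (l - 1),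
      by simp [hl, h0, hz], ?_⟩
    iterate 3 simp; field_simp; ring
    simp only [Matrix.mul_fin_two, of_apply, cons_val', cons_val_zero, cons_val_one, cons_val_fin_one]
    have : C (-((l - 1) / l)) + C (l - 1) = -(C (-((l - 1) / l) * z⁻¹ * (l - 1)) * C z) := by
      rw [← map_add, ← map_mul, ← map_neg]; congr 1; field_simp; ring
    rw [map_mul, map_mul] at this ⊢
    linear_combination this
  have hc : aeval (algebraMap F (AlgebraicClosure F) z) (m 1 0) = 0 := by simp [e3]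
  obtain ⟨μ, f1, f2⟩ := h.conj hθ hζ hθ0 h2 hx hc
  have f3 := h.stab hθ hζ hθ0 h2 hx hc
  rw [aeval_algebraMap_apply_eq_algebraMap_eval, aeval_algebraMap_apply_eq_algebraMap_eval, e0, e2,
    ← map_mul, (algebraMap F _).injective.eq_iff, eq_mul_inv_iff_mul_eq₀ h0, ← pow_two] at f2
  subst f2
  have f4 : ∀ y, R y = 0 → R' y = 0 → y = 0 := fun y k1 k2 => by
    have k3 := h.fix g hx.1 y k1 k2
    obtain ⟨y, rfl⟩ := h.ker y k1
    obtain ⟨p, k4, k5⟩ := h.sub g hx.1 y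
    rw [map_sub, sub_eq_iff_eq_add] at k5
    rw [f1, k5] at k3
    have k6 : R' (R p) = 0 := by simpa [k2, h0] using congrArg R' k3
    rw [h.nice p k4 k6, zero_add] at k3
    exact by_contra fun k7 => h1 (smul_left_injective F k7 (k3.trans (one_smul _ _).symm))
  have k0 := fun y => LinearMap.congr_fun hx.zero y
  have k1 := fun y => LinearMap.congr_fun hx.one y
  simp only [End.mul_apply, LinearMap.add_apply, LinearEquiv.coe_coe] at k0 k1
  have f5 : ∀ y, R y = 0 → (R * R') y = z • y := fun y hy => by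
    have := k1 y
    rw [f3 y hy, e3] at this
    refine sub_eq_zero.1 (f4 _ (by simp [h.R_R, hy]) (h.nice' _ (by simp [h.R_R, hy]) ?_))
    simpa [hy, hκ, Algebra.algebraMap_eq_smul_one] using this.symm
  have f6 : ∀ (f : F[X]) y, R y = 0 → aeval (R * R') f y = eval z f • y := fun f y hy =>
    End.aeval_apply_of_mem_apply_eq_smul (f5 y hy)
  simp only [f6 _ _ (h.R_R _), e0, e1, e2, e3] at k0 k1
  refine ⟨g, hx.1, fun y hy => smul_right_injective V hz ?_, fun y hy => sub_eq_zero.1 (f4 _ ?_ ?_)⟩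
  · simpa [← f5 _ (f3 y hy), smul_comm z, ← f5 y hy] using k0 y
  · simp [k1]
  · simpa [hy] using f4 _ (by simpa [hy] using k0 y) (h.R'_R' (g y))

end Two

end Cfsg.Lib.TW
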