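import Cfsg.Agent.Lib.TW.SpC
import Cfsg.Agent.Lib.TW.Two

/-!
# Symplectic tensor factors: the core in dimension two and the maximality theorems
-/

set_option autoImplicit false
set_option linter.unusedSectionVars false

namespace Cfsg.Lib.TW

open Module Function Cfsg.Lib.Unitary Cfsg.Lib.TMax
open scoped commutatorElement

variable {F U W V : Type*} [Field F] [AddCommGroup U] [Module F U] [AddCommGroup W] [Module F W]
  [AddCommGroup V] [Module F V] {ε' : F} {A : U →ₗ[F] U →ₗ[F] F}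
  {B : V →ₗ[F] V →ₗ[F] F} {N : Subgroup (U ≃ₗ[F] U)} {M : Subgroup (V ≃ₗ[F] V)}
  {T T' : TF F U W V} {ι : Type*} [DecidableEq ι] [Fintype ι] {Φ : Fam ι F U W V}
  [FiniteDimensional F U] [FiniteDimensional F W] [FiniteDimensional F V] [Nontrivial W]

namespace Gs

section two

variable (γ : Gs A N) (hn : finrank F U = 2) {w : U} {P₀ : Submodule F V}
include γ hn

theorem c_eq_zero (h0 : w ≠ 0) {y : V} : T.c (A w) y = 0 ↔ y ∈ T.P (F ∙ w) :=
  ⟨fun h => T.P_mono (fun _ => γ.mem_line hn h0) (T.mem_P_ker.2 h), T.c_of_mem1 (γ.alt w)⟩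

theorem R_eq_zero (h0 : w ≠ 0) {y : V} : T.e (rk A w w) y = 0 ↔ y ∈ T.P (F ∙ w) := by
  rw [← γ.c_eq_zero hn h0, rk, TF.e_r]
  exact ⟨fun h => T.t_inj h0 (by simpa using h), fun h => by simp [h]⟩

theorem rad (h : GoodF A B N M T) (h0 : w ≠ 0) {g} (hg : g ∈ M) (h1 : ∀ y ∈ T.P (F ∙ w), g y = y) :
    ∃ a, ∀ x, g x = T.e a x :=
  h.rad w h0 (γ.alt w) g hg h1 fun x hx => by simp [h1 x ((γ.c_eq_zero hn h0).1 hx)]

variable (hB : EF (RingHom.id F) ε' B) (hM : M ≤ UG B)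
  (c : Cfg (RF (-1) A) M (GoodF A B N M) T T' w P₀)
include c

omit hn in
theorem root_mem (t : F) : ∃ g ∈ Gam M P₀ (T.P (F ∙ w) ⊔ T'.P (F ∙ w)),
    g.toLinearMap = 1 + t • T.e (rk A w w) := by
  obtain ⟨b, hb, hb'⟩ := γ.h.exists_transv (c := t) (γ.alt w) (by simp)
  have h : IsRt T w (t • A w) (T.kr b 1) := isRt_kr hb'
  exact ⟨_, ⟨c.g.su b (γ.qe w (γ.alt w) hb), fun x hx => by
    rw [h, T.c_of_mem1 (by simp [γ.alt]) (c.le hx)]; simp, fun x => Submodule.mem_sup_left (h.sub_mem x)⟩,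
    LinearMap.ext fun x => (h x).trans (by simp [rk, TF.e_r, TF.c_smul])⟩

omit hn in
theorem mem_P₀ {S} (h1 : GoodF A B N M S) (h2 : Bad S T') (h3 : P₀ ≤ S.P (F ∙ w)) {y}
    (h4 : y ∈ S.P (F ∙ w)) (h5 : y ∈ T'.P (F ∙ w)) : y ∈ P₀ :=
  c.mp' h1 c.g' h2 (γ.rf1 c.ne) (γ.rf1 c.ne) h3 (fun _ hy => T'.c_of_mem1 (γ.alt w) (c.le' hy)) h4
    (T'.c_of_mem1 (γ.alt w) h5)

include hM

theorem nice {l : F} (h0 : l ≠ 0) (h1 : l ≠ 1) (y : V) (h2 : T'.e (rk A w w) y = 0)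
    (h3 : T'.e (rk A w w) (T.e (rk A w w) y) = 0) : T.e (rk A w w) y = 0 := by
  rw [γ.R_eq_zero hn c.ne] at h2 h3 ⊢
  obtain ⟨a, ha, h4, _, ⟨-, -, d, -, -, rfl⟩, h5⟩ :=
    γ.exists_bad c.s (.inl ⟨l, rfl, h0, h1⟩) c.g' c.g c.bad.symm (γ.rf1 c.ne)
  have h6 := γ.mem_P₀ c (c.g'.smul hM ha) h4.symm (fun x hx => (T'.smul_P a _).ge ⟨x, c.le' hx, by
      rw [LinearEquiv.coe_coe, h5, T.c_of_mem1 (by simp [γ.alt]) (c.le hx)]; simp⟩)
    ((T'.smul_P a _).ge ⟨y, h2, rfl⟩) (by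
      rw [LinearEquiv.coe_coe, h5, TF.c_smul, LinearMap.smul_apply, map_smul, ← TF.e_r]
      exact add_mem h2 (Submodule.smul_mem _ _ h3))
  simpa using sub_mem (c.le h6) (h5.sub_mem y)

theorem tri {g} (hg : g ∈ Gam M P₀ (T.P (F ∙ w) ⊔ T'.P (F ∙ w))) :
    (∀ y, T.e (rk A w w) y = 0 → T.e (rk A w w) (g y) = 0 → T'.e (rk A w w) y = 0) ∨
      Commute (T.e (rk A w w)) (g.toLinearMap * T.e (rk A w w) * (g⁻¹).toLinearMap) ∨
        ∀ y, T.e (rk A w w) y = 0 → T.e (rk A w w) (g y) = 0 := by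
  simp only [γ.R_eq_zero hn c.ne]
  by_cases h2 : Same T (g • T)
  · obtain ⟨v, -, hv⟩ := h2.exists_P1 c.ne
    have h3 : ∀ y ∈ T.P (F ∙ w), g y ∈ T.P (F ∙ v) := fun y hy => hv ▸ (T.smul_P g _).ge ⟨y, hy, rfl⟩
    by_cases h4 : v ∈ F ∙ w
    · exact .inr (.inr fun y hy => T.P_mono (by simpa) (h3 y hy))
    refine .inl fun y hy hy' => ?_
    obtain ⟨u, hu⟩ := T.mem_P1.1 (h3 y hy)
    obtain rfl : u = 0 := by_contra fun h => h4 (T.mem_of_t_mem h (hu ▸ hy'))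
    simp [show y = 0 by simpa using hu.symm]
  by_cases h3 : Comm T (g • T)
  · exact .inr (.inl (LinearMap.ext fun y => h3 (rk A w w) (rk A w w) y))
  refine .inl fun y hy hy' => ?_
  have := γ.mem_P₀ c.symm (c.g.smul hM hg.1) (Bad.symm ⟨h2, h3⟩) (fun x hx => (T.smul_P g _).ge
    ⟨x, c.le hx, hg.2.1 x hx⟩) ((T.smul_P g _).ge ⟨y, hy, rfl⟩) hy'
  exact c.le' (g.injective (hg.2.1 _ this) ▸ this)

include hB

theorem root {g} (hg : g ∈ M) (e : T.e (rk A w w) * g.toLinearMap = T.e (rk A w w)) :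
    ∃ t : F, g.toLinearMap = 1 + t • T.e (rk A w w) := by
  obtain ⟨f, hf⟩ := γ.h.exists_eq_one c.ne
  obtain ⟨u₀, hu₀⟩ := exists_ne (0 : W)
  have h2 : ∀ y, g y - y ∈ T.P (F ∙ w) := fun y => (γ.R_eq_zero hn c.ne).1
    (by rw [map_sub, sub_eq_zero]; exact LinearMap.congr_fun e y)
  have h3 : ∀ y ∈ T.P (F ∙ w), g y = y := fun y hy => by
    rw [← LinearEquiv.eq_symm_apply, eq_comm, ← sub_eq_zero]
    exact hB.nondeg _ fun x => (hB.apply_sub (hM hg) _ x).symm.trans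
      (c.g.cp.B_eq_zero hy (T.c_of_mem1 (γ.alt w) (h2 x)))
  obtain ⟨a, ha⟩ := γ.rad hn c.g c.ne hg h3
  obtain ⟨t, ht⟩ := Submodule.mem_span_singleton.1 (T.mem_of_t_mem (v := a f - f) hu₀
    (by simpa [ha] using h2 (T.t f u₀)))
  refine ⟨t, T.ext' fun v u => ?_⟩
  have := h3 _ (T.t_mem_P (γ.mem_line hn c.ne (a := v - A w v • f) (by simp [hf])) u)
  simp only [map_sub, map_smul, LinearMap.sub_apply, LinearMap.smul_apply, ha (T.t f u), TF.e_t,
    eq_add_of_sub_eq ht.symm, map_add, LinearMap.add_apply] at this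
  simp only [LinearEquiv.coe_coe, LinearMap.add_apply, End.one_apply, LinearMap.smul_apply, TF.e_t,
    rk_apply, map_smul]
  linear_combination (norm := module) this

theorem isTwo {l : F} (h0 : l ≠ 0) (h1 : l ≠ 1) :
    Two (Gam M P₀ (T.P (F ∙ w) ⊔ T'.P (F ∙ w))) (T.e (rk A w w)) (T'.e (rk A w w)) := by
  obtain ⟨f, hf⟩ := γ.h.exists_eq_one c.ne
  have hR := fun {S : TF F U W V} {y} => γ.R_eq_zero hn (T := S) c.ne (y := y)
  refine ⟨T.e_r_mul (γ.alt w), T'.e_r_mul (γ.alt w), fun y hy => ?_, γ.root_mem c,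
    by rw [sup_comm]; exact γ.root_mem c.symm, fun g hg y h2 h3 =>
      hg.2.1 y (γ.mem_P₀ c c.g c.bad c.le (hR.1 h2) (hR.1 h3)), fun g hg y => ?_,
    γ.nice hn hM c h0 h1, γ.nice hn hM c.symm h0 h1, fun g => γ.tri hn hM c,
    fun g hg => γ.root hn hB hM c hg.1, fun h => ?_⟩
  · obtain ⟨u, rfl⟩ := T.mem_P1.1 (hR.1 hy)
    exact ⟨T.t f u, by simp [hf]⟩
  · obtain ⟨p, hp, p', hp', e⟩ := Submodule.mem_sup.1 (hg.2.2 y)
    exact ⟨p', hR.2 hp', by rw [← e, map_add, hR.2 hp, zero_add]⟩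
  · refine c.P_ne (P1_eq_of_le c.ne c.ne fun y hy => hR.1 ?_).symm
    obtain ⟨u, rfl⟩ := T'.mem_P1.1 hy
    simpa [hf] using LinearMap.congr_fun h (T'.t f u)

omit c in
theorem not_bad_two [Finite F] (h2 : (2 : F) ≠ 0) (h5 : 5 ≤ Nat.card F) {l : F} (h0 : l ≠ 0)
    (h1 : l ^ 2 ≠ 1) (h : GoodF A B N M T) (h' : GoodF A B N M T') : ¬ Bad T T' := fun hb => by
  have s := γ.sys (W := W) hB hM (.inl (γ.tor rfl h0 h1)) (.inr h2)
  have h3 : l ≠ 1 := fun h => h1 (by simp [h])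
  obtain ⟨w, h4, -⟩ := γ.exists_iso
  obtain ⟨S, S', w, χ, x', χ', k1, k2, k4, k5, k6, k7⟩ := exists_max h h' hb (γ.rf1 h4)
  obtain ⟨b, hb1, hb2, φ, hφ, hb3⟩ := γ.exists_bad s (.inl ⟨l, rfl, h0, h3⟩) k1 k2 k4 k6
  have c := s.cfg k1 k5 k7 hb1 hb2 fun y hy => by rw [hb3, hφ.c_eq.2 (k6.c_eq.1 hy)]; simp
  generalize b • S = S' at c
  obtain ⟨g, hg, e1, e2⟩ := (γ.isTwo hn hB hM c h0 h3).exists_tor h2 h5 h0 h1
  simp only [γ.R_eq_zero hn c.ne] at e1 e2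
  obtain ⟨f, hf, hwf⟩ := γ.h.exists_hyp c.ne (γ.alt w)
  obtain ⟨b, hb, e3, -⟩ := γ.exists_tor (γ.alt w) hf hwf (l := l) rfl h0
  obtain ⟨a, ha⟩ := γ.rad hn c.g c.ne (mul_mem (inv_mem (k1.su b hb)) hg.1) fun y hy => by
    rw [LinearEquiv.mul_apply, e1 y hy, LinearEquiv.coe_inv, LinearEquiv.symm_apply_eq]
    obtain ⟨u, rfl⟩ := S.mem_P1.1 hy
    simp [e3]
  have e4 : ∀ y, S.e (b.toLinearMap * a - l⁻¹ • 1) y = g y - l⁻¹ • y := fun y => by
    simp [← ha, ← TF.kr_one_apply]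
  obtain ⟨u, hu⟩ := exists_ne (0 : W)
  obtain ⟨v, hv⟩ := ((Submodule.finrank_le_one_iff_isPrincipal _).1 (Nat.le_of_lt_succ
    ((Submodule.finrank_lt (s := LinearMap.ker (b.toLinearMap * a - l⁻¹ • 1)) fun h => by
      have := e4 (S.t w u)
      rw [LinearMap.ker_eq_top.1 h, e1 _ (S.t_mem_P1 w u), ← sub_smul, eq_comm] at this
      refine h1 ?_
      rw [sq, ← eq_inv_mul_iff_mul_eq₀ h0, mul_one, ← sub_eq_zero]
      simpa [S.t_ne_zero c.ne hu] using this).trans_eq hn))).principal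
  have e5 : S'.P (F ∙ w) ≤ S.P (F ∙ v) := fun y hy =>
    hv ▸ S.ker_e.1 (by rw [e4, e2 y hy, sub_self])
  have hv0 : v ≠ 0 := fun h => S'.t_ne_zero c.ne hu (by
    obtain ⟨u', h'⟩ := S.mem_P1.1 (e5 (S'.t_mem_P1 w u))
    simp [← h', h])
  exact c.bad.1 (s.loc _ _ c.g c.g' v w χ hv0 k5 (P1_eq_of_le c.ne hv0 e5).symm)

end two

/-- The admissible parameters. -/
def _root_.Cfsg.Lib.TW.SpOk (F U : Type*) [Field F] [AddCommGroup U] [Module F U] : Prop :=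
  4 ≤ finrank F U ∧ ((2 : F) ≠ 0 ∨ 5 ≤ finrank F U) ∨
    finrank F U = 2 ∧ (2 : F) ≠ 0 ∧ 5 ≤ Nat.card F

variable (γ : Gs A N) [Finite F] (ok : SpOk F U) (hB : EF (RingHom.id F) ε' B) (hM : M ≤ UG B)
include γ ok hB hM

theorem wr_of_good (hG : ∀ i, GoodF A B N M (Φ.T i)) {g} (hg : g ∈ M) : Φ.Wr g := by
  refine Fam.wr_of_not_bad γ.two fun i j => ?_
  rcases ok with ⟨h1, h2⟩ | ⟨h1, h2, h3⟩
  · refine γ.not_bad hB hM (by omega) (.inr h1) ?_ (hG j) ((hG i).smul hM hg)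
    by_cases h : (2 : F) = 0
    · exact .inr ⟨h1, h, .inl (h2.resolve_left (by simpa))⟩
    · exact .inl ⟨-1, rfl, by simp, fun h' => h (by linear_combination -h')⟩
  · obtain ⟨l, h4, h5⟩ := Linear.exists_ne_zero_sq_ne_one (F := F) (by omega)
    exact γ.not_bad_two h1 hB hM h2 h3 h4 h5 (hG j) ((hG i).smul hM hg)

end Gs

theorem QE_le_zero {σ : F →+* F} {B : V →ₛₗ[σ] V →ₗ[F] F} : QE B 0 ≤ M := fun g hg => by
  rw [show g = 1 from LinearEquiv.ext fun v => by simpa using hg.2.2 v (by simp)]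
  exact one_mem _

omit [FiniteDimensional F U] in
theorem gs_of (hA : EF (RingHom.id F) (-1) A) (alt : ∀ y, A y y = 0) (h2 : 2 ≤ finrank F U)
    (h3 : ∀ e, QE A e ≤ N) (h4 : N ≤ UG A) : Gs A N :=
  ⟨⟨hA, fun X hX => (Submodule.exists_mem_ne_zero_of_ne_bot (p := X)
    (by rintro rfl; simp at hX)).imp fun w h => ⟨h.1, h.2, alt w⟩, ⟨1, by simp⟩, fun e _ => h3 e, h4,
    h2⟩, alt⟩

variable [Finite F] [Nontrivial ι] (ok : SpOk F U) (hA : EF (RingHom.id F) (-1) A)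
  (alt : ∀ y, A y y = 0) (hq : ∀ i e, ∀ b ∈ QE A e, (Φ.T i).kr b 1 ∈ M)
  (hP : ∀ s s' : Equiv.Perm ι, ∃ g ∈ M, Φ.IsPerm ⁅s, s'⁆ g)
include ok hA alt hq

theorem exists_gs : ∃ N, Gs A N ∧ ∀ i, ∀ b ∈ N, (Φ.T i).kr b 1 ∈ M :=
  ⟨UG A ⊓ ⨅ i, M.comap (Φ.T i).krHom, gs_of hA alt (by rcases ok with h | h <;> omega)
    (fun e b hb => ⟨hb.1, Subgroup.mem_iInf.2 fun i => hq i e b hb⟩) inf_le_left,
    fun i _ hb => Subgroup.mem_iInf.1 hb.2 i⟩

include hP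

theorem max_sp (p : PV Φ A B) (hB : EF (RingHom.id F) (-1) B) (alt' : ∀ y, B y y = 0)
    (hM : M ≤ UG B) (h2 : (2 : F) ≠ 0) (ht : Odd (Fintype.card ι)) (hV : 2 ≤ finrank F V) :
    (∀ g ∈ M, Φ.Wr g) ∨ UG B ≤ M := by
  obtain ⟨N, γ, su⟩ := exists_gs ok hA alt hq
  by_cases hG : ∀ i, GoodF A B N M (Φ.T i)
  · exact .inl fun _ => γ.wr_of_good ok hB hM hG
  have : Nontrivial V := Module.nontrivial_of_finrank_pos (R := F) (by omega)
  refine .inr ((gs_of hB alt' hV (fun _ _ h => h.1) le_rfl).ug_le fun z => ?_)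
  rcases eq_or_ne z 0 with rfl | hz
  · exact QE_le_zero
  refine p.QE_le_all γ.toGm hB hM su (c := 1) one_ne_zero (by simp) (fun x _ c _ => ?_)
    (.inr alt) hz (alt' z)
  rcases ok with ⟨h3, h4⟩ | ⟨h3, -, -⟩
  · obtain ⟨i⟩ : Nonempty ι := inferInstance
    simpa [← two_smul F, smul_smul, h2] using
      γ.long_of_not_good h3 su hB hM h4 p hP hG (alt (x i)) (c / 2)
  · exact p.tv_of_Q γ.toGm hB hM su (γ.Q_univ h3 hB hM h2 p su hP (l := -1) (by simp)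
      (fun h => h2 (by linear_combination -h)) hG ht) x (fun _ => alt _) c (by simp)

open QuadraticMap Cfsg.Lib.Orth in
theorem max_o {Q : QuadraticForm F V} (p : PV Φ A (polarBilin Q)) (hQ : ND Q) (hM : M ≤ O Q)
    (hs : ∀ x, Q (p.v x) = 0) (ht : finrank F U = 2 → Even (Fintype.card ι) ∧ 4 ≤ Fintype.card ι)
    (hV : 3 ≤ finrank F V) : (∀ g ∈ M, Φ.Wr g) ∨ (commutator (O Q)).map (O Q).subtype ≤ M := by
  obtain ⟨N, γ, su⟩ := exists_gs ok hA alt hq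
  have hB := ef_polar hQ
  have hM' := hM.trans O_le_UG
  by_cases hG : ∀ i, GoodF A (polarBilin Q) N M (Φ.T i)
  · exact .inl fun _ => γ.wr_of_good ok hB hM' hG
  have : Nontrivial V := Module.nontrivial_of_finrank_pos (R := F) (by omega)
  obtain ⟨i₀⟩ : Nonempty ι := inferInstance
  have h1 : ∀ x : ι → U, (∀ i, x i ≠ 0) → p.v x ≠ 0 →
      OMax.FullAt (M.comap (O Q).subtype) ⊤ (p.v x) := fun x h0 h1 =>
    OMax.fullAt_iff.2 fun z _ _ hz => by
      obtain ⟨-, g, hg, e⟩ : z ∈ AQ hB M (e := p.v x) (p.B_eq_zero (alt (x i₀))) := by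
        rcases ok with ⟨h3, h4⟩ | ⟨h3, h2, -⟩
        · exact p.mem_of_perp hA h0 (fun y i hy => mem_AQ_of_un (p.B_eq_zero hy)
            (z := (-1 : F) • p.v y) (by
              rw [rk_smul_left]
              simpa [sub_eq_add_neg] using γ.long_of_not_good h3 su hB hM' h4 p hP hG hy 1)) hz
        · exact γ.mem_AQ_two h3 hB hM' p (fun i => let ⟨j, hj⟩ := exists_ne i
            γ.long_of_Q h3 p su hj (γ.Q_erase h3 hB hM' h2 p su hP (l := -1) (by simp)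
              (fun h => h2 (by linear_combination -h)) hG (ht h3).1 i)) (ht h3).2 h0 _ hz
      obtain ⟨c, hc⟩ := exists_tv_of_fix hB h1 (O_le_UG ((eich Q (p.v x) z)⁻¹ * ⟨g, hM hg⟩).2)
        fun y hy => (O.inv_apply_eq _).2 (by
          rw [eich_apply (hs x) hz, show polar Q (p.v x) y = 0 from hy]; simpa using e y hy)
      have := eq_eich hQ h1 (hs x) (a := 0) (γ := c) (by simp) fun y => (hc y).trans (by simp)
      rw [neg_zero, eich_zero, inv_mul_eq_one] at this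
      exact this ▸ hg
  obtain ⟨e, h0, -⟩ := γ.exists_iso
  obtain ⟨f, hf⟩ := hA.exists_eq_one h0
  have h2 := p.B_ne_zero (x := fun _ => e) (y := fun _ => f) (by simp [hf])
  exact .inr (Subgroup.map_le_iff_le_comap.2 (OMax.commutator_le_of_pair hQ hV (hs _) (hs _) h2
    (h1 _ (fun _ => h0) fun h => h2 (by simp [h]))
    (h1 _ (fun _ h => by simp [h] at hf) fun h => h2 (by simp [h]))))

omit ok hA alt hq hP

section orth

open QuadraticMap Cfsg.Lib.Orth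

variable {Q : QuadraticForm F V} (p : PV Φ A (polarBilin Q)) (hs : ∀ x, Q (p.v x) = 0)
include hs

theorem PV.mem_O {g} (hg : g ∈ UG (polarBilin Q)) (h : ∀ x, Q (g (p.v x)) = 0) : g ∈ O Q :=
  p.span
    { carrier := {z | Q (g z) = Q z}
      zero_mem' := by simp
      add_mem' := fun {a b} h h' => by
        simp only [Set.mem_setOf_eq, map_add g, Q_add] at h h' ⊢
        rw [h, h', show polar Q (g a) (g b) = polar Q a b from hg a b]
      neg_mem' := fun h => by simpa [Q.map_neg] using h } fun x => (h x).trans (hs x).symm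

theorem PV.Q_eq_zero {X : End F V} (h1 : ∀ a b, polar Q (X a) (X b) = 0)
    (h : ∀ x, Q (X (p.v x)) = 0) : ∀ z, Q (X z) = 0 :=
  p.span
    { carrier := {z | Q (X z) = 0}
      zero_mem' := by simp
      add_mem' := fun {a b} h h' => by
        simp only [Set.mem_setOf_eq, map_add X, Q_add] at h h' ⊢
        simp [h, h', h1]
      neg_mem' := fun h => by simpa [Q.map_neg] using h } h

theorem PV.kr_mem_omega (γ : Gs A N) (hQ : ND Q) (h5 : 5 ≤ finrank F V) (i : ι) {w b}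
    (hb : b ∈ QE A w) : (Φ.T i).kr b 1 ∈ (commutator (O Q)).map (O Q).subtype := by
  have := γ.nontrivial
  have cp := p.cp γ.toGm i
  refine cp.unip (ef_polar hQ) (unip_omega hQ (not_exc_of_five_le h5) fun y hy => ?_) hb
    (p.mem_O hs (cp.kr_mem hb.1) fun x => by rw [TF.kr_one_apply, p.e_v, hs])
  obtain ⟨u, rfl⟩ := (Φ.T i).mem_P1.1 hy
  rcases eq_or_ne w 0 with rfl | h0
  · simp
  obtain ⟨f, hf⟩ := γ.h.exists_eq_one h0
  simpa [hf] using p.Q_eq_zero hs (X := (Φ.T i).e (rk A w w)) (fun a b => cp.B_eq_zero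
    (by rw [rk, TF.e_r]; exact TF.t_mem_P1 _ _ _) (by simp [rk, TF.e_r, γ.alt]))
    (fun x => by rw [p.e_v, hs]) ((Φ.T i).t f u)

end orth

section Std

open Matrix Cfsg.Geo Cfsg.Lib.Asch Cfsg.Lib.Linear
open scoped MatrixGroups

variable {F : Type*} [Field F] [Fintype F] {κ : Type} [Fintype κ] [DecidableEq κ] {k t : ℕ}
  {f₁ : (Fin k → F) → (Fin k → F) → F} (h₁ : IsSymplecticForm f₁)
include h₁

theorem ef_sp : EF (RingHom.id F) (-1) (bil (sform_of_symplectic h₁) 1) :=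
  ef_bil _ one_ne_zero rfl (.inr rfl) fun s => ⟨0, by simp [h₁.alternating]⟩

theorem spOk (e : κ ≃ (Fin t → Fin k)) (hn : 13 ≤ Fintype.card κ) (h3 : ¬ (Fintype.card F = 3 ∧ k = 2))
    (h6 : ¬ Odd (Fintype.card F) → 6 ≤ k) : 2 ≤ k ∧ SpOk F (Fin k → F) ∧ (k = 2 → 4 ≤ t) := by
  obtain ⟨m, hm⟩ := Symp.even_finrank (B := bil (sform_of_symplectic h₁) 1)
    (fun v => by simp [h₁.alternating]) ⟨(ef_sp h₁).nondeg, (ef_sp h₁).nondeg'⟩
  rw [Fintype.card_congr e, Fintype.card_pi_const, Fintype.card_fin] at hn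
  rw [finrank_fin_fun] at hm
  have h2 : 2 ≤ k := by
    by_contra h
    obtain rfl : k = 0 := by omega
    rcases t with _ | t <;> simp at hn
  refine ⟨h2, ?_, fun h => by_contra fun h' => ?_⟩
  · rw [SpOk, finrank_fin_fun, Symp.two_ne_zero_iff_odd_card, Nat.card_eq_fintype_card]
    have := Fintype.one_lt_card (α := F)
    by_cases h : Odd (Fintype.card F)
    · simp only [h, true_or, and_true, true_and]
      obtain ⟨r, hr⟩ := h
      omega
    · have := h6 h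
      omega
  · subst h
    exact absurd (hn.trans (Nat.pow_le_pow_right two_pos (show t ≤ 3 by omega))) (by norm_num)

theorem isMaximalIn_tw_sp {m : ℕ} (hm : 7 ≤ m) (hodd : Odd (Fintype.card F)) (ht : Odd t) (ht3 : 3 ≤ t)
    (h3 : ¬ (Fintype.card F = 3 ∧ k = 2)) {e : (Fin m ⊕ Fin m) ≃ (Fin t → Fin k)}
    {P : GL (Fin m ⊕ Fin m) F} (hT : IsTensorPowerFormStructure id (sympForm m F) f₁ e P) :
    IsMaximalIn (spGL m F) (tensorWreathSubgroup k t e P ⊓ spGL m F) := by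
  obtain ⟨hk, ok, -⟩ := spOk h₁ e (by simp; omega) h3 (absurd hodd)
  refine isMaximalIn_inf ((amb_sp (by omega) (by omega)).not_pow hk (by omega) (by simp; omega) e P)
    fun M hM hM' g hg hg' => ?_
  let B := LinearMap.flip (Symp.bil (Fin m) F)
  have key : ∀ g, g ∈ spGL m F ↔ glEquiv _ F g ∈ UG B := fun g =>
    ⟨fun h u v => by simpa [B, ← Symp.sympForm_eq_bil] using h v u,
      fun h u v => by simpa [B, ← Symp.sympForm_eq_bil] using h v u⟩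
  have alt : ∀ y, B y y = 0 := Symp.bil_isAlt (Fin m) F
  have hB : EF (RingHom.id F) (-1) B := ⟨fun _ => rfl, .inr rfl, fun u v => by
    simp [B, (Symp.bil_isAlt (Fin m) F).neg_eq], (Symp.bil_nondegenerate (Fin m) F).2,
    fun s => ⟨0, by simp [alt]⟩⟩
  obtain ⟨Φ, p, -, h2, h4⟩ := exists_pv (sform_of_symplectic h₁) (B := B)
    (fun u v => (Symp.sympForm_eq_bil m v u).symm) (by omega) (by omega) hT
  have : Nontrivial (Fin (k ^ (t - 1)) → F) := Module.nontrivial_of_finrank_pos (R := F) (by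
    simpa using pow_pos (by omega) _)
  have : Nontrivial (Fin t) := Fin.nontrivial_iff_two_le.2 (by omega)
  have h5 : ∀ g, Φ.Wr g → g ∈ UG B → g ∈ M.map (glEquiv _ F).toMonoidHom := fun g h h' => by
    obtain ⟨g, rfl⟩ := (glEquiv _ F).surjective g
    exact ⟨g, hM ⟨h2 g h, (key g).2 h'⟩, rfl⟩
  have alt₁ : ∀ y, bil (sform_of_symplectic h₁) 1 y y = 0 := fun y => by simp [h₁.alternating]
  have γ := gs_of (ef_sp h₁) alt₁ (by simpa) (fun _ _ h => h.1) le_rfl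
  refine (max_sp (M := M.map (glEquiv _ F).toMonoidHom) ok (ef_sp h₁) alt₁
    (fun i e b hb => h5 _ (Φ.wr_kr i b) ((p.cp γ.toGm i).kr_mem hb.1)) (fun s s' => ?_) p hB alt
    (by rintro _ ⟨g, hg, rfl⟩; exact (key g).1 (hM' hg)) (Symp.two_ne_zero_iff_odd_card.2 hodd)
    (by simpa) (by simp; omega)).elim (fun h => (hg' (h2 g (h _ ⟨g, hg, rfl⟩))).elim) fun h g hg => ?_
  · obtain ⟨a, e1, e2⟩ := h4 s
    obtain ⟨b, e3, e4⟩ := h4 s'
    exact ⟨_, h5 _ (e1.comm e3).wr (mul_mem (mul_mem (mul_mem (p.perm_mem e2) (p.perm_mem e4))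
      (inv_mem (p.perm_mem e2))) (inv_mem (p.perm_mem e4))), e1.comm e3⟩
  · obtain ⟨g', h6, h7⟩ := h ((key g).1 hg)
    rwa [← (glEquiv _ F).injective h7]

open QuadraticMap Cfsg.Lib.Orth in
theorem isMaximalIn_tw_o {Q : QuadraticForm F (κ → F)} (hQ : ND Q) (hn : 13 ≤ Fintype.card κ)
    (ht : 2 ≤ t) (hqt : Odd (Fintype.card F) → Even t) (h3 : ¬ (Fintype.card F = 3 ∧ k = 2))
    (h6 : ¬ Odd (Fintype.card F) → 6 ≤ k) {e : κ ≃ (Fin t → Fin k)} {P : GL κ F}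
    (hT : IsTensorPowerFormStructure id (polar Q) f₁ e P) (hs : ∀ x, Q (ppvec e P x) = 0) :
    IsMaximalIn (omegaGL Q) (tensorWreathSubgroup k t e P ⊓ omegaGL Q) := by
  obtain ⟨hk, ok, hk2⟩ := spOk h₁ e hn h3 h6
  refine isMaximalIn_inf ((amb_omega hQ (by omega)).not_pow hk ht (by omega) e P)
    fun M hM hM' g hg hg' => ?_
  obtain ⟨Φ, p, h1, h2, h4⟩ := exists_pv (sform_of_symplectic h₁) (B := polarBilin Q)
    (fun u v => polar_comm Q u v) (by omega) (by omega) hT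
  simp only [← h1] at hs
  have : Nontrivial (Fin (k ^ (t - 1)) → F) := Module.nontrivial_of_finrank_pos (R := F) (by
    simpa using pow_pos (by omega) _)
  have : Nontrivial (Fin t) := Fin.nontrivial_iff_two_le.2 ht
  have h5 : ∀ g, Φ.Wr g → g ∈ (commutator (O Q)).map (O Q).subtype →
      g ∈ M.map (Unitary.glEquiv _ F).toMonoidHom := fun g h h' => by
    obtain ⟨g, rfl⟩ := (Unitary.glEquiv _ F).surjective g
    exact ⟨g, hM ⟨h2 g h, (glEquiv_mem_omega g).1 h'⟩, rfl⟩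
  have alt₁ : ∀ y, bil (sform_of_symplectic h₁) 1 y y = 0 := fun y => by simp [h₁.alternating]
  have γ := gs_of (ef_sp h₁) alt₁ (by simpa) (fun _ _ h => h.1) le_rfl
  refine (max_o (M := M.map (Unitary.glEquiv _ F).toMonoidHom) ok (ef_sp h₁) alt₁
    (fun i e b hb => h5 _ (Φ.wr_kr i b) (p.kr_mem_omega hs γ hQ (by simp; omega) i hb))
    (fun s s' => ?_) p hQ (by
      rintro _ ⟨g, hg, rfl⟩
      exact Subgroup.map_subtype_le _ ((glEquiv_mem_omega g).2 (hM' hg))) hs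
    (fun h => ?_) (by simp; omega)).elim (fun h => (hg' (h2 g (h _ ⟨g, hg, rfl⟩))).elim)
    fun h g hg => ?_
  · obtain ⟨a, e1, e2⟩ := h4 s
    obtain ⟨b, e3, e4⟩ := h4 s'
    exact ⟨_, h5 _ (e1.comm e3).wr ⟨_, Subgroup.commutator_mem_commutator (Subgroup.mem_top
      ⟨_, p.mem_O hs (p.perm_mem e2) fun x => by rw [e2, hs]⟩) (Subgroup.mem_top
      ⟨_, p.mem_O hs (p.perm_mem e4) fun x => by rw [e4, hs]⟩), rfl⟩, e1.comm e3⟩
  · rw [finrank_fin_fun] at h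
    simpa using ⟨hqt (by_contra fun h' => by have := h6 h'; omega), hk2 h⟩
  · obtain ⟨g', h6, h7⟩ := h ((glEquiv_mem_omega g).2 hg)
    rwa [← (Unitary.glEquiv _ F).injective h7]

end Std

end Cfsg.Lib.TW
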