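import Mathlib

/-!
# Tensor factors `V = U ⊗ W` (no form)
-/

set_option autoImplicit false
set_option linter.unusedSectionVars false

namespace Cfsg.Lib.TW

open Module
open scoped TensorProduct

variable {F U W V : Type*} [Field F] [AddCommGroup U] [Module F U] [AddCommGroup W] [Module F W]
  [AddCommGroup V] [Module F V]

theorem exists_dual {N : Submodule F U} {v : U} (hv : v ∉ N) :
    ∃ ψ : Dual F U, ψ v = 1 ∧ ∀ y ∈ N, ψ y = 0 := by
  obtain ⟨f, h1, h2⟩ := Submodule.exists_le_ker_of_notMem hv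
  exact ⟨(f v)⁻¹ • f, by simp [h1], fun y hy => by simp [show f y = 0 from h2 hy]⟩

theorem exists_dual_one {v : U} (hv : v ≠ 0) : ∃ ψ : Dual F U, ψ v = 1 :=
  (exists_dual (N := ⊥) (by simpa)).imp fun _ h => h.1

theorem exists_dual_span {w v : U} (hv : v ∉ F ∙ w) : ∃ ψ : Dual F U, ψ v = 1 ∧ ψ w = 0 :=
  (exists_dual hv).imp fun _ h => ⟨h.1, h.2 _ (Submodule.mem_span_singleton_self w)⟩

theorem exists_apply_one {ψ : Dual F U} (h : ψ ≠ 0) : ∃ v, ψ v = 1 := by
  obtain ⟨v, hv⟩ := DFunLike.ne_iff.1 h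
  exact ⟨(ψ v)⁻¹ • v, by simpa using inv_mul_cancel₀ hv⟩

theorem exists_notMem [FiniteDimensional F U] {N : Submodule F U} (h : finrank F N < finrank F U) :
    ∃ v, v ∉ N := by
  by_contra h0
  push Not at h0
  rw [show N = ⊤ from eq_top_iff.2 fun v _ => h0 v, finrank_top] at h
  exact h.false

theorem exists_dual_pair [FiniteDimensional F U] (h : 3 ≤ finrank F U) (v w : U) :
    ∃ ψ : Dual F U, ψ ≠ 0 ∧ ψ v = 0 ∧ ψ w = 0 := by
  classical
  obtain ⟨x, hx⟩ := exists_notMem (N := Submodule.span F (({v, w} : Finset U) : Set U))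
    ((finrank_span_finset_le_card _).trans_lt (Finset.card_le_two.trans_lt h))
  obtain ⟨ψ, h1, h2⟩ := exists_dual hx
  exact ⟨ψ, fun h0 => by simp [h0] at h1, h2 _ (Submodule.subset_span (by simp)),
    h2 _ (Submodule.subset_span (by simp))⟩

theorem finrank_ker_dual [FiniteDimensional F U] (ψ : Dual F U) :
    finrank F U ≤ finrank F (LinearMap.ker ψ) + 1 := by
  have h1 := ψ.finrank_range_add_finrank_ker
  have h2 := (LinearMap.range ψ).finrank_le
  rw [finrank_self] at h2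
  omega

theorem exists_ker_notMem [FiniteDimensional F U] (ψ : Dual F U) {N : Submodule F U}
    (h : finrank F N + 2 ≤ finrank F U) : ∃ x, ψ x = 0 ∧ x ∉ N := by
  by_contra h0
  push Not at h0
  have h1 := Submodule.finrank_mono (show LinearMap.ker ψ ≤ N from h0)
  have := finrank_ker_dual ψ
  omega

theorem finrank_span_le (w : U) : finrank F (F ∙ w) ≤ 1 := by
  rcases eq_or_ne w 0 with rfl | h
  · rw [Submodule.span_zero_singleton, finrank_bot]; omega
  · rw [finrank_span_singleton h]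

theorem exists_smul_of_mem {a : U →ₗ[F] U} (h : ∀ v, a v ∈ F ∙ v) : ∃ c : F, ∀ v, a v = c • v := by
  obtain ⟨c, hc⟩ := LinearMap.exists_eq_smul_id_of_forall_notLinearIndependent (f := a) fun v hv => by
    obtain ⟨c, hc⟩ := Submodule.mem_span_singleton.1 (h v)
    simpa using (LinearIndependent.pair_iff.1 hv c (-1) (by simp [hc])).2
  exact ⟨c, fun v => by simp [hc]⟩

/-- An endomorphism is the sum of its rank one pieces. -/
theorem end_ind [FiniteDimensional F U] {p : End F U → Prop} (h0 : p 0)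
    (h1 : ∀ (w : U) (ψ : Dual F U), p (ψ.smulRight w)) (ha : ∀ a b, p a → p b → p (a + b))
    (a : End F U) : p a := by
  have : a = ∑ i, ((finBasis F U).coord i).smulRight (a (finBasis F U i)) :=
    LinearMap.ext fun v => by
      conv_lhs => rw [← (finBasis F U).sum_repr v, map_sum]
      simp
  rw [this]
  exact Finset.sum_induction _ p ha h0 fun i _ => h1 _ _

/-- `V` is written as `U ⊗ W`. -/
structure TF (F U W V : Type*) [Field F] [AddCommGroup U] [Module F U] [AddCommGroup W]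
    [Module F W] [AddCommGroup V] [Module F V] where
  φ : U ⊗[F] W ≃ₗ[F] V

namespace TF

variable (T T' : TF F U W V)

/-- Pure tensors. -/
noncomputable def t : U →ₗ[F] W →ₗ[F] V := (TensorProduct.mk F U W).compr₂ T.φ

theorem t_def (v : U) (u : W) : T.t v u = T.φ (v ⊗ₜ u) := rfl

@[elab_as_elim]
theorem ind {p : V → Prop} (x : V) (h0 : p 0) (ht : ∀ v u, p (T.t v u))
    (ha : ∀ x y, p x → p y → p (x + y)) : p x := by
  obtain ⟨x, rfl⟩ := T.φ.surjective x
  induction x with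
  | zero => simpa using h0
  | tmul v w => exact ht v w
  | add x y hx hy => simpa using ha _ _ hx hy

theorem ext_t {X : Type*} [AddCommGroup X] [Module F X] {f g : V →ₗ[F] X}
    (h : ∀ v u, f (T.t v u) = g (T.t v u)) (x : V) : f x = g x :=
  T.ind x (by simp) h fun x y hx hy => by simp [hx, hy]

theorem ext' {X : Type*} [AddCommGroup X] [Module F X] {f g : V →ₗ[F] X}
    (h : ∀ v u, f (T.t v u) = g (T.t v u)) : f = g := LinearMap.ext (T.ext_t h)

theorem eq_of_t {g k : V ≃ₗ[F] V} (h : ∀ v u, g (T.t v u) = k (T.t v u)) : g = k :=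
  LinearEquiv.ext (T.ext_t (f := g.toLinearMap) (g := k.toLinearMap) h)

/-- Contraction with a linear form on `U`. -/
noncomputable def c (ψ : Dual F U) : V →ₗ[F] W :=
  (TensorProduct.lid F W).toLinearMap ∘ₗ ψ.rTensor W ∘ₗ T.φ.symm.toLinearMap

@[simp] theorem c_t (ψ : Dual F U) (v : U) (u : W) : T.c ψ (T.t v u) = ψ v • u := by
  simp [c, t_def]

/-- Contraction with a linear form on `W`. -/
noncomputable def d (χ : Dual F W) : V →ₗ[F] U :=
  (TensorProduct.rid F U).toLinearMap ∘ₗ χ.lTensor U ∘ₗ T.φ.symm.toLinearMap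

@[simp] theorem d_t (χ : Dual F W) (v : U) (u : W) : T.d χ (T.t v u) = χ u • v := by
  simp [d, t_def]

theorem c_add (ψ ψ' : Dual F U) : T.c (ψ + ψ') = T.c ψ + T.c ψ' :=
  T.ext' fun _ _ => by simp [add_smul]

theorem c_smul (a : F) (ψ : Dual F U) : T.c (a • ψ) = a • T.c ψ := T.ext' fun _ _ => by simp [mul_smul]

theorem c_neg (ψ : Dual F U) : T.c (-ψ) = -T.c ψ := T.ext' fun _ _ => by simp

theorem c_sub (ψ ψ' : Dual F U) : T.c (ψ - ψ') = T.c ψ - T.c ψ' :=
  T.ext' fun _ _ => by simp [sub_smul]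

@[simp] theorem c_zero : T.c 0 = 0 := T.ext' fun _ _ => by simp

theorem t_inj {v : U} (hv : v ≠ 0) {u u' : W} (e : T.t v u = T.t v u') : u = u' := by
  obtain ⟨ψ, hψ⟩ := exists_dual_one (F := F) hv
  simpa [hψ] using congrArg (T.c ψ) e

theorem t_inj' {u : W} (hu : u ≠ 0) {v v' : U} (e : T.t v u = T.t v' u) : v = v' := by
  obtain ⟨ψ, hψ⟩ := exists_dual_one (F := F) hu
  simpa [hψ] using congrArg (T.d ψ) e

theorem t_ne_zero {v : U} {u : W} (hv : v ≠ 0) (hu : u ≠ 0) : T.t v u ≠ 0 :=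
  fun e => hu (T.t_inj hv (by simpa using e))

/-- Kronecker product of endomorphisms. -/
noncomputable def km (a : End F U) (b : End F W) : End F V :=
  T.φ.toLinearMap ∘ₗ TensorProduct.map a b ∘ₗ T.φ.symm.toLinearMap

@[simp] theorem km_t (a b) (v : U) (u : W) : T.km a b (T.t v u) = T.t (a v) (b u) := by
  simp [km, t_def]

/-- The action of `End U`. -/
noncomputable def e : End F U →ₐ[F] End F V :=
  AlgHom.ofLinearMap
    { toFun := fun a => T.km a 1
      map_add' := fun a b => T.ext' fun _ _ => by simp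
      map_smul' := fun a b => T.ext' fun _ _ => by simp }
    (T.ext' fun _ _ => by simp) fun a b => T.ext' fun _ _ => by simp

@[simp] theorem e_t (a) (v : U) (u : W) : T.e a (T.t v u) = T.t (a v) u := T.km_t a 1 v u

theorem e_r (w : U) (ψ : Dual F U) (x : V) : T.e (ψ.smulRight w) x = T.t w (T.c ψ x) :=
  T.ext_t (f := T.e _) (g := T.t w ∘ₗ T.c ψ) (fun _ _ => by simp) x

theorem c_e (ψ : Dual F U) (a : End F U) (x : V) : T.c ψ (T.e a x) = T.c (ψ ∘ₗ a) x :=
  T.ext_t (f := T.c ψ ∘ₗ T.e a) (fun _ _ => by simp) x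

theorem c_km (ψ : Dual F U) (a b) (x : V) : T.c ψ (T.km a b x) = b (T.c (ψ ∘ₗ a) x) :=
  T.ext_t (f := T.c ψ ∘ₗ T.km a b) (g := b ∘ₗ T.c _) (fun _ _ => by simp) x

/-- Kronecker product of automorphisms. -/
noncomputable def kr (a : U ≃ₗ[F] U) (b : W ≃ₗ[F] W) : V ≃ₗ[F] V :=
  T.φ.symm.trans ((TensorProduct.congr a b).trans T.φ)

@[simp] theorem kr_t (a b) (v : U) (u : W) : T.kr a b (T.t v u) = T.t (a v) (b u) := by
  simp [kr, t_def]

theorem kr_mul (a b a' b') : T.kr a b * T.kr a' b' = T.kr (a * a') (b * b') :=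
  T.eq_of_t fun _ _ => by simp

@[simp] theorem kr_one : T.kr 1 1 = 1 := T.eq_of_t fun _ _ => by simp

theorem kr_inv (a b) : (T.kr a b)⁻¹ = T.kr a⁻¹ b⁻¹ :=
  inv_eq_of_mul_eq_one_right (by rw [kr_mul]; simp)

theorem kr_one_apply (a : U ≃ₗ[F] U) (x : V) : T.kr a 1 x = T.e a.toLinearMap x :=
  T.ext_t (f := (T.kr a 1).toLinearMap) (fun _ _ => by simp) x

theorem c_kr (ψ : Dual F U) (a b) (x : V) : T.c ψ (T.kr a b x) = b (T.c (ψ ∘ₗ a.toLinearMap) x) :=
  T.ext_t (f := T.c ψ ∘ₗ (T.kr a b).toLinearMap) (g := b.toLinearMap ∘ₗ T.c _) (fun _ _ => by simp) x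

/-- The subspace `N ⊗ W`. -/
noncomputable def P (N : Submodule F U) : Submodule F V :=
  LinearMap.range (T.φ.toLinearMap ∘ₗ N.subtype.rTensor W)

theorem t_mem_P {N : Submodule F U} {v : U} (hv : v ∈ N) (u : W) : T.t v u ∈ T.P N :=
  ⟨⟨v, hv⟩ ⊗ₜ u, rfl⟩

theorem P_le {N : Submodule F U} {X : Submodule F V} (h : ∀ v ∈ N, ∀ u, T.t v u ∈ X) :
    T.P N ≤ X := by
  rintro _ ⟨x, rfl⟩
  induction x with
  | zero => simp
  | tmul v u => exact h v v.2 u
  | add x y hx hy => rw [map_add]; exact add_mem hx hy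

theorem P_ext {X : Type*} [AddCommGroup X] [Module F X] {f g : V →ₗ[F] X} {N : Submodule F U}
    (h : ∀ v ∈ N, ∀ u, f (T.t v u) = g (T.t v u)) {x : V} (hx : x ∈ T.P N) : f x = g x :=
  T.P_le (X := LinearMap.eqLocus f g) h hx

theorem P_mono {N N' : Submodule F U} (h : N ≤ N') : T.P N ≤ T.P N' :=
  T.P_le fun _ hv u => T.t_mem_P (h hv) u

theorem P_sup (N N' : Submodule F U) : T.P (N ⊔ N') = T.P N ⊔ T.P N' :=
  le_antisymm (T.P_le fun v hv u => by
    obtain ⟨a, ha, b, hb, rfl⟩ := Submodule.mem_sup.1 hv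
    rw [map_add, LinearMap.add_apply]
    exact Submodule.add_mem_sup (T.t_mem_P ha u) (T.t_mem_P hb u))
    (sup_le (T.P_mono le_sup_left) (T.P_mono le_sup_right))

theorem mem_P1 {w : U} {x : V} : x ∈ T.P (F ∙ w) ↔ ∃ u, T.t w u = x :=
  ⟨fun hx => T.P_le (X := LinearMap.range (T.t w)) (fun v hv u => by
    obtain ⟨a, rfl⟩ := Submodule.mem_span_singleton.1 hv
    exact ⟨a • u, by simp⟩) hx,
    by rintro ⟨u, rfl⟩; exact T.t_mem_P (Submodule.mem_span_singleton_self w) u⟩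

theorem t_mem_P1 (w : U) (u : W) : T.t w u ∈ T.P (F ∙ w) := T.mem_P1.2 ⟨u, rfl⟩

theorem c_of_mem {N : Submodule F U} {ψ : Dual F U} (h : ∀ v ∈ N, ψ v = 0) {x : V}
    (hx : x ∈ T.P N) : T.c ψ x = 0 :=
  T.P_ext (g := 0) (fun v hv u => by simp [h v hv]) hx

theorem c_of_mem1 {w : U} {ψ : Dual F U} (h : ψ w = 0) {x : V} (hx : x ∈ T.P (F ∙ w)) :
    T.c ψ x = 0 := by
  obtain ⟨u, rfl⟩ := T.mem_P1.1 hx
  simp [h]

theorem e_mem_P (a : End F U) (x : V) : T.e a x ∈ T.P (LinearMap.range a) :=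
  T.ind x (by simp) (fun v u => by rw [e_t]; exact T.t_mem_P (LinearMap.mem_range_self a v) u)
    fun _ _ h1 h2 => by rw [map_add]; exact add_mem h1 h2

theorem mem_of_t_mem {N : Submodule F U} {v : U} {u : W} (hu : u ≠ 0) (h : T.t v u ∈ T.P N) :
    v ∈ N := by
  by_contra hv
  obtain ⟨ψ, h1, h2⟩ := exists_dual hv
  exact hu (by simpa [h1] using T.c_of_mem h2 h)

theorem map_kr_P (a b) (N : Submodule F U) :
    (T.P N).map (T.kr a b).toLinearMap = T.P (N.map a.toLinearMap) := by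
  refine le_antisymm (Submodule.map_le_iff_le_comap.2 (T.P_le fun v hv u => ?_)) (T.P_le ?_)
  · simpa using T.t_mem_P (Submodule.mem_map_of_mem (f := a.toLinearMap) hv) (b u)
  · rintro _ ⟨v, hv, rfl⟩ u
    exact ⟨_, T.t_mem_P hv (b⁻¹ u), by simp⟩

theorem exists_km_of_comm [Nontrivial U] {Y : End F V} (h : ∀ a x, Y (T.e a x) = T.e a (Y x)) :
    ∃ β, Y = T.km 1 β := by
  obtain ⟨v₀, hv₀⟩ := exists_ne (0 : U)
  obtain ⟨ψ, hψ⟩ := exists_dual_one (F := F) hv₀
  refine ⟨T.c ψ ∘ₗ Y ∘ₗ T.t v₀, T.ext' fun v u => ?_⟩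
  simpa [e_r, hψ] using h (ψ.smulRight v) (T.t v₀ u)

theorem km_e (β : End F W) (a x) : T.km 1 β (T.e a x) = T.e a (T.km 1 β x) :=
  T.ext_t (f := T.km 1 β ∘ₗ T.e a) (g := T.e a ∘ₗ T.km 1 β) (fun _ _ => by simp) x

/-- Transport of the decomposition. -/
noncomputable instance instMulAction : MulAction (V ≃ₗ[F] V) (TF F U W V) where
  smul g T := ⟨T.φ.trans g⟩
  one_smul _ := rfl
  mul_smul _ _ _ := rfl

@[simp] theorem smul_t (g : V ≃ₗ[F] V) (v : U) (u : W) : (g • T).t v u = g (T.t v u) := rfl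

theorem smul_c (g : V ≃ₗ[F] V) (ψ : Dual F U) (x : V) : (g • T).c ψ x = T.c ψ (g⁻¹ x) := rfl

@[simp] theorem smul_c_apply (g : V ≃ₗ[F] V) (ψ : Dual F U) (x : V) :
    (g • T).c ψ (g x) = T.c ψ x := by simp [smul_c]

theorem smul_e (g : V ≃ₗ[F] V) (a : End F U) (x : V) : (g • T).e a x = g (T.e a (g⁻¹ x)) := rfl

theorem smul_kr (g : V ≃ₗ[F] V) (a b) : (g • T).kr a b = g * T.kr a b * g⁻¹ := rfl

theorem smul_P (g : V ≃ₗ[F] V) (N : Submodule F U) : (g • T).P N = (T.P N).map g.toLinearMap :=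
  LinearMap.range_comp (T.φ.toLinearMap ∘ₗ N.subtype.rTensor W) g.toLinearMap

theorem mem_smul_P {g : V ≃ₗ[F] V} {N : Submodule F U} {x : V} :
    x ∈ (g • T).P N ↔ g⁻¹ x ∈ T.P N := by
  rw [smul_P, Submodule.mem_map_equiv]; rfl

variable [FiniteDimensional F U]

theorem eq_zero_of_c {x : V} (h : ∀ ψ, T.c ψ x = 0) : x = 0 :=
  end_ind (p := fun a => T.e a x = 0) (by simp) (fun w ψ => by simp [e_r, h])
    (fun a b h1 h2 => by simp [h1, h2]) 1 ▸ by simp

theorem mem_P {N : Submodule F U} {x : V} :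
    x ∈ T.P N ↔ ∀ ψ : Dual F U, (∀ v ∈ N, ψ v = 0) → T.c ψ x = 0 := by
  refine ⟨fun hx ψ h => T.c_of_mem h hx, fun h => ?_⟩
  obtain ⟨N', hN⟩ := N.exists_isCompl
  have h1 : T.e (1 - N.projection N' hN) x = 0 := T.eq_zero_of_c fun ψ => by
    rw [c_e]
    exact h _ fun v hv => by simp [Submodule.projection_apply_of_mem_left hN hv]
  rw [map_sub, map_one, LinearMap.sub_apply, sub_eq_zero, End.one_apply] at h1
  rw [h1]
  exact T.P_mono (Submodule.range_projection hN).le (T.e_mem_P _ x)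

theorem mem_P1' {w : U} {x : V} :
    x ∈ T.P (F ∙ w) ↔ ∀ ψ : Dual F U, ψ w = 0 → T.c ψ x = 0 :=
  ⟨fun hx _ h => T.c_of_mem1 h hx, fun h => T.mem_P.2 fun ψ hψ =>
    h ψ (hψ _ (Submodule.mem_span_singleton_self w))⟩

theorem mem_P_ker {ψ : Dual F U} {x : V} : x ∈ T.P (LinearMap.ker ψ) ↔ T.c ψ x = 0 := by
  refine ⟨T.c_of_mem fun _ h => h, fun h => T.mem_P.2 fun χ hχ => ?_⟩
  obtain ⟨a, rfl⟩ : ∃ a : F, a • ψ = χ := Submodule.mem_span_singleton.1 (by
    rw [← Set.range_const (ι := Unit)]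
    exact mem_span_of_iInf_ker_le_ker (by rw [iInf_const]; exact fun v hv => hχ v hv))
  simp [c_smul, h]

theorem P_inf (N N' : Submodule F U) : T.P (N ⊓ N') = T.P N ⊓ T.P N' := by
  refine le_antisymm (le_inf (T.P_mono inf_le_left) (T.P_mono inf_le_right)) fun x hx =>
    T.mem_P.2 fun ψ hψ => ?_
  have h1 : ψ ∈ N.dualAnnihilator ⊔ N'.dualAnnihilator := by
    rw [← Subspace.dualAnnihilator_inf_eq]
    exact (Submodule.mem_dualAnnihilator ψ).2 hψ
  obtain ⟨a, ha, b, hb, rfl⟩ := Submodule.mem_sup.1 h1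
  rw [c_add, LinearMap.add_apply, T.c_of_mem ((Submodule.mem_dualAnnihilator _).1 ha) hx.1,
    T.c_of_mem ((Submodule.mem_dualAnnihilator _).1 hb) hx.2, add_zero]

variable [FiniteDimensional F W]

theorem finrank_P (N : Submodule F U) : finrank F (T.P N) = finrank F N * finrank F W := by
  rw [P, LinearMap.finrank_range_of_inj, finrank_tensorProduct]
  exact T.φ.injective.comp (Module.Flat.rTensor_preserves_injective_linearMap _ N.subtype_injective)

include T in
theorem finrank_eq : finrank F V = finrank F U * finrank F W := by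
  rw [← T.φ.finrank_eq, finrank_tensorProduct]

theorem finrank_P1 {w : U} (hw : w ≠ 0) : finrank F (T.P (F ∙ w)) = finrank F W := by
  rw [finrank_P, finrank_span_singleton hw, one_mul]

end TF

end Cfsg.Lib.TW
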