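import Cfsg.Agent.Lib.TW.Rel
import Cfsg.Agent.Lib.Frobenius.Theorem

/-!
# Systems of tensor factors with root elements: the Frobenius argument
-/

set_option autoImplicit false
set_option linter.unusedSectionVars false

namespace Cfsg.Lib.TW

open Module

variable {F U W V : Type*} [Field F] [AddCommGroup U] [Module F U] [AddCommGroup W] [Module F W]
  [AddCommGroup V] [Module F V]

/-- `g = 1 + (w ψ) ⊗ 1`. -/
def IsRt (T : TF F U W V) (w : U) (ψ : Dual F U) (g : V ≃ₗ[F] V) : Prop :=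
  ∀ x, g x = x + T.t w (T.c ψ x)

theorem IsRt.conj {T : TF F U W V} {w ψ g} (h : IsRt T w ψ g) (k : V ≃ₗ[F] V) :
    IsRt (k • T) w ψ (k * g * k⁻¹) := fun x => by
  simp [h (k.symm x), TF.smul_c]

theorem IsRt.P_le {T : TF F U W V} {w ψ g} (h : IsRt T w ψ g) (hψ : ψ ≠ 0) {X : Submodule F V}
    (hX : ∀ x, g x - x ∈ X) : T.P (F ∙ w) ≤ X := fun x hx => by
  obtain ⟨u, rfl⟩ := T.mem_P1.1 hx
  obtain ⟨v, hv⟩ := exists_apply_one hψ
  simpa [h (T.t v u), hv] using hX (T.t v u)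

theorem IsRt.sub_mem {T : TF F U W V} {w ψ g} (h : IsRt T w ψ g) (x : V) :
    g x - x ∈ T.P (F ∙ w) := by
  rw [h, add_sub_cancel_left]; exact T.t_mem_P1 _ _

theorem IsRt.eq_one {T : TF F U W V} {w g} (h : IsRt T w 0 g) : g = 1 :=
  LinearEquiv.ext fun x => by simpa using h x

theorem IsRt.pow {T : TF F U W V} {w ψ g} (h : IsRt T w ψ g) (h0 : ψ w = 0) (n : ℕ) :
    IsRt T w ((n : F) • ψ) (g ^ n) := by
  induction n with
  | zero => intro x; simp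
  | succ n ih =>
    intro x
    rw [pow_succ', LinearEquiv.mul_apply, ih, h]
    simp [h0, TF.c_add, TF.c_smul, add_smul, add_assoc]

/-- The sum trick: fixed point free automorphisms summing to `-1`. -/
theorem eq_bot_of_sum {N : Subgroup (V ≃ₗ[F] V)} [Finite N] (hN : (Nat.card N : F) ≠ 0)
    {ι : Type*} (s : Finset ι) (c : ι → V ≃ₗ[F] V)
    (h1 : ∀ i ∈ s, c i ∈ Subgroup.normalizer (N : Set (V ≃ₗ[F] V)))
    (h2 : ∀ i ∈ s, N ⊓ Subgroup.centralizer {c i} = ⊥) (h3 : ∀ x, ∑ i ∈ s, c i x = -x) :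
    N = ⊥ := by
  have := Fintype.ofFinite N
  have h4 : ∀ i ∈ s, ∀ x, ∑ n : N, n.1 (c i x) = ∑ n : N, n.1 (c i (n.1⁻¹ x)) := fun i hi x => by
    let f : N → N := fun n => ⟨n.1 * (c i * n.1⁻¹ * (c i)⁻¹), mul_mem n.2
      ((Subgroup.mem_normalizer_iff.1 (h1 i hi) _).1 (inv_mem n.2))⟩
    have hf : Function.Surjective f := fun k => by
      obtain ⟨y, hy, e⟩ := Frobenius.exists_conj_eq_mul (h1 i hi) (h2 i hi) k.2
      exact ⟨⟨y, hy⟩, Subtype.ext (by simp [f, ← mul_assoc, e])⟩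
    refine (Fintype.sum_bijective f (Finite.surjective_iff_bijective.1 hf) _ _ fun n => ?_).symm
    simp [f]
  have h5 : ∀ x, ∑ n : N, n.1 x = (Nat.card N : F) • x := fun x => by
    have := Finset.sum_congr rfl fun i hi => h4 i hi x
    rw [Finset.sum_comm, Finset.sum_comm (s := s)] at this
    simp only [← map_sum, h3, map_neg, Finset.sum_neg_distrib, neg_inj] at this
    simp [this, Nat.cast_smul_eq_nsmul]
  refine eq_bot_iff.2 fun n hn => LinearEquiv.ext fun x => smul_right_injective V hN ?_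
  change _ • _ = _ • x
  rw [← map_smul, ← h5, map_sum]
  exact Fintype.sum_equiv (Equiv.mulLeft ⟨n, hn⟩) _ _ fun k => rfl

/-- An invariant family `G` of tensor factors with root elements in `M`. -/
structure Sys (R : U → Dual F U → Prop) (M : Subgroup (V ≃ₗ[F] V)) (G : TF F U W V → Prop) :
    Prop where
  ne : ∀ w ψ, R w ψ → w ≠ 0 ∧ ψ ≠ 0 ∧ ψ w = 0
  smul : ∀ T, G T → ∀ g ∈ M, G (g • T)
  rt : ∀ T, G T → ∀ w ψ, R w ψ → ∃ g ∈ M, IsRt T w ψ g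
  loc : ∀ T T', G T → G T' → ∀ v w ψ, v ≠ 0 → R w ψ → T.P (F ∙ v) = T'.P (F ∙ w) → Same T T'
  gen : ∀ S : Subalgebra F (End F U), (∀ w ψ, R w ψ → ψ.smulRight w ∈ S) → S = ⊤
  rk : 3 ≤ finrank F U ∨ (2 : F) ≠ 0
  two : 2 ≤ finrank F U
  nt : Nontrivial W

variable {R : U → Dual F U → Prop} {M : Subgroup (V ≃ₗ[F] V)} {G : TF F U W V → Prop}
  [FiniteDimensional F U] [FiniteDimensional F W] [FiniteDimensional F V]
  {T T' T'' : TF F U W V} {w : U} {ψ : Dual F U}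

namespace Sys

variable (s : Sys R M G)
include s

theorem comm_of_same (hT : G T) (hT' : G T') (h : ¬ Same T T') (hw : R w ψ) {b}
    (hb : IsRt T' w ψ b) (hs : Same T (b • T)) (a x) : b (T.e a x) = T.e a (b x) := by
  obtain ⟨β, α, rfl⟩ := same_smul_iff.1 hs
  obtain ⟨hw0, hψ0, hψ⟩ := s.ne w ψ hw
  have : (∃ c : F, ∀ v, β v = c • v) ∨ ∃ c : F, ∀ u, α u = c • u := by
    rcases s.rk with h3 | h2
    · exact scalar_of_rank h3 hb.sub_mem (T'.finrank_P1 hw0).le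
    · refine scalar_of_sq (T := T) h2 fun x => ?_
      rw [hb, hb]
      simp [hψ, two_smul]
      abel
  rcases this with ⟨c, hc⟩ | ⟨c, hc⟩
  · exact T.ext_t (f := (T.kr β α).toLinearMap ∘ₗ T.e a) (g := T.e a ∘ₗ (T.kr β α).toLinearMap)
      (fun v u => by simp [hc]) x
  have h1 : ∀ v, c • β v - v = 0 := fun v => by
    by_contra hv
    refine h (s.loc T T' hT hT' _ w ψ hv hw (P1_eq_of_le hv hw0 fun y hy => ?_))
    obtain ⟨u, rfl⟩ := T.mem_P1.1 hy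
    simpa [hc] using hb.sub_mem (T.t v u)
  have h2 : T.kr β α = 1 := T.eq_of_t fun v u => by
    simpa [hc, sub_eq_zero] using congrArg (fun v => T.t v u) (h1 v)
  simp [h2]

theorem not_same (hT : G T) (hT' : G T') (h : Bad T T') (hw : R w ψ) {b}
    (hb : IsRt T' w ψ b) : ¬ Same T (b • T) := fun hs => by
  obtain ⟨hw0, hψ0, -⟩ := s.ne w ψ hw
  have h1 : Inv T (T'.P (F ∙ w)) := fun a x hx => by
    obtain ⟨u, rfl⟩ := T'.mem_P1.1 hx
    obtain ⟨v, hv⟩ := exists_apply_one hψ0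
    have := hb.sub_mem (T.e a (T'.t v u))
    rw [s.comm_of_same hT hT' h.1 hw hb hs, ← map_sub, hb] at this
    simpa [hv] using this
  refine h.2 fun a a' x => ?_
  have h2 := s.gen ((Subalgebra.centralizer F {T'.e a'}).comap T.e) fun v χ hv => by
    obtain ⟨g, hg, hg'⟩ := s.rt T hT v χ hv
    have h3 : Same T' (g • T') := s.loc _ _ hT' (s.smul _ hT' g hg) w w ψ hw0 hw
      (P1_eq_of_le hw0 hw0 fun y hy => by
        obtain ⟨z, hz, rfl⟩ := (T'.smul_P g _).le hy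
        rw [LinearEquiv.coe_coe, hg', ← TF.e_r]
        exact add_mem hz (h1 _ _ hz)).symm
    rintro _ rfl
    refine LinearMap.ext fun y => ?_
    have := s.comm_of_same hT' hT (fun h' => h.1 h'.symm) hv hg' h3 a' y
    rw [hg', hg'] at this
    simpa [TF.e_r] using this.symm
  exact (LinearMap.congr_fun ((h2.ge (Algebra.mem_top (x := a))) _ rfl) x).symm

end Sys

/-- `d` bounds all the intersections. -/
def MP (R : U → Dual F U → Prop) (G : TF F U W V → Prop) (d : ℕ) : Prop :=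
  ∀ S S', G S → G S' → Bad S S' → ∀ x χ x' χ', R x χ → R x' χ' →
    finrank F ↥(S.P (F ∙ x) ⊓ LinearMap.ker (S'.c χ')) ≤ d

theorem exists_max (hT : G T) (hT' : G T') (h : Bad T T') (hw : R w ψ) :
    ∃ S S' x χ x' χ', G S ∧ G S' ∧ Bad S S' ∧ R x χ ∧ R x' χ' ∧
      MP R G (finrank F ↥(S.P (F ∙ x) ⊓ LinearMap.ker (S'.c χ'))) := by
  classical
  let p : ℕ → Prop := fun d => ∃ S S' x χ x' χ', G S ∧ G S' ∧ Bad S S' ∧ R x χ ∧ R x' χ' ∧
    finrank F ↥(S.P (F ∙ x) ⊓ LinearMap.ker (S'.c χ')) = d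
  obtain ⟨S, S', x, χ, x', χ', h1, h2, h3, h4, h5, h6⟩ := Nat.findGreatest_spec (P := p)
    (Submodule.finrank_le _) ⟨T, T', w, ψ, w, ψ, hT, hT', h, hw, hw, rfl⟩
  refine ⟨S, S', x, χ, x', χ', h1, h2, h3, h4, h5, fun S S' h1 h2 h3 x χ x' χ' h4 h5 => ?_⟩
  rw [h6]
  exact Nat.le_findGreatest (P := p) (Submodule.finrank_le _)
    ⟨S, S', x, χ, x', χ', h1, h2, h3, h4, h5, rfl⟩

/-- An extremal configuration. -/
structure Cfg (R : U → Dual F U → Prop) (M : Subgroup (V ≃ₗ[F] V)) (G : TF F U W V → Prop)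
    (T T' : TF F U W V) (w : U) (P₀ : Submodule F V) : Prop where
  s : Sys R M G
  g : G T
  g' : G T'
  bad : Bad T T'
  r : ∃ ψ, R w ψ
  le : P₀ ≤ T.P (F ∙ w)
  le' : P₀ ≤ T'.P (F ∙ w)
  mp : MP R G (finrank F P₀)

theorem Sys.cfg (s : Sys R M G) (hT : G T) (hw : R w ψ) {χ : Dual F U}
    (hm : MP R G (finrank F ↥(T.P (F ∙ w) ⊓ LinearMap.ker (T'.c χ)))) {b} (hb : b ∈ M)
    (h : Bad T (b • T)) (h' : ∀ x, T'.c χ x = 0 → b x = x) :
    Cfg R M G T (b • T) w (T.P (F ∙ w) ⊓ LinearMap.ker (T'.c χ)) :=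
  ⟨s, hT, s.smul _ hT b hb, h, ⟨ψ, hw⟩, inf_le_left,
    fun x hx => (T.smul_P b _).ge ⟨x, hx.1, h' x hx.2⟩, hm⟩

/-- The group generated by the two root groups lies here. -/
def Gam (M : Subgroup (V ≃ₗ[F] V)) (P₀ D : Submodule F V) : Subgroup (V ≃ₗ[F] V) where
  carrier := {g | g ∈ M ∧ (∀ x ∈ P₀, g x = x) ∧ ∀ x, g x - x ∈ D}
  one_mem' := ⟨one_mem _, fun _ _ => rfl, fun x => by simp⟩
  mul_mem' := fun {g k} hg hk => ⟨mul_mem hg.1 hk.1, fun x hx => by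
    rw [LinearEquiv.mul_apply, hk.2.1 x hx, hg.2.1 x hx], fun x => by
    simpa using add_mem (hg.2.2 (k x)) (hk.2.2 x)⟩
  inv_mem' := fun {g} hg => ⟨inv_mem hg.1, fun x hx => by
    conv_lhs => rw [← hg.2.1 x hx]
    simp, fun x => by simpa using neg_mem (hg.2.2 (g⁻¹ x))⟩

/-- The stabiliser of a subspace. -/
def stab (X : Submodule F V) : Subgroup (V ≃ₗ[F] V) where
  carrier := {g | X.map g.toLinearMap = X}
  one_mem' := Submodule.map_id X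
  mul_mem' := fun {g k} hg hk => by
    change X.map (g.toLinearMap ∘ₗ k.toLinearMap) = X
    rw [Submodule.map_comp, hk, hg]
  inv_mem' := fun {g} hg => by
    change X.map _ = X
    conv_lhs => rw [← hg, ← Submodule.map_comp]
    exact (congrArg (X.map ·) (LinearMap.ext g.symm_apply_apply)).trans (Submodule.map_id X)

theorem mem_stab_of_le {X : Submodule F V} {g : V ≃ₗ[F] V} (h : ∀ x ∈ X, g x ∈ X) : g ∈ stab X :=
  Submodule.eq_of_le_of_finrank_eq (Submodule.map_le_iff_le_comap.2 h) (g.finrank_map_eq X)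

omit [FiniteDimensional F V] in
theorem apply_mem_of_stab {X : Submodule F V} {g : V ≃ₗ[F] V} (h : g ∈ stab X) {x : V}
    (hx : x ∈ X) : g x ∈ X := h.le ⟨x, hx, rfl⟩

namespace Cfg

variable {P₀ : Submodule F V} (c : Cfg R M G T T' w P₀)
include c

theorem symm : Cfg R M G T' T w P₀ := ⟨c.s, c.g', c.g, c.bad.symm, c.r, c.le', c.le, c.mp⟩

theorem ne : w ≠ 0 := let ⟨_, h⟩ := c.r; (c.s.ne _ _ h).1

theorem mp' {S S' x χ x' χ'} (h1 : G S) (h2 : G S') (h3 : Bad S S') (h4 : R x χ) (h5 : R x' χ')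
    (h6 : P₀ ≤ S.P (F ∙ x)) (h7 : ∀ y ∈ P₀, S'.c χ' y = 0) {y : V} (hy : y ∈ S.P (F ∙ x))
    (hy' : S'.c χ' y = 0) : y ∈ P₀ :=
  (Submodule.eq_of_le_of_finrank_le (le_inf h6 h7) (c.mp S S' h1 h2 h3 x χ x' χ' h4 h5)).ge
    ⟨hy, hy'⟩

theorem nice (hw : R w ψ) {x : V} (hx : x ∈ T.P (F ∙ w) ⊔ T'.P (F ∙ w)) (h : T.c ψ x = 0) :
    x ∈ T.P (F ∙ w) := by
  obtain ⟨p, hp, p', hp', rfl⟩ := Submodule.mem_sup.1 hx
  have h0 := (c.s.ne _ _ hw).2.2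
  rw [map_add, T.c_of_mem1 h0 hp, zero_add] at h
  exact add_mem hp (c.le (c.mp' c.g' c.g c.bad.symm hw hw c.le'
    (fun y hy => T.c_of_mem1 h0 (c.le hy)) hp' h))

theorem P_ne : T.P (F ∙ w) ≠ T'.P (F ∙ w) := fun h =>
  let ⟨ψ, hψ⟩ := c.r
  c.bad.1 (c.s.loc _ _ c.g c.g' w w ψ c.ne hψ h)

theorem rt_mem (hw : R w ψ) {g} (hg : g ∈ M) (h : IsRt T w ψ g) :
    g ∈ Gam M P₀ (T.P (F ∙ w) ⊔ T'.P (F ∙ w)) :=
  ⟨hg, fun x hx => by rw [h, T.c_of_mem1 (c.s.ne _ _ hw).2.2 (c.le hx)]; simp,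
    fun x => Submodule.mem_sup_left (h.sub_mem x)⟩

theorem rt_mem' (hw : R w ψ) {g} (hg : g ∈ M) (h : IsRt T' w ψ g) :
    g ∈ Gam M P₀ (T.P (F ∙ w) ⊔ T'.P (F ∙ w)) := sup_comm (T.P (F ∙ w)) _ ▸ c.symm.rt_mem hw hg h

theorem exists_kr {k} (hk : k ∈ M) (h : k ∈ stab (T.P (F ∙ w))) :
    ∃ β α, k = T.kr β α ∧ β w ∈ F ∙ w := by
  obtain ⟨ψ, hψ⟩ := c.r
  obtain ⟨β, α, rfl⟩ := same_smul_iff.1 (c.s.loc _ _ c.g (c.s.smul _ c.g k hk) w w ψ c.ne hψ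
    ((T.smul_P k _).trans h).symm)
  have := c.s.nt
  obtain ⟨u, hu⟩ := exists_ne (0 : W)
  exact ⟨β, α, rfl, T.mem_of_t_mem (u := α u) (by simpa)
    (by simpa using apply_mem_of_stab h (T.t_mem_P1 w u))⟩

theorem scalar_of {β α} (hk : T.kr β α ∈ Gam M P₀ (T.P (F ∙ w) ⊔ T'.P (F ∙ w))) (hw : R w ψ)
    {v : U} (hv : v ∉ F ∙ w) (h1 : ψ v = 0) (h2 : ψ (β v) = 0) : ∃ a : F, ∀ u, α u = a • u := by
  obtain ⟨χ, hχ, hχ'⟩ := exists_dual_span hv
  have h3 : ∀ u, χ (β v) • α u = u := fun u => by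
    simpa [hχ, sub_eq_zero] using T.c_of_mem1 hχ' (c.nice hw (hk.2.2 (T.t v u)) (by simp [h1, h2]))
  refine ⟨(χ (β v))⁻¹, fun u => ?_⟩
  by_cases h0 : χ (β v) = 0
  · have : u = 0 := by rw [← h3 u, h0, zero_smul]
    simp [this]
  · rw [eq_inv_smul_iff₀ h0, h3]

theorem rt_or {β α} {D : Submodule F V} (hk : ∀ x, T.kr β α x - x ∈ D) {a : F}
    (ha : ∀ u, α u = a • u) : (∃ φ, IsRt T w φ (T.kr β α)) ∨ ∃ x ∉ F ∙ w, T.P (F ∙ x) ≤ D := by
  by_cases h : ∀ v, a • β v - v ∈ F ∙ w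
  · obtain ⟨χ, hχ⟩ := exists_dual_one (F := F) c.ne
    refine .inl ⟨χ ∘ₗ (a • β.toLinearMap - 1), T.ext_t (f := (T.kr β α).toLinearMap)
      (g := 1 + T.t w ∘ₗ T.c _) fun v u => ?_⟩
    obtain ⟨l, hl⟩ := Submodule.mem_span_singleton.1 (h v)
    have h1 : (χ ∘ₗ (a • β.toLinearMap - 1)) v = l := by
      change χ (a • β v - v) = l
      simp [← hl, hχ]
    have h2 := congrArg (fun v => T.t v u) hl
    simp only [map_smul, map_sub, LinearMap.smul_apply, LinearMap.sub_apply] at h2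
    simp only [LinearEquiv.coe_coe, TF.kr_t, ha, map_smul, LinearMap.add_apply, End.one_apply,
      LinearMap.comp_apply (T.t w), TF.c_t, h1, h2, add_sub_cancel]
  · push Not at h
    obtain ⟨v, hv⟩ := h
    refine .inr ⟨_, hv, fun y hy => ?_⟩
    obtain ⟨u, rfl⟩ := T.mem_P1.1 hy
    simpa [ha] using hk (T.t v u)

/-- The Frobenius kernel. -/
theorem exists_kernel [Finite V] (hL : ∀ k ∈ Gam M P₀ (T.P (F ∙ w) ⊔ T'.P (F ∙ w)),
      k ∈ stab (T.P (F ∙ w)) → ∃ φ, IsRt T w φ k) :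
    ∃ N : Subgroup (V ≃ₗ[F] V), N ≠ ⊥ ∧ N ≤ Gam M P₀ (T.P (F ∙ w) ⊔ T'.P (F ∙ w)) ∧
      (Nat.card N : F) ≠ 0 ∧
      Gam M P₀ (T.P (F ∙ w) ⊔ T'.P (F ∙ w)) ≤ Subgroup.normalizer (N : Set (V ≃ₗ[F] V)) ∧
      (∀ g ∈ Gam M P₀ (T.P (F ∙ w) ⊔ T'.P (F ∙ w)), ∃ n ∈ N, n⁻¹ * g ∈ stab (T.P (F ∙ w))) ∧
      ∀ k ∈ Gam M P₀ (T.P (F ∙ w) ⊔ T'.P (F ∙ w)), k ∈ stab (T.P (F ∙ w)) → k ≠ 1 →
        N ⊓ Subgroup.centralizer {k} = ⊥ := by
  set Γ := Gam M P₀ (T.P (F ∙ w) ⊔ T'.P (F ∙ w))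
  have : Finite (V ≃ₗ[F] V) := Finite.of_injective _ DFunLike.coe_injective
  obtain ⟨ψ, hψ⟩ := c.r
  obtain ⟨hw0, hψ0, hψw⟩ := c.s.ne _ _ hψ
  obtain ⟨a, ha, ha'⟩ := c.s.rt _ c.g _ _ hψ
  obtain ⟨b, hb, hb'⟩ := c.s.rt _ c.g' _ _ hψ
  have := c.s.nt
  obtain ⟨u, hu⟩ := exists_ne (0 : W)
  have ha1 : a ≠ 1 := fun h => T.t_ne_zero hw0 hu
    (ha'.P_le hψ0 (X := ⊥) (by simp [h]) (T.t_mem_P1 w u))
  have haC : a ∈ stab (T.P (F ∙ w)) := mem_stab_of_le fun x hx => by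
    rw [ha']; exact add_mem hx (T.t_mem_P1 _ _)
  have hF : IsFrobeniusComplement ((stab (T.P (F ∙ w))).subgroupOf Γ) := by
    refine (Frobenius.isFrobeniusComplement_iff _).2 ⟨fun h => ha1 ?_, fun h => ?_,
      fun g hg k hk hgk => ?_⟩
    · exact congrArg Subtype.val (h.le (show (⟨a, c.rt_mem hψ ha ha'⟩ : Γ) ∈ _ from haC))
    · obtain ⟨φ, hφ⟩ := hL b (c.rt_mem' hψ hb hb')
        (h.ge (Subgroup.mem_top (⟨b, c.rt_mem' hψ hb hb'⟩ : Γ)))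
      exact c.P_ne (P1_eq_of_le hw0 hw0 (hb'.P_le hψ0 hφ.sub_mem)).symm
    · obtain ⟨φ, hφ⟩ := hL _ k.2 hk
      obtain ⟨φ', hφ'⟩ := hL _ (g * k * g⁻¹).2 hgk
      by_contra h1
      have h2 : φ ≠ 0 := fun h => h1 (Subtype.ext (IsRt.eq_one (h ▸ hφ)))
      exact hg ((T.smul_P g.1 _).symm.trans
        (P1_eq_of_le hw0 hw0 ((hφ.conj g.1).P_le h2 hφ'.sub_mem)))
  obtain ⟨K, hK, -, hK0, hKC, hf⟩ := Frobenius.exists_kernel hF
  refine ⟨K.map Γ.subtype, fun h => hK0 ((Subgroup.map_eq_bot_iff_of_injective _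
    Γ.subtype_injective).1 h), Subgroup.map_subtype_le _, fun h => ?_, fun g hg => ?_,
    fun g hg => ?_, fun k hk hk' hk1 => ?_⟩
  · obtain ⟨p, hp⟩ := CharP.exists F
    have : Finite F := Finite.of_injective _ (smul_left_injective F (T.t_ne_zero hw0 hu))
    have : Fact p.Prime := ⟨CharP.char_is_prime F p⟩
    have h1 : a ^ p = 1 := IsRt.eq_one (by simpa using ha'.pow hψw p)
    have h2 : p ∣ Nat.card ((stab (T.P (F ∙ w))).subgroupOf Γ) := by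
      rw [← orderOf_eq_prime (x := (⟨a, c.rt_mem hψ ha ha'⟩ : Γ)) (Subtype.ext h1)
        fun h => ha1 (congrArg Subtype.val h)]
      exact Subgroup.orderOf_dvd_natCard _ haC
    rw [CharP.cast_eq_zero_iff F p, Subgroup.card_map_of_injective Γ.subtype_injective] at h
    exact (Fact.out : p.Prime).ne_one (Nat.eq_one_of_dvd_coprimes
      (Frobenius.coprime_card_of_fpf Subgroup.le_normalizer_of_normal hf) h2 h)
  · refine Subgroup.mem_normalizer_fintype ?_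
    rintro _ ⟨n, hn, rfl⟩
    exact ⟨_, hK.conj_mem n hn ⟨g, hg⟩, rfl⟩
  · obtain ⟨n, hn, k, hk, e⟩ := Frobenius.exists_mul_of_mem_sup Subgroup.le_normalizer_of_normal
      (hKC.ge (Subgroup.mem_top (⟨g, hg⟩ : Γ)))
    refine ⟨n, ⟨n, hn, rfl⟩, ?_⟩
    rw [show g = n.1 * k.1 from congrArg Subtype.val e, inv_mul_cancel_left]
    exact hk
  · rw [Frobenius.inf_centralizer_eq_bot_iff]
    rintro _ ⟨n, hn, rfl⟩ e
    exact congrArg Subtype.val ((Frobenius.inf_centralizer_eq_bot_iff _ _).1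
      (hf ⟨k, hk⟩ hk' fun h => hk1 (congrArg Subtype.val h)) n hn (Subtype.ext e))

theorem false_of_sum [Finite V] (hL : ∀ k ∈ Gam M P₀ (T.P (F ∙ w) ⊔ T'.P (F ∙ w)),
      k ∈ stab (T.P (F ∙ w)) → ∃ φ, IsRt T w φ k) {ι : Type*} [Fintype ι] (i₀ : ι)
    (ψ : ι → Dual F U) (h0 : ψ i₀ = 0) (h1 : ∀ i ≠ i₀, R w (ψ i)) (h2 : (Fintype.card ι : F) = 0)
    (h3 : ∑ i, ψ i = 0) : False := by
  classical
  have : Finite (V ≃ₗ[F] V) := Finite.of_injective _ DFunLike.coe_injective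
  obtain ⟨N, hN0, -, hN, hn, -, hf⟩ := c.exists_kernel hL
  have : ∀ i, ∃ g, i ≠ i₀ → g ∈ M ∧ IsRt T w (ψ i) g := fun i => by
    by_cases h : i = i₀
    · exact ⟨1, fun h' => (h' h).elim⟩
    · obtain ⟨g, hg⟩ := c.s.rt _ c.g _ _ (h1 i h)
      exact ⟨g, fun _ => hg⟩
  choose g hg using this
  have := c.s.nt
  obtain ⟨u, hu⟩ := exists_ne (0 : W)
  refine hN0 (eq_bot_of_sum hN (Finset.univ.erase i₀) g (fun i hi => ?_) (fun i hi => ?_)
    fun x => ?_)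
  · have hi := Finset.ne_of_mem_erase hi
    exact hn (c.rt_mem (h1 i hi) (hg i hi).1 (hg i hi).2)
  · have hi := Finset.ne_of_mem_erase hi
    refine hf _ (c.rt_mem (h1 i hi) (hg i hi).1 (hg i hi).2) (mem_stab_of_le fun x hx => ?_)
      fun h => T.t_ne_zero c.ne hu ((hg i hi).2.P_le (c.s.ne _ _ (h1 i hi)).2.1 (X := ⊥)
        (by simp [h]) (T.t_mem_P1 w u))
    rw [(hg i hi).2]; exact add_mem hx (T.t_mem_P1 _ _)
  · rw [Finset.sum_congr rfl fun i hi => (hg i (Finset.ne_of_mem_erase hi)).2 x,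
      Finset.sum_erase_eq_sub (Finset.mem_univ _), Finset.sum_add_distrib, h0]
    have h4 : ∑ i, T.t w (T.c (ψ i) x) = 0 := by
      simp only [← TF.e_r, ← LinearMap.sum_apply, ← map_sum]
      rw [show ∑ i, (ψ i).smulRight w = 0 from LinearMap.ext fun v => by
        simpa [← Finset.sum_smul] using .inl (by simpa using LinearMap.congr_fun h3 v)]
      simp
    simp [h4, ← Nat.cast_smul_eq_nsmul F, h2]

end Cfg

end Cfsg.Lib.TW
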