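import Cfsg.Agent.Lib.TW.Pure
import Cfsg.Agent.Lib.Asch.AmbInst
import Cfsg.Agent.Lib.Unitary.Std

/-!
# Permuting the factors; the standard family
-/

set_option autoImplicit false
set_option linter.unusedSectionVars false

namespace Cfsg.Lib.TW

open Module Function
open scoped TensorProduct commutatorElement

variable {F U W V : Type*} [Field F] [AddCommGroup U] [Module F U] [AddCommGroup W] [Module F W]
  [AddCommGroup V] [Module F V] {M : Subgroup (V ≃ₗ[F] V)}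
  {ι : Type*} [DecidableEq ι] {R : U → Dual F U → Prop}

theorem exists_un {Y : End F V} (h : Y * Y = 0) : ∃ g : V ≃ₗ[F] V, ∀ x, g x = x + Y x :=
  ⟨LinearEquiv.ofLinear (1 + Y) (1 - Y)
    (show (1 + Y) * (1 - Y) = 1 by rw [mul_sub, add_mul, add_mul, h]; simp)
    (show (1 - Y) * (1 + Y) = 1 by rw [mul_add, sub_mul, sub_mul, h]; simp), fun _ => rfl⟩

theorem exists_tf [FiniteDimensional F U] [FiniteDimensional F W] [FiniteDimensional F V]
    [Nontrivial U] (ρ : End F U →ₐ[F] End F V) (h : finrank F V = finrank F U * finrank F W) :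
    ∃ T : TF F U W V, T.e = ρ := by
  obtain ⟨v₀, hv₀⟩ := exists_ne (0 : U)
  obtain ⟨ψ₀, h₀⟩ := exists_dual_one (F := F) hv₀
  let W₀ := LinearMap.range (ρ (ψ₀.smulRight v₀))
  have h1 : ∀ v (χ : Dual F U) x, ρ (ψ₀.smulRight v) (ρ (χ.smulRight v₀) x) = ρ (χ.smulRight v) x :=
    fun v χ x => by rw [← End.mul_apply, ← map_mul, r_mul_r, h₀, one_smul]
  let f : U ⊗[F] W₀ →ₗ[F] V := TensorProduct.lift
    ((LinearMap.lcomp F V W₀.subtype) ∘ₗ ρ.toLinearMap ∘ₗ LinearMap.smulRightₗ ψ₀)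
  have hf : ∀ v x, f (v ⊗ₜ x) = ρ (ψ₀.smulRight v) x := fun _ _ => rfl
  have h2 : Injective f := by
    rw [injective_iff_map_eq_zero]
    intro z hz
    let T₀ : TF F U W₀ (U ⊗[F] W₀) := ⟨LinearEquiv.refl _ _⟩
    refine T₀.eq_zero_of_c fun χ => Subtype.ext ?_
    have := T₀.ext_t (f := W₀.subtype ∘ₗ T₀.c χ) (g := ρ (χ.smulRight v₀) ∘ₗ f) (fun v u => by
      obtain ⟨_, x, rfl⟩ := u
      rw [LinearMap.comp_apply, TF.c_t, LinearMap.comp_apply]
      change χ v • ρ _ x = ρ _ (ρ (ψ₀.smulRight v) (ρ _ x))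
      rw [h1, ← End.mul_apply, ← map_mul, r_mul_r]
      simp) z
    simpa [hz] using this
  have h3 : Surjective f := fun x => by
    have := end_ind (p := fun a => ρ a x ∈ LinearMap.range f) (by simp)
      (fun w χ => ⟨w ⊗ₜ ⟨_, ρ (χ.smulRight v₀) x, rfl⟩, by rw [hf, h1, h1]⟩)
      (fun a b ha hb => by simpa using add_mem ha hb) 1
    simpa using this
  let φ := LinearEquiv.ofBijective f ⟨h2, h3⟩
  have h4 : finrank F W = finrank F W₀ := by
    rw [← φ.finrank_eq, finrank_tensorProduct] at h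
    exact (Nat.eq_of_mul_eq_mul_left finrank_pos h).symm
  let j := LinearEquiv.ofFinrankEq W W₀ h4
  let T : TF F U W V := ⟨(TensorProduct.congr (LinearEquiv.refl _ _) j).trans φ⟩
  have h5 : ∀ v u, T.t v u = ρ (ψ₀.smulRight v) (j u) := fun _ _ => rfl
  refine ⟨T, AlgHom.ext fun a => T.ext' fun v u => ?_⟩
  rw [TF.e_t, h5, h5, ← End.mul_apply, ← map_mul]
  congr 2
  exact LinearMap.ext fun y => by simp

namespace Fam

variable {Φ : Fam ι F U W V}

/-- `g` permutes the factors according to `σ`. -/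
def IsPerm (Φ : Fam ι F U W V) (σ : Equiv.Perm ι) (g : V ≃ₗ[F] V) : Prop :=
  ∀ a, g.toLinearMap * Φ.π a * (g⁻¹).toLinearMap = Φ.π (a ∘ σ.symm)

theorem IsPerm.mul {σ τ g k} (h : Φ.IsPerm σ g) (h' : Φ.IsPerm τ k) : Φ.IsPerm (σ * τ) (g * k) :=
  fun a => ((congrArg (fun X => g.toLinearMap * X * (g⁻¹).toLinearMap) (h' a)).trans (h _) :)

theorem IsPerm.inv {σ g} (h : Φ.IsPerm σ g) : Φ.IsPerm σ⁻¹ g⁻¹ := fun a => by
  have := h (a ∘ σ)
  rw [comp_assoc, Equiv.self_comp_symm, comp_id] at this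
  rw [← this]
  exact LinearMap.ext fun x => by simp [Equiv.Perm.inv_def]

theorem IsPerm.comm {σ τ g k} (h : Φ.IsPerm σ g) (h' : Φ.IsPerm τ k) : Φ.IsPerm ⁅σ, τ⁆ ⁅g, k⁆ :=
  ((h.mul h').mul h.inv).mul h'.inv

/-- `g` stabilises the decomposition. -/
def Wr (Φ : Fam ι F U W V) (g : V ≃ₗ[F] V) : Prop :=
  ∃ σ : Equiv.Perm ι, ∀ i a, ∃ b, (g • Φ.T i).e a = (Φ.T (σ i)).e b

theorem IsPerm.wr {σ g} (h : Φ.IsPerm σ g) : Φ.Wr g :=
  ⟨σ, fun i a => ⟨a, by
    rw [← Φ.single, show Pi.mulSingle (σ i) a = Pi.mulSingle i a ∘ σ.symm from funext fun k => by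
      rcases eq_or_ne k (σ i) with rfl | hk
      · simp
      · rw [Pi.mulSingle_eq_of_ne hk, comp_apply, Pi.mulSingle_eq_of_ne]
        rintro rfl; simp at hk, ← h, Φ.single]
    rfl⟩⟩

theorem wr_kr (Φ : Fam ι F U W V) (i : ι) (b : U ≃ₗ[F] U) : Φ.Wr ((Φ.T i).kr b 1) :=
  ⟨1, fun j a => by
    rcases eq_or_ne j i with rfl | h
    · exact ⟨b.toLinearMap * a * (b⁻¹).toLinearMap, (Φ.T j).ext' fun v u => by
        rw [TF.smul_e, TF.kr_inv]; simp⟩
    · exact ⟨a, LinearMap.ext fun x => by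
        rw [TF.smul_e, TF.kr_one_apply, Φ.comm h.symm, ← TF.kr_one_apply]; simp⟩⟩

theorem wr_of_not_bad [Finite ι] [FiniteDimensional F U] [Nontrivial W] (h2 : 2 ≤ finrank F U)
    {g : V ≃ₗ[F] V} (h : ∀ i j, ¬ Bad (Φ.T j) (g • Φ.T i)) : Φ.Wr g := by
  have h1 : ∀ i, ∃ j, Same (Φ.T j) (g • Φ.T i) := fun i => by
    by_contra h0
    push Not at h0
    refine not_comm_self (T := g • Φ.T i) h2 fun a b x => ?_
    obtain ⟨c, hc⟩ := Φ.cen ((g • Φ.T i).e a) fun j b => LinearMap.ext fun x =>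
      (not_not.1 (fun h1 => h i j ⟨h0 j, h1⟩ : ¬¬ Comm _ _) b a x).symm
    simp [hc]
  choose σ hσ using h1
  have h3 : Injective σ := fun i i' e => by
    by_contra h3
    exact not_comm_self h2
      ((((Φ.comm h3).smul g).of_same (hσ i)).symm.of_same (e ▸ hσ i' : Same (Φ.T (σ i)) _))
  refine ⟨Equiv.ofBijective σ (Finite.injective_iff_bijective.1 h3), fun i a => ?_⟩
  obtain ⟨b, hb⟩ := (hσ i).exists_e
  exact ⟨_, hb a⟩

theorem Q.swap (hP : ∀ σ τ : Equiv.Perm ι, ∃ g ∈ M, Φ.IsPerm ⁅σ, τ⁆ g) {J : Finset ι}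
    (h : Φ.Q R M J) {a b c : ι} (ha : a ∈ J) (hc : c ∈ J) (hac : a ≠ c) (hb : b ∉ J) :
    Φ.Q R M (insert b (J.erase a)) := by
  obtain ⟨g, hg, e⟩ := hP (Equiv.swap a c) (Equiv.swap a b)
  have hab : a ≠ b := fun h => hb (h ▸ ha)
  have hbc : b ≠ c := fun h => hb (h ▸ hc)
  convert h.perm hg e using 1
  ext x
  rw [Finset.mem_map_equiv, ← Equiv.Perm.inv_def, commutatorElement_inv, commutatorElement_def]
  simp only [Equiv.swap_inv, Equiv.Perm.mul_apply, Finset.mem_insert, Finset.mem_erase]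
  rcases eq_or_ne x a with rfl | h1
  · simp [Equiv.swap_apply_def, hab, hac, hab.symm, hac.symm, hbc, hbc.symm, hb]
  rcases eq_or_ne x b with rfl | h2
  · simp [Equiv.swap_apply_def, hab, hac, hab.symm, hac.symm, hbc, hbc.symm, hc]
  rcases eq_or_ne x c with rfl | h3
  · simp [Equiv.swap_apply_def, hab, hac, hab.symm, hac.symm, hbc, hbc.symm, hc, ha]
  · simp [Equiv.swap_apply_def, h1, h2, h3]

/-- Three roots with the two sandwich coefficients. -/
def Tri (R : U → Dual F U → Prop) (p p' : F) : Prop :=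
  ∃ w ψ w' ψ' s χ, R w ψ ∧ R w' ψ' ∧ R s χ ∧ χ w * ψ w' * ψ' s = p ∧ χ w' * ψ' w * ψ s = p'

theorem Sand.step (hS : Φ.Sand R M) (hT : Φ.Tr R M) (h0 : ∀ w ψ, R w ψ → ψ w = 0)
    (hP : ∀ σ τ : Equiv.Perm ι, ∃ g ∈ M, Φ.IsPerm ⁅σ, τ⁆ g) {p p' r r' : F} (h1 : Tri R p p')
    (h2 : Tri R r r') (h3 : ∀ n, p * r ^ n ≠ p' * r' ^ n) {J : Finset ι} (hJ : 2 ≤ J.card)
    (h : Φ.Q R M J) {b : ι} (hb : b ∉ J) : Φ.Q R M (insert b J) := by
  obtain ⟨a, ha, c, hc, hac⟩ := Finset.one_lt_card.1 hJ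
  obtain ⟨w₁, ψ₁, w₁', ψ₁', s₁, χ₁, e1, e2, e3, e4, e5⟩ := h1
  obtain ⟨w₂, ψ₂, w₂', ψ₂', s₂, χ₂, f1, f2, f3, f4, f5⟩ := h2
  have pr : ∀ {w ψ w' ψ'}, R w ψ → R w' ψ' → ∀ K : Finset ι, Pr R (fun k => if k ∈ K then
      (if k = c then ψ.smulRight w else ψ'.smulRight w') else 1) K := fun {w ψ w' ψ'} h h' K =>
    ⟨fun k hk => by
      simp only [if_pos hk]
      split_ifs
      exacts [⟨_, _, h, rfl⟩, ⟨_, _, h', rfl⟩], fun k hk => if_neg hk⟩
  have h4 : J ∩ insert b (J.erase a) = J.erase a := by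
    rw [Finset.inter_insert_of_notMem hb, Finset.inter_eq_right.2 (Finset.erase_subset _ _)]
  have h5 : c ∈ J.erase a := by simp [hc, hac.symm]
  have h6 : ∀ x y : F, ∏ k ∈ J.erase a, (if k = c then x else y) =
      x * y ^ ((J.erase a).erase c).card := fun x y => by
    rw [← Finset.mul_prod_erase _ _ h5, if_pos rfl, Finset.prod_congr rfl fun k hk =>
      if_neg (Finset.ne_of_mem_erase hk), Finset.prod_const]
  have := hS.grow hT h0 h (h.swap hP ha hc hac hb) ha (by simp; rintro rfl; exact hb ha)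
    (Finset.mem_insert_self _ _) hb (pr e1 f1 _) (pr e2 f2 _) (pr e3 f3 _)
    (p := fun k => if k = c then p else r) (p' := fun k => if k = c then p' else r')
    (fun k hk => by
      simp only [hk, (Finset.mem_inter.1 hk).1, (Finset.mem_inter.1 hk).2, if_true]
      split_ifs <;> simp [r_mul_r, smul_smul, ← e4, ← f4, mul_comm, mul_left_comm])
    (fun k hk => by
      simp only [hk, (Finset.mem_inter.1 hk).1, (Finset.mem_inter.1 hk).2, if_true]
      split_ifs <;> simp [r_mul_r, smul_smul, ← e5, ← f5, mul_comm, mul_left_comm])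
    (by rw [h4, h6, h6]; exact h3 _)
  rwa [Finset.union_insert, Finset.union_eq_left.2 (Finset.erase_subset _ _)] at this

theorem Q.univ [Fintype ι] {J : Finset ι} (hJ : 2 ≤ J.card) (h : Φ.Q R M J)
    (hs : ∀ J : Finset ι, 2 ≤ J.card → Φ.Q R M J → ∀ b ∉ J, Φ.Q R M (insert b J)) :
    Φ.Q R M Finset.univ := by
  have : ∀ S : Finset ι, Φ.Q R M (S ∪ J) := fun S => by
    induction S using Finset.induction_on with
    | empty => simpa
    | insert b S _ ih =>
      rw [Finset.insert_union]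
      by_cases hb : b ∈ S ∪ J
      · rwa [Finset.insert_eq_of_mem hb]
      · exact hs _ (hJ.trans (Finset.card_le_card Finset.subset_union_right)) ih b hb
  rw [← Finset.union_eq_left.2 (Finset.subset_univ J)]
  exact this Finset.univ

end Fam

section Std

open Matrix Cfsg.Geo Cfsg.Lib.Asch Cfsg.Lib.Unitary
open scoped MatrixGroups

variable {κ : Type} [Fintype κ] [DecidableEq κ] {k t : ℕ}

theorem exists_fam (hk : 0 < k) (ht : 0 < t) (e : κ ≃ (Fin t → Fin k)) (P : GL κ F) :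
    ∃ Φ : Fam (Fin t) F (Fin k → F) (Fin (k ^ (t - 1)) → F) (κ → F),
      (∀ a, Φ.π a = toLin' (tr e P (pureT fun i => LinearMap.toMatrix' (a i)))) ∧
      (∀ g, Φ.Wr (glEquiv κ F g) → g ∈ tensorWreathSubgroup k t e P) ∧
      ∀ σ, Φ.IsPerm σ (glEquiv κ F (trGL e P (factorPerm k F σ))) := by
  have : Nonempty (Fin k) := ⟨⟨0, hk⟩⟩
  let ρ : Fin t → End F (Fin k → F) →ₐ[F] End F (κ → F) := fun i =>
    (toLinAlgEquiv'.toAlgHom.comp ((tr e P).toAlgHom.comp (slot k t F i))).comp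
      LinearMap.toMatrixAlgEquiv'.toAlgHom
  have h1 : finrank F (κ → F) = finrank F (Fin k → F) * finrank F (Fin (k ^ (t - 1)) → F) := by
    simp [Fintype.card_congr e, mul_pow_sub_one ht.ne']
  choose T hT using fun i => exists_tf (ρ i) h1
  have hT' : ∀ i a, (T i).e a = toLin' (tr e P (slot k t F i (LinearMap.toMatrix' a))) :=
    fun i a => by rw [hT]; rfl
  let π : (Fin t → End F (Fin k → F)) →* End F (κ → F) :=
    { toFun := fun a => toLin' (tr e P (pureT fun i => LinearMap.toMatrix' (a i)))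
      map_one' := by
        simp only [Pi.one_apply, LinearMap.toMatrix'_one]
        rw [show pureT (fun _ : Fin t => (1 : Matrix (Fin k) (Fin k) F)) = 1 from pureT_one, map_one,
          toLin'_one]
        rfl
      map_mul' := fun a b => by
        simp only [Pi.mul_apply, LinearMap.toMatrix'_mul]
        rw [show pureT (fun i => LinearMap.toMatrix' (a i) * LinearMap.toMatrix' (b i)) = _ from
          pureT_mul _ _, map_mul, toLin'_mul]
        rfl }
  have h2 : ∀ (g : GL κ F) X, (glEquiv κ F g).toLinearMap * toLin' X *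
      ((glEquiv κ F g)⁻¹).toLinearMap = toLin' (cj g X) := fun g X => by
    rw [← map_inv, glEquiv_toLinearMap, glEquiv_toLinearMap, cj_def, toLin'_mul, toLin'_mul]
    rfl
  refine ⟨⟨T, π, fun i a => ?_, fun Y hY => ?_⟩, fun _ => rfl, fun g hg => ?_, fun σ a => ?_⟩
  · rw [hT', slot_apply]
    change toLin' (tr e P (pureT _)) = _
    congr 3
    funext j
    rcases eq_or_ne j i with rfl | h <;> simp [*]
  · obtain ⟨X, rfl⟩ := toLin'.surjective Y
    obtain ⟨X, rfl⟩ := (tr e P).surjective X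
    obtain ⟨c, hc⟩ := eq_smul_one_of_commute_adjoin (adjoin_slot (k := k) (t := t) (F := F)) X (by
      intro x hx
      obtain ⟨i, Z, rfl⟩ := Set.mem_iUnion.1 hx
      have := hY i (toLin' Z)
      rw [hT', LinearMap.toMatrix'_toLin'] at this
      apply (tr e P).injective
      apply toLin'.injective
      rwa [map_mul (tr e P), map_mul (tr e P), toLin'_mul, toLin'_mul])
    exact ⟨c, by rw [hc, map_smul, map_one, map_smul, toLin'_one]; rfl⟩
  · obtain ⟨σ, hσ⟩ := hg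
    rw [tensorWreathSubgroup, mem_map_map_iff]
    refine mem_tensorWreathStandard_of_perm hk ht _ σ fun i X => ?_
    obtain ⟨Y, hY⟩ := hσ i (toLin' X)
    refine ⟨LinearMap.toMatrix' Y, (tr e P).injective (toLin'.injective ?_)⟩
    rw [← cj_trGL, MulEquiv.apply_symm_apply, ← h2, ← hT', ← hY, ← LinearMap.toMatrix'_toLin' X,
      ← hT', LinearMap.toMatrix'_toLin']
    rfl
  · change _ * toLin' _ * _ = toLin' _
    rw [h2, cj_trGL, cj_factorPerm]
    rfl

end Std

end Cfsg.Lib.TW
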