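import Cfsg.Agent.Lib.TW.LinMax
import Cfsg.Agent.Lib.TMax.Alg

/-!
# Tensor factors carrying a unitary or symplectic form
-/

set_option autoImplicit false
set_option linter.unusedSectionVars false

namespace Cfsg.Lib.TW

open Module Cfsg.Lib.Unitary Cfsg.Lib.TMax

variable {F U W V : Type*} [Field F] [AddCommGroup U] [Module F U] [AddCommGroup W] [Module F W]
  [AddCommGroup V] [Module F V] {σ : F →+* F} {ε ε' : F} {A : U →ₛₗ[σ] U →ₗ[F] F}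
  {B : V →ₛₗ[σ] V →ₗ[F] F} {N : Subgroup (U ≃ₗ[F] U)} {M : Subgroup (V ≃ₗ[F] V)}
  {T T' : TF F U W V}

/-- The geometry of the factor (unitary or symplectic). -/
structure Gm (ε : F) (A : U →ₛₗ[σ] U →ₗ[F] F) (N : Subgroup (U ≃ₗ[F] U)) : Prop where
  h : EF σ ε A
  i2 : ∀ X : Submodule F U, 2 ≤ finrank F X → ∃ w ∈ X, w ≠ 0 ∧ A w w = 0
  tr : ∃ c : F, c ≠ 0 ∧ c + ε * σ c = 0
  qe : ∀ e, A e e = 0 → QE A e ≤ N
  le : N ≤ UG A
  two : 2 ≤ finrank F U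

/-- Transvection roots. -/
def RF (ε : F) (A : U →ₛₗ[σ] U →ₗ[F] F) (w : U) (ψ : Dual F U) : Prop :=
  w ≠ 0 ∧ A w w = 0 ∧ ∃ c : F, c ≠ 0 ∧ c + ε * σ c = 0 ∧ ψ = c • A w

theorem RF.zero {w ψ} (h : RF ε A w ψ) : ψ w = 0 := by
  obtain ⟨-, h1, c, -, -, rfl⟩ := h
  simp [h1]

theorem RF.c_eq {w ψ} (h : RF ε A w ψ) {x : V} : T.c ψ x = 0 ↔ T.c (A w) x = 0 := by
  obtain ⟨-, -, c, hc, -, rfl⟩ := h
  simp [TF.c_smul, hc]

theorem RF.apply_eq {w ψ} (h : RF ε A w ψ) {x : U} : ψ x = 0 ↔ A w x = 0 := by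
  obtain ⟨-, -, c, hc, -, rfl⟩ := h
  simp [hc]

theorem RF.smul {w ψ} (h : RF ε A w ψ) {l : F} (hl : σ l = l) (h0 : l ≠ 0) : RF ε A w (l • ψ) := by
  obtain ⟨h1, h2, c, hc, hc', rfl⟩ := h
  exact ⟨h1, h2, l * c, mul_ne_zero h0 hc, by rw [map_mul, hl]; linear_combination l * hc',
    smul_smul _ _ _⟩

namespace Gm

variable (γ : Gm ε A N)
include γ

theorem t3 : T3 A := let ⟨_, h1, h2⟩ := γ.tr; γ.h.t3_of_trace h1 h2

theorem rf {w : U} (h0 : w ≠ 0) (h : A w w = 0) : ∃ ψ, RF ε A w ψ :=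
  let ⟨c, h1, h2⟩ := γ.tr; ⟨_, h0, h, c, h1, h2, rfl⟩

theorem ne {w ψ} (h : RF ε A w ψ) : ψ ≠ 0 := fun h0 =>
  h.1 (γ.h.nondeg w fun v => h.apply_eq.1 (by simp [h0]))

theorem exists_iso : ∃ w, w ≠ 0 ∧ A w w = 0 :=
  let ⟨w, _, h⟩ := γ.i2 ⊤ (by simpa using γ.two); ⟨w, h⟩

theorem nontrivial : Nontrivial U := let ⟨w, h, _⟩ := γ.exists_iso; ⟨w, 0, h⟩

theorem span {S : AddSubgroup U} (hS : ∀ v, A v v = 0 → v ∈ S) (v : U) : v ∈ S := by
  obtain ⟨e, h0, he⟩ := γ.exists_iso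
  obtain ⟨f, hf, hef⟩ := γ.h.exists_hyp h0 he
  exact γ.h.span_iso (W := ⊤) trivial trivial he hf (by simp [hef]) (fun v _ => hS v) trivial

theorem exists_root {w ψ} (h : RF ε A w ψ) : ∃ b ∈ QE A w, ∀ x, b x = x + ψ x • w := by
  obtain ⟨-, h1, c, -, hc, rfl⟩ := h
  exact γ.h.exists_transv h1 hc

variable [FiniteDimensional F U]

theorem gen (S : Subalgebra F (End F U)) (h : ∀ w ψ, RF ε A w ψ → ψ.smulRight w ∈ S) : S = ⊤ := by
  obtain ⟨c, hc, hc'⟩ := γ.tr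
  have h1 : ∀ w, w ≠ 0 → A w w = 0 → (A w).smulRight w ∈ S := fun w h0 hw =>
    smul_mem_cancel hc (r_smul c (A w) w ▸ h w _ ⟨h0, hw, c, hc, hc', rfl⟩)
  have h2 : ∀ x y, A x x = 0 → A y y = 0 → (A y).smulRight x ∈ S := fun x y hx hy => by
    rcases eq_or_ne x 0 with rfl | hx0
    · simp
    rcases eq_or_ne y 0 with rfl | hy0
    · simp
    obtain ⟨e, he, e1, e2⟩ := γ.h.exists_common' γ.t3 hx0 hy0 hx hy
    have := mul_mem (h1 x hx0 hx) (mul_mem (h1 e (by rintro rfl; simp at e1) he) (h1 y hy0 hy))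
    rw [r_mul_r, mul_smul_comm, r_mul_r, smul_smul] at this
    exact smul_mem_cancel (mul_ne_zero e2 (γ.h.swap_ne e1)) this
  refine eq_top_iff.2 fun a _ => end_ind (p := (· ∈ S)) (zero_mem _) (fun w ψ => ?_)
    (fun _ _ => add_mem) a
  obtain ⟨y, rfl⟩ := γ.h.exists_eq ψ
  refine γ.span (S := S.toSubring.toAddSubgroup.comap
    (LinearMap.smulRightₗ (A y)).toAddMonoidHom) (fun x hx => ?_) w
  exact γ.span (S := S.toSubring.toAddSubgroup.comap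
    ((LinearMap.smulRightₗ.flip x).toAddMonoidHom.comp A.toAddMonoidHom)) (fun y => h2 x y hx) y

theorem decomp {e f : U} (he : A e e = 0) (hf : A f f = 0) (hef : A e f = 1) (y : U) :
    A e (y - A e y • f - (ε * A f y) • e) = 0 ∧ A f (y - A e y • f - (ε * A f y) • e) = 0 := by
  have : A f e = ε := by rw [γ.h.flip, hef, map_one, mul_one]
  constructor
  · simp [he, hef]
  · simp only [map_sub, map_smul, hf, this, smul_eq_mul]
    linear_combination -A f y * γ.h.eps_sq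

variable (hn : 4 ≤ finrank F U)
include hn

theorem exists_iso_perp (x y : U) : ∃ s, s ≠ 0 ∧ A s s = 0 ∧ A x s = 0 ∧ A y s = 0 := by
  obtain ⟨s, hs, hs'⟩ := γ.i2 (perp A (Submodule.span F {x, y})) (by
    have := γ.h.finrank_add_finrank_perp (Submodule.span F {x, y})
    have := finrank_span_pair_le (F := F) x y
    omega)
  exact ⟨s, hs'.1, hs'.2, mem_perp_pair.1 hs⟩

theorem exists_line {w : U} (hw0 : w ≠ 0) : ∃ s, A s s = 0 ∧ A w s = 0 ∧ s ∉ F ∙ w := by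
  obtain ⟨y, hy⟩ := γ.h.exists_eq_one' hw0
  obtain ⟨s, h0, h1, h2, h3⟩ := γ.exists_iso_perp hn w y
  refine ⟨s, h1, h2, fun h4 => ?_⟩
  obtain ⟨c, rfl⟩ := Submodule.mem_span_singleton.1 h4
  simp_all

theorem span_perp {w : U} (hw0 : w ≠ 0) {S : AddSubgroup U}
    (hS : ∀ v, A w v = 0 → A v v = 0 → v ∈ S) {v : U} (hv : A w v = 0) : v ∈ S := by
  obtain ⟨s, h1, h2, h3⟩ := γ.exists_line hn hw0
  obtain ⟨y, hy, hy'⟩ := γ.h.exists_perp_one h3 1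
  obtain ⟨f, hf, hf'⟩ := γ.h.exists_iso_mem (W := LinearMap.ker (A w)) h1
    (γ.h.swap_ne (hy' ▸ one_ne_zero)) h2 hy
  exact γ.h.span_iso (W := LinearMap.ker (A w)) h2 hf h1 hf'.1 (by simp [hf'.2]) hS hv

end Gm

theorem TF.ker_e [FiniteDimensional F U] (T : TF F U W V) {a : End F U} {x : V} :
    T.e a x = 0 ↔ x ∈ T.P (LinearMap.ker a) := by
  refine ⟨fun h => T.mem_P.2 fun χ hχ => ?_, fun h => T.P_ext (g := 0) (fun v hv u => by
    simp [show a v = 0 from hv]) h⟩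
  obtain ⟨ψ, rfl⟩ := (LinearMap.range_dualMap_eq_dualAnnihilator_ker a).ge
    ((Submodule.mem_dualAnnihilator χ).2 hχ)
  rw [LinearMap.dualMap_apply', ← TF.c_e, h, map_zero]

/-- The form on `V` is a tensor product. -/
def Cp (A : U →ₛₗ[σ] U →ₗ[F] F) (B : V →ₛₗ[σ] V →ₗ[F] F) (T : TF F U W V) : Prop :=
  ∃ C : W →ₛₗ[σ] W →ₗ[F] F, ∀ v u v' u', B (T.t v u) (T.t v' u') = A v v' * C u u'

theorem TF.B_t {C : W →ₛₗ[σ] W →ₗ[F] F} (h : ∀ v u v' u', B (T.t v u) (T.t v' u') = A v v' * C u u')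
    (v : U) (u : W) (x : V) : B (T.t v u) x = C u (T.c (A v) x) :=
  T.ext_t (f := B (T.t v u)) (g := C u ∘ₗ T.c _) (fun _ _ => by simp [h]) x

theorem TF.right_nondeg [Nontrivial U] (hB : EF σ ε' B) {C : W →ₛₗ[σ] W →ₗ[F] F}
    (h : ∀ v u v' u', B (T.t v u) (T.t v' u') = A v v' * C u u') {y : W} (hy : ∀ u, C u y = 0) :
    y = 0 := by
  obtain ⟨v, hv⟩ := exists_ne (0 : U)
  refine T.t_inj hv ((hB.nondeg' _ fun x => ?_).trans (map_zero _).symm)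
  exact T.ind x (by simp) (fun _ _ => by simp [h, hy]) fun _ _ h1 h2 => by simp [h1, h2]

namespace Cp

theorem smul (h : Cp A B T) {g} (hg : g ∈ UG B) : Cp A B (g • T) :=
  let ⟨C, h⟩ := h; ⟨C, fun _ _ _ _ => (hg _ _).trans (h _ _ _ _)⟩

theorem adj (h : Cp A B T) {a a' : End F U} (e : ∀ v v', A (a v) v' = A v (a' v')) (x y : V) :
    B (T.e a x) y = B x (T.e a' y) :=
  let ⟨_, h⟩ := h
  T.ind x (by simp) (fun _ _ => T.ind y (by simp) (fun _ _ => by simp [h, e])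
    fun _ _ h1 h2 => by rw [map_add, map_add, map_add, h1, h2]) fun _ _ h1 h2 => by simp [h1, h2]

theorem kr_mem (h : Cp A B T) {b} (hb : b ∈ UG A) : T.kr b 1 ∈ UG B := fun x y => by
  rw [TF.kr_one_apply, h.adj (a' := (b⁻¹).toLinearMap) (UG_apply_left hb), ← TF.kr_one_apply]
  simp [← TF.kr_inv, ← inv_one (G := W ≃ₗ[F] W) ▸ T.kr_inv b 1]

theorem B_eq_zero (h : Cp A B T) {w : U} {x y : V} (hx : x ∈ T.P (F ∙ w)) (hy : T.c (A w) y = 0) :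
    B x y = 0 := by
  obtain ⟨C, h⟩ := h
  obtain ⟨u, rfl⟩ := T.mem_P1.1 hx
  rw [TF.B_t h, hy, map_zero]

theorem c_eq_zero [Nontrivial U] (h : Cp A B T) (hB : EF σ ε' B) {w : U} {y : V}
    (hy : ∀ u, B (T.t w u) y = 0) : T.c (A w) y = 0 :=
  let ⟨_, h⟩ := h; TF.right_nondeg hB h fun u => by rw [← TF.B_t h, hy]

theorem mem_perp [Nontrivial U] (h : Cp A B T) (hB : EF σ ε' B) {w : U} {y : V} :
    y ∈ perp B (T.P (F ∙ w)) ↔ T.c (A w) y = 0 :=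
  ⟨fun hy => h.c_eq_zero hB fun u => hy _ (T.t_mem_P1 w u), fun hy _ hx => h.B_eq_zero hx hy⟩

theorem A_eq_zero [Nontrivial U] (h : Cp A B T) (hB : EF σ ε' B) {v v' : U} {u' : W} (hu : u' ≠ 0)
    (e : ∀ u, B (T.t v u) (T.t v' u') = 0) : A v v' = 0 := by
  simpa [hu] using h.c_eq_zero hB e

end Cp

/-- Good factors in the presence of a form. -/
structure GoodF (A : U →ₛₗ[σ] U →ₗ[F] F) (B : V →ₛₗ[σ] V →ₗ[F] F) (N : Subgroup (U ≃ₗ[F] U))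
    (M : Subgroup (V ≃ₗ[F] V)) (T : TF F U W V) : Prop where
  cp : Cp A B T
  su : ∀ b ∈ N, T.kr b 1 ∈ M
  rad : ∀ w, w ≠ 0 → A w w = 0 → ∀ g ∈ M, (∀ x ∈ T.P (F ∙ w), g x = x) →
    (∀ x, T.c (A w) x = 0 → g x - x ∈ T.P (F ∙ w)) → ∃ a, ∀ x, g x = T.e a x

theorem GoodF.smul (h : GoodF A B N M T) (hM : M ≤ UG B) {g} (hg : g ∈ M) :
    GoodF A B N M (g • T) :=
  ⟨h.cp.smul (hM hg), fun b hb => mul_mem (mul_mem hg (h.su b hb)) (inv_mem hg),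
    fun w h0 hw k hk h1 h2 => by
      obtain ⟨a, ha⟩ := h.rad w h0 hw _ (mul_mem (mul_mem (inv_mem hg) hk) hg)
        (fun x hx => by simp [h1 (g x) (by simpa [TF.mem_smul_P])])
        fun x hx => by simpa [TF.mem_smul_P] using h2 (g x) (by simpa)
      exact ⟨a, fun x => by simp [TF.smul_e, ← ha]⟩⟩

theorem isRt_kr {w : U} {ψ : Dual F U} {b : U ≃ₗ[F] U} (h : ∀ x, b x = x + ψ x • w) :
    IsRt T w ψ (T.kr b 1) :=
  T.ext_t (f := (T.kr b 1).toLinearMap) (g := 1 + T.t w ∘ₗ T.c ψ) fun _ _ => by simp [h]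

theorem GoodF.rt (h : GoodF A B N M T) (γ : Gm ε A N) {w ψ} (hw : RF ε A w ψ) :
    ∃ g ∈ M, IsRt T w ψ g :=
  let ⟨b, hb, hb'⟩ := γ.exists_root hw
  ⟨_, h.su b (γ.qe w hw.2.1 hb), isRt_kr hb'⟩

theorem TF.kr_sub_mem [FiniteDimensional F U] (T : TF F U W V) {w : U} {ψ : Dual F U}
    {b : U ≃ₗ[F] U} {κ : F} (h : ∀ y, ψ y = 0 → b y - κ • y ∈ F ∙ w) {x : V} (hx : T.c ψ x = 0) :
    T.kr b 1 x - κ • x ∈ T.P (F ∙ w) := by
  have := T.P_le (X := (T.P (F ∙ w)).comap ((T.kr b 1).toLinearMap - κ • 1))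
    (fun y hy u => by simpa using T.t_mem_P (h y hy) u) (T.mem_P_ker.2 hx)
  rwa [Submodule.mem_comap] at this

/-- A torus element with three eigenvalues. -/
def Tor (A : U →ₛₗ[σ] U →ₗ[F] F) (N : Subgroup (U ≃ₗ[F] U)) : Prop :=
  ∃ l ν κ : F, ν ≠ l ∧ ν ≠ κ ∧ ∀ e f, A e e = 0 → A f f = 0 → A e f = 1 →
    ∃ b ∈ N, b e = l • e ∧ b f = ν • f ∧ ∀ z, A e z = 0 → A f z = 0 → b z = κ • z

section loc

variable [FiniteDimensional F U] [FiniteDimensional F W] [FiniteDimensional F V] [Nontrivial W]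
  (γ : Gm ε A N) (hB : EF σ ε' B) (h : GoodF A B N M T) (h' : GoodF A B N M T') {v w : U}
  (hv : v ≠ 0) (hw0 : w ≠ 0) (hw : A w w = 0) (e : T.P (F ∙ v) = T'.P (F ∙ w))
include γ hB h h' hv hw0 hw e

theorem loc_iso : A v v = 0 := by
  have := γ.nontrivial
  obtain ⟨u, hu⟩ := exists_ne (0 : W)
  exact h.cp.A_eq_zero hB hu fun u' => h'.cp.B_eq_zero (e ▸ T.t_mem_P1 v u')
    (T'.c_of_mem1 hw (e ▸ T.t_mem_P1 v u))

theorem loc_c {x : V} : T.c (A v) x = 0 ↔ T'.c (A w) x = 0 := by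
  have := γ.nontrivial
  rw [← h.cp.mem_perp hB, e, h'.cp.mem_perp hB]

theorem loc_qe {b} (hb : b ∈ QE A w) : ∃ a, ∀ x, T'.kr b 1 x = T.e a x :=
  h.rad v hv (loc_iso γ hB h h' hv hw0 hw e) _ (h'.su b (γ.qe w hw hb)) (fun x hx => by
    obtain ⟨u, rfl⟩ := T'.mem_P1.1 (e ▸ hx)
    simp [hb.2.1]) fun x hx => by
    simpa [e] using T'.kr_sub_mem (κ := 1) (fun y hy => by
      obtain ⟨c, hc⟩ := hb.2.2 y hy
      simp [hc, Submodule.mem_span_singleton]) ((loc_c γ hB h h' hv hw0 hw e).1 hx)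

theorem loc_mem {α : W →ₗ[F] W} (hα : ∀ u, T'.t w u = T.t v (α u)) {b} (hb : b ∈ QE A w) {f f₁ : U}
    {l : F} (hl : l ≠ 0) (hbf : b f = f + l • w) (hf : f₁ ≠ 0)
    (e' : T.P (F ∙ f₁) = T'.P (F ∙ f)) : ∃ x, ∀ u, T'.t f u = T.t x (α u) := by
  obtain ⟨a, ha⟩ := loc_qe γ hB h h' hv hw0 hw e hb
  obtain ⟨α₁, hα₁⟩ := exists_t_eq hf e'.ge
  obtain ⟨χ, hχ⟩ := exists_dual_one (F := F) hv
  have h1 : ∀ u, l • α u = χ (a f₁ - f₁) • α₁ u := fun u => by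
    have := congrArg (T.c χ) (ha (T'.t f u))
    rw [TF.kr_t, hbf, map_add, LinearMap.add_apply, map_smul, LinearMap.smul_apply,
      LinearEquiv.coe_one, id, hα, hα₁] at this
    simpa [hχ, sub_smul, eq_sub_iff_add_eq'] using this
  have h2 : χ (a f₁ - f₁) ≠ 0 := fun h0 => by
    obtain ⟨u, hu⟩ := exists_ne (0 : W)
    exact T'.t_ne_zero hw0 hu (by simp [hα, show α u = 0 by simpa [h0, hl] using h1 u])
  exact ⟨((χ (a f₁ - f₁))⁻¹ * l) • f₁, fun u => by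
    rw [hα₁, (inv_smul_eq_iff₀ h2).2 (h1 u) |>.symm]; simp [mul_smul]⟩

theorem loc_of_tor (hT : Tor A N) : Same T T' := by
  have := γ.nontrivial
  obtain ⟨l, ν, κ, h1, h2, hT⟩ := hT
  have hv' := loc_iso γ hB h h' hv hw0 hw e
  obtain ⟨f, hf, hvf⟩ := γ.h.exists_hyp hv hv'
  obtain ⟨f', hf', hwf⟩ := γ.h.exists_hyp hw0 hw
  obtain ⟨b, hb, e1, -, e3⟩ := hT v f hv' hf hvf
  obtain ⟨b', hb', f1, f2, f3⟩ := hT w f' hw hf' hwf
  have key : ∀ {v f : U} {b : U ≃ₗ[F] U}, A v v = 0 → A f f = 0 → A v f = 1 → b v = l • v →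
      (∀ z, A v z = 0 → A f z = 0 → b z = κ • z) → ∀ y, A v y = 0 → b y - κ • y ∈ F ∙ v :=
    fun {v f b} h1 h2 h3 h4 h5 y hy => by
      have := h5 _ (γ.decomp h1 h2 h3 y).1 (γ.decomp h1 h2 h3 y).2
      simp only [hy, zero_smul, sub_zero, map_sub, map_smul, h4, sub_eq_iff_eq_add] at this
      exact Submodule.mem_span_singleton.2 ⟨ε * A f y * (l - κ), by rw [this]; module⟩
  have h3 : ∀ x ∈ T.P (F ∙ v), (T.kr b 1)⁻¹ x ∈ T.P (F ∙ v) := fun x hx =>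
    apply_mem_of_stab (inv_mem (mem_stab_of_le fun y hy => by
      obtain ⟨u, rfl⟩ := T.mem_P1.1 hy
      simpa [e1] using Submodule.smul_mem _ l hy)) hx
  obtain ⟨a, ha⟩ := h.rad v hv hv' _ (mul_mem (inv_mem (h.su b hb)) (h'.su b' hb')) (fun x hx => by
    obtain ⟨u, hu⟩ := T.mem_P1.1 hx
    obtain ⟨u', hu'⟩ := T'.mem_P1.1 (e ▸ hx)
    have e4 : T.kr b 1 x = l • x := by simp [← hu, e1]
    have e5 : T'.kr b' 1 x = l • x := by simp [← hu', f1]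
    rw [LinearEquiv.mul_apply, e5, ← e4]; simp) fun x hx => by
    have := h3 _ (sub_mem (e ▸ T'.kr_sub_mem (key hw hf' hwf f1 f3)
      ((loc_c γ hB h h' hv hw0 hw e).1 hx)) (T.kr_sub_mem (key hv' hf hvf e1 e3) hx))
    rw [sub_sub_sub_cancel_right] at this
    simpa using this
  have h4 : ∀ x, T.e (b.toLinearMap * a - ν • 1) x = T'.e (b'.toLinearMap - ν • 1) x := fun x => by
    simp [← ha, ← TF.kr_one_apply]
  obtain ⟨u₀, hu₀⟩ := exists_ne (0 : W)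
  have hf0 : f' ≠ 0 := by rintro rfl; simp at hwf
  obtain ⟨f₁, h5, h6⟩ := Submodule.exists_mem_ne_zero_of_ne_bot
    (p := LinearMap.ker (b.toLinearMap * a - ν • 1)) fun h0 => T'.t_ne_zero hf0 hu₀ (by
      have := T.ker_e.1 ((h4 (T'.t f' u₀)).trans (by simp [f2]))
      rw [h0] at this
      exact T.P_le (X := ⊥) (by simp) this)
  have h7 : T.P (F ∙ f₁) = T'.P (F ∙ f') := P1_eq_of_le h6 hf0 fun x hx => by
    refine T'.P_mono (fun y hy => ?_) (T'.ker_e.1 ((h4 x).symm.trans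
      (T.ker_e.2 (T.P_mono (by simpa using h5) hx))))
    have e4 := γ.decomp hw hf' hwf y
    have e5 := f3 _ e4.1 e4.2
    have e6 : b' y = ν • y := sub_eq_zero.1 hy
    rw [map_sub, map_sub, map_smul, map_smul, f1, f2, e6] at e5
    have e7 := congrArg (A f') e5
    rw [map_smul, e4.2, smul_zero] at e7
    have e8 : A f' w = ε := by rw [γ.h.flip, hwf, map_one, mul_one]
    have e9 : A f' y = 0 := by
      simp only [map_sub, map_smul, hf', e8, smul_eq_mul] at e7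
      exact (mul_eq_zero.1 (show (ν - l) * A f' y = 0 by
        linear_combination e7 + l * A f' y * γ.h.eps_sq)).resolve_left (sub_ne_zero.2 h1)
    refine Submodule.mem_span_singleton.2 ⟨A w y, (sub_eq_zero.1 ?_).symm⟩
    refine (smul_eq_zero.1 (show (ν - κ) • (y - A w y • f') = 0 from ?_)).resolve_left
      (sub_ne_zero.2 h2)
    simp only [e9, mul_zero, zero_smul, sub_zero] at e5
    linear_combination (norm := module) e5
  obtain ⟨α, hα⟩ := exists_t_eq hv e.ge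
  obtain ⟨ψ, hψ⟩ := γ.rf hw0 hw
  obtain ⟨r, hr, hr'⟩ := γ.exists_root hψ
  obtain ⟨x₁, hx₁⟩ := loc_mem γ hB h h' hv hw0 hw e hα hr
    (fun h0 => by simpa [hwf] using hψ.apply_eq.1 h0) (hr' f') h6 h7
  refine same_of_t (α := α) fun y => ?_
  obtain ⟨g, hg, c, hg'⟩ := γ.h.exists_gE' hw (γ.decomp hw hf' hwf y).1
  obtain ⟨a, ha⟩ := loc_qe γ hB h h' hv hw0 hw e hg
  obtain ⟨c₁, c₂, h8⟩ : ∃ c₁ c₂ : F, y = c₁ • f' + c₂ • w - ε • g f' :=
    ⟨A w y + ε, ε * A f' y + ε * A (y - A w y • f' - (ε * A f' y) • w) f' + ε * c, by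
      rw [hg', hwf]
      linear_combination (norm := module) γ.h.eps_sq • (A w y • f' + (ε * A f' y) • w - y)⟩
  refine ⟨c₁ • x₁ + c₂ • v - ε • a x₁, fun u => ?_⟩
  have := ha (T'.t f' u)
  rw [TF.kr_t, hx₁, TF.e_t] at this
  rw [h8]
  simp [hα, hx₁, ← this]

end loc

end Cfsg.Lib.TW
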