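import Cfsg.Agent.Lib.TW.FormLoc

/-!
# Tensor factors with a form of dimension at least three: good factors are equal or commute
-/

set_option autoImplicit false
set_option linter.unusedSectionVars false

namespace Cfsg.Lib.TW

open Module Cfsg.Lib.Unitary Cfsg.Lib.TMax
open scoped Pointwise

variable {F U W V : Type*} [Field F] [AddCommGroup U] [Module F U] [AddCommGroup W] [Module F W]
  [AddCommGroup V] [Module F V] {σ : F →+* F} {ε ε' : F} {A : U →ₛₗ[σ] U →ₗ[F] F}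
  {B : V →ₛₗ[σ] V →ₗ[F] F} {N : Subgroup (U ≃ₗ[F] U)} {M : Subgroup (V ≃ₗ[F] V)}
  {T T' : TF F U W V} {w : U} {P₀ : Submodule F V}
  [FiniteDimensional F U] [FiniteDimensional F W] [FiniteDimensional F V] [Nontrivial W]

/-- The stabiliser of `P` in `Γ` consists of roots. -/
def HL (M : Subgroup (V ≃ₗ[F] V)) (T T' : TF F U W V) (w : U) (P₀ : Submodule F V) : Prop :=
  ∀ k ∈ Gam M P₀ (T.P (F ∙ w) ⊔ T'.P (F ∙ w)), k ∈ stab (T.P (F ∙ w)) → ∃ φ, IsRt T w φ k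

theorem TF.smul_P' (T : TF F U W V) (g : V ≃ₗ[F] V) (L : Submodule F U) :
    (g • T).P L = g • T.P L := T.smul_P g L

section gen

variable {R : U → Dual F U → Prop} {G : TF F U W V → Prop} (c : Cfg R M G T T' w P₀)
  (hL : HL M T T' w P₀)
include c hL

theorem Cfg.P_eq {S : TF F U W V} {ψ a g} (hψ : ψ ≠ 0) (ha : IsRt S w ψ a)
    (ha' : a ∈ Gam M P₀ (T.P (F ∙ w) ⊔ T'.P (F ∙ w)))
    (hg : g ∈ Gam M P₀ (T.P (F ∙ w) ⊔ T'.P (F ∙ w))) (h : a • g • T.P (F ∙ w) = g • T.P (F ∙ w)) :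
    S.P (F ∙ w) = (g • T).P (F ∙ w) := by
  obtain ⟨φ, hφ⟩ := hL _ (mul_mem (mul_mem (inv_mem hg) ha') hg)
    (show (g⁻¹ * a * g) • T.P (F ∙ w) = _ by rw [mul_smul, mul_smul, h, inv_smul_smul])
  exact P1_eq_of_le c.ne c.ne (ha.P_le hψ (by simpa [mul_assoc] using (hφ.conj g).sub_mem))

theorem Cfg.exists_fix [Finite V] {p : ℕ} [Fact p.Prime] [CharP F p] {a : V ≃ₗ[F] V} (ha : a ^ p = 1)
    (h1 : a ∈ Subgroup.normalizer (Gam M P₀ (T.P (F ∙ w) ⊔ T'.P (F ∙ w)) : Set (V ≃ₗ[F] V)))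
    (h2 : ∃ g ∈ Gam M P₀ (T.P (F ∙ w) ⊔ T'.P (F ∙ w)), a • T.P (F ∙ w) = g • T.P (F ∙ w)) :
    ∃ g ∈ Gam M P₀ (T.P (F ∙ w) ⊔ T'.P (F ∙ w)), a • g • T.P (F ∙ w) = g • T.P (F ∙ w) := by
  set Γ := Gam M P₀ (T.P (F ∙ w) ⊔ T'.P (F ∙ w))
  have : Finite (V ≃ₗ[F] V) := Finite.of_injective _ DFunLike.coe_injective
  let H : Subgroup (V ≃ₗ[F] V) :=
    { carrier := {a | a ∈ Subgroup.normalizer (Γ : Set (V ≃ₗ[F] V)) ∧
        ∃ g ∈ Γ, a • T.P (F ∙ w) = g • T.P (F ∙ w)}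
      one_mem' := ⟨one_mem _, 1, one_mem _, rfl⟩
      mul_mem' := fun {a b} ⟨h1, g, hg, e⟩ ⟨h2, k, hk, e'⟩ => ⟨mul_mem h1 h2, a * k * a⁻¹ * g,
        mul_mem ((Subgroup.mem_normalizer_iff.1 h1 k).1 hk) hg, by
          simp only [mul_smul, e', ← e, inv_smul_smul]⟩
      inv_mem' := fun {a} ⟨h1, g, hg, e⟩ => ⟨inv_mem h1, a⁻¹ * g⁻¹ * a⁻¹⁻¹,
        (Subgroup.mem_normalizer_iff.1 (inv_mem h1) _).1 (inv_mem hg), by
          simp only [mul_smul, inv_inv, e, inv_smul_smul]⟩ }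
  obtain ⟨ψ, hψ⟩ := c.r
  obtain ⟨-, h0, hw⟩ := c.s.ne _ _ hψ
  obtain ⟨b, hb, hb'⟩ := c.s.rt _ c.g _ _ hψ
  have hb1 := c.rt_mem hψ hb hb'
  obtain ⟨⟨g, h3, k, hk, e⟩, hg⟩ := exists_fixed_in_orbit (G := H) (p := p)
    (s := ⟨b, Subgroup.le_normalizer hb1, b, hb1, rfl⟩) (t := ⟨a, h1, h2⟩) (x := T.P (F ∙ w))
    (Subtype.ext (IsRt.eq_one (by simpa using hb'.pow hw p))) (Subtype.ext ha)
    (mem_stab_of_le fun x hx => by rw [hb']; exact add_mem hx (T.t_mem_P1 _ _))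
    fun ⟨g, h3, k, hk, e⟩ h => e.trans
      ((c.P_eq hL h0 hb' hb1 hk (e ▸ h)).trans (T.smul_P' _ _)).symm
  exact ⟨k, hk, e ▸ hg⟩

theorem Cfg.exists_map [Finite V] : ∃ g ∈ Gam M P₀ (T.P (F ∙ w) ⊔ T'.P (F ∙ w)),
    T'.P (F ∙ w) = (g • T).P (F ∙ w) := by
  obtain ⟨p, hp⟩ := CharP.exists F
  obtain ⟨u, hu⟩ := exists_ne (0 : W)
  have : Finite F := Finite.of_injective _ (smul_left_injective F (T.t_ne_zero c.ne hu))
  have : Fact p.Prime := ⟨CharP.char_is_prime F p⟩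
  obtain ⟨ψ, hψ⟩ := c.r
  obtain ⟨-, h0, hw⟩ := c.s.ne _ _ hψ
  obtain ⟨b, hb, hb'⟩ := c.s.rt _ c.g' _ _ hψ
  have hb1 := c.rt_mem' hψ hb hb'
  obtain ⟨g, hg, h⟩ := c.exists_fix hL (IsRt.eq_one (by simpa using hb'.pow hw p))
    (Subgroup.le_normalizer hb1) ⟨b, hb1, rfl⟩
  exact ⟨g, hg, c.P_eq hL h0 hb' hb1 hg h⟩

end gen

theorem A_eq_zero_of (h : Cp A B T) [Nontrivial U] (hB : EF σ ε' B) {β α} (hk : T.kr β α ∈ UG B)
    {w w₁ y : U} (e : T.P (F ∙ w) ≤ (T.kr β α • T).P (F ∙ w₁)) (hy : A w₁ y = 0) :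
    A w (β y) = 0 := by
  obtain ⟨u, hu⟩ := exists_ne (0 : W)
  refine h.A_eq_zero hB (u' := α u) (by simpa) fun u' => ?_
  obtain ⟨u₁, h1⟩ := (T.kr β α • T).mem_P1.1 (e (T.t_mem_P1 w u'))
  rw [← h1, ← TF.kr_t, TF.smul_t, hk]
  exact h.B_eq_zero (T.t_mem_P1 _ _) (by simp [hy])

variable (γ : Gm ε A N) (hB : EF σ ε' B) (hM : M ≤ UG B)
  (c : Cfg (RF ε A) M (GoodF A B N M) T T' w P₀)
include γ hB hM c

theorem Cfg.hl_or (h3 : 3 ≤ finrank F U) : HL M T T' w P₀ ∨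
    P₀ = ⊥ ∧ ∃ x, T'.P (F ∙ w) ≤ T.P ((F ∙ w) ⊔ F ∙ x) := by
  have := γ.nontrivial
  refine or_iff_not_imp_right.2 fun h0 k hk hk' => ?_
  obtain ⟨β, α, rfl, -⟩ := c.exists_kr hk.1 hk'
  obtain ⟨ψ, hψ⟩ := c.r
  obtain ⟨v, h1, h2⟩ := exists_ker_notMem (A w) (N := F ∙ w)
    (by have := finrank_span_le (F := F) w; omega)
  obtain ⟨a, ha⟩ := c.scalar_of hk hψ h2 (hψ.apply_eq.2 h1) (hψ.apply_eq.2
    (A_eq_zero_of c.g.cp hB (hM hk.1) ((T.smul_P _ _).trans hk').ge h1))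
  refine (c.rt_or hk.2.2 ha).resolve_right fun ⟨x, hx, hx'⟩ => h0 ?_
  have e1 := Submodule.finrank_sup_add_finrank_inf_eq (T.P (F ∙ w)) (T'.P (F ∙ w))
  have e2 : T.P ((F ∙ w) ⊔ F ∙ x) ≤ T.P (F ∙ w) ⊔ T'.P (F ∙ w) := by
    rw [TF.P_sup]; exact sup_le le_sup_left hx'
  have e3 := Submodule.finrank_lt_finrank_of_lt (show (F ∙ w) < (F ∙ w) ⊔ F ∙ x from
    left_lt_sup.2 (by simpa))
  have e4 := T.finrank_P ((F ∙ w) ⊔ F ∙ x)
  rw [finrank_span_singleton c.ne] at e3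
  rw [T.finrank_P1 c.ne, T'.finrank_P1 c.ne] at e1
  have e5 := Nat.mul_le_mul_right (finrank F W) e3
  have e6 := Submodule.finrank_mono e2
  refine ⟨eq_bot_iff.2 ((le_inf c.le c.le').trans (Submodule.finrank_eq_zero.1 (by omega)).le), x,
    le_sup_right.trans (Submodule.eq_of_le_of_finrank_le e2 (by omega)).ge⟩

theorem Cfg.hl (hn : 4 ≤ finrank F U) : HL M T T' w P₀ :=
  (c.hl_or γ hB hM (by omega)).resolve_right fun ⟨_, x, hx⟩ => by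
    obtain ⟨s, h0, h1, h2, h3⟩ := γ.exists_iso_perp hn w x
    obtain ⟨ψ, hψ⟩ := c.r
    obtain ⟨χ, hχ⟩ := γ.rf h0 h1
    have h4 := hχ.apply_eq.2 (γ.h.swap h2)
    refine c.P_ne (P1_eq_of_le c.ne c.ne fun y hy => c.le (c.mp' c.g' c.g c.bad.symm hψ hχ c.le'
      (fun y hy => T.c_of_mem1 h4 (c.le hy)) hy ?_)).symm
    exact T.mem_P_ker.1 (T.P_mono (sup_le (by simpa) (by simpa using hχ.apply_eq.2 (γ.h.swap h3)))
      (hx hy))

omit hB in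
theorem Cfg.move (h0 : P₀ = ⊥) {w₁ : U} (h1 : w₁ ≠ 0) (h2 : A w₁ w₁ = 0) :
    ∃ b ∈ N, Cfg (RF ε A) M (GoodF A B N M) (T.kr b 1 • T) T' w P₀ ∧
      (F ∙ w).map b.toLinearMap = F ∙ w₁ := by
  obtain ⟨ψ, hψ⟩ := c.r
  obtain ⟨b, hb, a, ha, e⟩ := γ.h.ptRel_of_T3 γ.t3 γ.qe c.ne h1 hψ.2.1 h2
  refine ⟨b, hb, ⟨c.s, c.g.smul hM (c.g.su b hb), c.g', c.bad.of_same
    (same_smul_iff.2 ⟨_, _, rfl⟩).symm, c.r, h0 ▸ bot_le, c.le', c.mp⟩, ?_⟩
  rw [Submodule.map_span, Set.image_singleton, LinearEquiv.coe_coe, e,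
    Submodule.span_singleton_smul_eq ha.isUnit]

omit hB hM in
theorem Cfg.not_hl [Finite F] {l : F} (h1 : σ l = l) (h2 : l ≠ 0) (h3 : l ≠ 1) :
    ¬ HL M T T' w P₀ := fun hL => by
  have : Finite V := Module.finite_of_finite F
  let S : AddSubgroup F := (AddMonoidHom.id F + (AddMonoidHom.mulLeft ε).comp σ.toAddMonoidHom).ker
  have hS : ∀ c, c ∈ S ↔ c + ε * σ c = 0 := fun c => Iff.rfl
  have := Fintype.ofFinite S
  obtain ⟨ψ, hψ⟩ := c.r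
  obtain ⟨c₀, h4, h5⟩ := γ.tr
  refine c.false_of_sum hL (0 : S) (fun i => i.1 • A w) (by simp)
    (fun i hi => ⟨c.ne, hψ.2.1, i, by simpa using hi, i.2, rfl⟩) ?_ ?_
  · have := Equiv.sum_comp (Equiv.addRight (⟨c₀, h5⟩ : S)) Subtype.val
    simpa [Finset.sum_add_distrib, h4] using this
  · let f : S → S := fun i => ⟨l * i, (hS _).2 (by
      rw [map_mul, h1]; linear_combination l * (hS _).1 i.2)⟩
    have := (Finite.injective_iff_bijective.1 (show Function.Injective f from fun i j e =>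
      Subtype.ext (mul_left_cancel₀ h2 (congrArg Subtype.val e)))).sum_comp Subtype.val
    simp only [f, ← Finset.mul_sum] at this
    rw [← Finset.sum_smul, (mul_left_eq_self₀.1 this).resolve_left h3, zero_smul]

theorem Cfg.false_of_three [Finite F] (hn : 3 ≤ finrank F U) {l : F} (h1 : σ l = l) (h2 : l ≠ 0)
    (h3 : l ≠ 1) : False := by
  obtain ⟨h0, x, hx⟩ := (c.hl_or γ hB hM hn).resolve_left (c.not_hl γ h1 h2 h3)
  have e1 : ∀ x : U, finrank F ↥((F ∙ w) ⊔ F ∙ x) ≤ 2 := fun x =>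
    (Submodule.finrank_add_le_finrank_add_finrank _ _).trans
      (add_le_add (finrank_span_le w) (finrank_span_le x))
  obtain ⟨y, hy⟩ := exists_notMem (N := (F ∙ w) ⊔ F ∙ x) ((e1 x).trans_lt hn)
  obtain ⟨s, hs⟩ := not_forall.1 (mt (γ.span (S := ((F ∙ w) ⊔ F ∙ x).toAddSubgroup) · y) hy)
  rw [Classical.not_imp] at hs
  obtain ⟨b, hb, c', e⟩ := c.move γ hM h0 (w₁ := s) (fun h => hs.2 (h ▸ zero_mem _)) hs.1
  obtain ⟨-, x', hx'⟩ := (c'.hl_or γ hB hM hn).resolve_left (c'.not_hl γ h1 h2 h3)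
  rw [TF.smul_P, TF.map_kr_P] at hx'
  have e2 := Submodule.finrank_lt_finrank_of_lt (show ((F ∙ w) ⊔ F ∙ x) ⊓ _ <
    ((F ∙ w) ⊔ F ∙ x').map b.toLinearMap from inf_lt_right.2 fun h =>
      hs.2 (h (Submodule.map_mono le_sup_left (e.ge (Submodule.mem_span_singleton_self s)))))
  rw [LinearEquiv.finrank_map_eq] at e2
  obtain ⟨v, hv⟩ := ((Submodule.finrank_le_one_iff_isPrincipal _).1
    (Nat.le_of_lt_succ (e2.trans_le (e1 x')))).principal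
  have e3 := le_inf hx hx'
  rw [← TF.P_inf, hv] at e3
  obtain ⟨u, hu⟩ := exists_ne (0 : W)
  have hv0 : v ≠ 0 := fun h => T'.t_ne_zero c.ne hu (by
    obtain ⟨u', h'⟩ := T.mem_P1.1 (e3 (T'.t_mem_P1 w u))
    simp [← h', h])
  obtain ⟨ψ, hψ⟩ := c.r
  exact c.bad.1 (c.s.loc _ _ c.g c.g' v w ψ hv0 hψ (P1_eq_of_le c.ne hv0 e3).symm)

theorem Cfg.eq_bot [Finite F] (hn : 4 ≤ finrank F U) (h2 : (2 : F) = 0) : P₀ = ⊥ := by
  have : Finite V := Module.finite_of_finite F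
  have : Finite (V ≃ₗ[F] V) := Finite.of_injective _ DFunLike.coe_injective
  have := γ.nontrivial
  have : CharP F 2 := CharTwo.of_one_ne_zero_of_two_eq_zero one_ne_zero h2
  by_contra h0
  obtain ⟨p₀, hp, hp0⟩ := Submodule.exists_mem_ne_zero_of_ne_bot h0
  obtain ⟨u₀, rfl⟩ := T.mem_P1.1 (c.le hp)
  have hu₀ : u₀ ≠ 0 := fun h => hp0 (by simp [h])
  obtain ⟨ψ, hψ⟩ := c.r
  obtain ⟨s, h3, h4, h5⟩ := γ.exists_line hn c.ne
  obtain ⟨χ₀, hχ₀⟩ := γ.rf (fun h => h5 (by simp [h])) h3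
  obtain ⟨a, ha, h6, χ, hχ, ha'⟩ := γ.exists_bad c.s (.inr hn) c.g' c.g c.bad.symm hχ₀
  have h7 : ∀ x ∈ P₀, a x = x := fun x hx => by
    rw [ha', T.c_of_mem1 (hχ.apply_eq.2 (γ.h.swap h4)) (c.le hx)]; simp
  have h8 : a ^ 2 = 1 := IsRt.eq_one (by simpa [h2] using ha'.pow hχ.zero 2)
  have c' : Cfg _ M _ T' (a • T') w P₀ := ⟨c.s, c.g', c.g'.smul hM ha, h6, c.r, c.le',
    fun x hx => (T'.smul_P a _).ge ⟨x, c.le' hx, h7 x hx⟩, c.mp⟩
  obtain ⟨g, hg, e⟩ := c'.exists_map (c'.hl γ hB hM hn)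
  have h9 : ∀ x ∈ T'.P (F ∙ w) ⊔ (a • T').P (F ∙ w), a x ∈ T'.P (F ∙ w) ⊔ (a • T').P (F ∙ w) :=
    fun x hx => by
      obtain ⟨y, hy, z, hz, rfl⟩ := Submodule.mem_sup.1 hx
      rw [map_add, add_comm]
      refine Submodule.add_mem_sup ?_ ((T'.smul_P a _).ge ⟨y, hy, rfl⟩)
      rwa [TF.mem_smul_P, inv_eq_of_mul_eq_one_right ((sq a).symm.trans h8)] at hz
  obtain ⟨k, hk, e'⟩ := c'.exists_fix (c'.hl γ hB hM hn) h8 (Subgroup.mem_normalizer_fintype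
    fun k hk => ⟨mul_mem (mul_mem ha hk.1) (inv_mem ha), fun x hx => by
      simp [a.symm_apply_eq.2 (h7 x hx).symm, hk.2.1 x hx, h7 x hx], fun x => by simpa using h9 _ (hk.2.2 (a⁻¹ x))⟩)
    ⟨g, hg, by rw [← TF.smul_P', e, TF.smul_P']⟩
  have hS := c.g'.smul hM hk.1
  have K : ∀ x ∈ (k • T').P (F ∙ w), T.c ψ x = 0 → ∃ p ∈ P₀, ∃ u, x = p + T.t s u := fun x hx h => by
    obtain ⟨y, hy, rfl⟩ := (T'.smul_P k _).le hx
    obtain ⟨y₁, e1, z, e2, e3⟩ := Submodule.mem_sup.1 (add_mem (Submodule.mem_sup_left hy) (hk.2.2 y))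
    obtain ⟨y₂, e4, rfl⟩ := (T'.smul_P a _).le e2
    rw [LinearEquiv.coe_coe, ha', add_sub_cancel, ← add_assoc] at e3
    rw [LinearEquiv.coe_coe, ← e3] at h ⊢
    exact ⟨_, c.mp' c.g' c.g c.bad.symm hψ hψ c.le' (fun y hy => T.c_of_mem1 hψ.zero (c.le hy))
      (add_mem e1 e4) (by simpa only [map_add, TF.c_t, hψ.apply_eq.2 h4, zero_smul, add_zero] using h),
      _, rfl⟩
  have hp' : T.t w u₀ ∈ (k • T').P (F ∙ w) := (T'.smul_P k _).ge ⟨_, c.le' hp, hk.2.1 _ hp⟩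
  refine c.s.not_same hS c.g ⟨fun h => ?_, fun h => ?_⟩ hχ ha' (c.s.loc _ _ hS (hS.smul hM ha) w w ψ
    c.ne hψ (by rw [TF.smul_P', TF.smul_P', TF.smul_P', e']))
  · obtain ⟨y, -, hy⟩ := h.symm.exists_P1 c.ne
    have h10 := T.mem_of_t_mem hu₀ (hy ▸ hp')
    refine c.P_ne (P1_eq_of_le c.ne c.ne fun x hx => c.le' ?_)
    obtain ⟨p, e1, u, e2⟩ := K x (hy ▸ T.P_mono (by simpa) hx) (T.c_of_mem1 hψ.zero hx)
    rcases eq_or_ne u 0 with rfl | hu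
    · simpa [e2]
    · exact (h5 (T.mem_of_t_mem hu (by simpa [e2] using sub_mem hx (c.le e1)))).elim
  · obtain ⟨y, e1, e2⟩ := exists_ker_notMem (A w) (N := (F ∙ w) ⊔ F ∙ s) (by
      have := Submodule.finrank_add_le_finrank_add_finrank (F ∙ w) (F ∙ s)
      have := finrank_span_le (F := F) w
      have := finrank_span_le (F := F) s
      omega)
    obtain ⟨φ, hφ⟩ := exists_dual_one (F := F) c.ne
    obtain ⟨p, e3, u, e4⟩ := K (T.t y u₀) (by simpa [hφ] using h.symm.inv _ (φ.smulRight y) _ hp')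
      (by simp [hψ.apply_eq.2 e1])
    refine e2 (T.mem_of_t_mem hu₀ ?_)
    rw [e4, TF.P_sup]
    exact Submodule.add_mem_sup (c.le e3) (T.t_mem_P1 _ _)

theorem Cfg.false_of_two [Finite F] (hn : 4 ≤ finrank F U) (h2 : (2 : F) = 0)
    (hr : 5 ≤ finrank F U ∨ ∀ n, σ n = n → ∃ x, x * (1 - x) = n) : False := by
  have : Finite V := Module.finite_of_finite F
  have := γ.nontrivial
  have h0 := c.eq_bot γ hB hM hn h2
  obtain ⟨ψ, hψ⟩ := c.r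
  obtain ⟨s, h3, h4, h5⟩ := γ.exists_line hn c.ne
  obtain ⟨b, hb, c', e⟩ := c.move γ hM h0 (fun h => h5 (by simp [h])) h3
  have e0 : (T.kr b 1 • T).P (F ∙ w) = T.P (F ∙ s) := by rw [TF.smul_P, TF.map_kr_P, e]
  obtain ⟨g, hg, e1⟩ := c.exists_map (c.hl γ hB hM hn)
  obtain ⟨g₁, hg₁, e2⟩ := c'.exists_map (c'.hl γ hB hM hn)
  rw [e0] at hg₁
  have hk := mul_mem (inv_mem hg.1) hg₁.1
  have e3 : T.P (F ∙ w) = ((g⁻¹ * g₁) • T).P (F ∙ s) := by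
    rw [TF.smul_P', mul_smul, ← e0, ← TF.smul_P' _ g₁, ← e2, e1, TF.smul_P', inv_smul_smul]
  obtain ⟨χ, hχ⟩ := γ.rf (fun h => h5 (by simp [h])) h3
  obtain ⟨β, α, e4⟩ := same_smul_iff.1 (c.s.loc _ _ c.g (c.g.smul hM hk) w s χ c.ne hχ e3)
  have hD : ∀ x, T.kr β α x - x ∈ T.P ((F ∙ w) ⊔ F ∙ s) ⊔ T'.P (F ∙ w) := fun x => by
    have := add_mem (sup_le_sup_right (T.P_mono le_sup_left) _ ((inv_mem hg).2.2 (g₁ x)))
      (sup_le_sup_right (T.P_mono le_sup_right) _ (hg₁.2.2 x))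
    rwa [sub_add_sub_cancel, ← LinearEquiv.mul_apply, e4] at this
  rw [e4] at hk e3
  have h6 : ∀ z ∈ (F ∙ w) ⊔ F ∙ s, ∀ z' ∈ (F ∙ w) ⊔ F ∙ s, A z z' = 0 := fun z hz z' hz' => by
    obtain ⟨_, ⟨a, rfl⟩, _, ⟨a', rfl⟩, rfl⟩ := by
      simpa only [Submodule.mem_sup, Submodule.mem_span_singleton] using hz
    obtain ⟨_, ⟨d, rfl⟩, _, ⟨d', rfl⟩, rfl⟩ := by
      simpa only [Submodule.mem_sup, Submodule.mem_span_singleton] using hz'
    simp [hψ.2.1, h3, h4, γ.h.swap h4]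
  have hw := Submodule.mem_sup_left (T := F ∙ s) (Submodule.mem_span_singleton_self (R := F) w)
  have hs := Submodule.mem_sup_right (S := F ∙ w) (Submodule.mem_span_singleton_self (R := F) s)
  have d0 : ∀ z, z ≠ 0 → A z z = 0 → ∀ u, T'.c ψ (T.t z u) = 0 → u = 0 := fun z h1 h2 u hu => by
    obtain ⟨φ, hφ⟩ := γ.rf h1 h2
    have := c.mp' c.g c.g' c.bad hφ hψ (h0 ▸ bot_le) (by simp [h0]) (T.t_mem_P1 z u) hu
    exact T.t_inj h1 (by simpa [h0] using this)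
  have K : ∀ y u, A s y = 0 → A w y = 0 → T.t (β y) (α u) - T.t y u ∈ T.P ((F ∙ w) ⊔ F ∙ s) :=
    fun y u h1 h2 => by
      obtain ⟨p, hp, p', hp', e5⟩ := Submodule.mem_sup.1 (hD (T.t y u))
      have h7 := congrArg (T.c ψ) e5
      rw [map_add, T.c_of_mem (fun z hz => hψ.apply_eq.2 (h6 w hw z hz)) hp, TF.kr_t, map_sub,
        TF.c_t, TF.c_t, hψ.apply_eq.2 h2, hψ.apply_eq.2 (A_eq_zero_of c.g.cp hB (hM hk) e3.le h1)]
        at h7
      have h8 := c.mp' c.g' c.g c.bad.symm hψ hψ c.le' (by simp [h0]) hp' (by simpa using h7)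
      rw [h0, Submodule.mem_bot] at h8
      rwa [← TF.kr_t, ← e5, h8, add_zero]
  obtain ⟨u₀, hu₀⟩ := exists_ne (0 : W)
  obtain ⟨χ₁, f1, f2⟩ := exists_dual_span h5
  obtain ⟨φ, hφ⟩ := exists_dual_one (F := F) c.ne
  obtain ⟨χ₀, f3, f4⟩ : ∃ χ₀ : Dual F U, χ₀ w = 1 ∧ χ₀ s = 0 :=
    ⟨φ - φ s • χ₁, by simp [hφ, f2], by simp [f1]⟩
  obtain ⟨l, hl⟩ := Submodule.mem_span_singleton.1 (T.mem_of_t_mem (N := F ∙ w) (u := α u₀)
    (v := β s) (by simpa) (by simpa [e3] using (T.kr β α • T).t_mem_P1 s u₀))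
  have h7 : ∀ u, u = χ₀ (β w) • α u + (l * χ₁ (β w)) • α (α u) ∧
      T'.c ψ (T.t w u + T.t s (χ₁ (β w) • α u)) = 0 := fun u => by
    obtain ⟨u₁, h8⟩ := LinearMap.injective_iff_surjective.1 ((injective_iff_map_eq_zero
      (T'.c ψ ∘ₗ T.t s)).2 (d0 s hχ.1 h3)) (-T'.c ψ (T.t w u))
    have h9 : T'.c ψ (T.t w u + T.t s u₁) = 0 := by rw [map_add]; exact add_eq_zero_iff_neg_eq.2 h8.symm
    have h10 : T.kr β α (T.t w u + T.t s u₁) = T.t w u + T.t s u₁ := by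
      rw [← LinearEquiv.eq_symm_apply, eq_comm, ← sub_eq_zero]
      refine hB.nondeg _ fun x => (hB.apply_sub (hM hk) _ x).symm.trans ?_
      obtain ⟨p, hp, p', hp', e5⟩ := Submodule.mem_sup.1 (hD x)
      rw [← e5, map_add, hB.swap (c.g'.cp.B_eq_zero hp' (hψ.c_eq.1 h9)), add_zero, map_add,
        LinearMap.add_apply, c.g.cp.B_eq_zero (T.t_mem_P1 _ _) (T.c_of_mem (h6 w hw) hp),
        c.g.cp.B_eq_zero (T.t_mem_P1 _ _) (T.c_of_mem (h6 s hs) hp), add_zero]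
    have h11 : χ₁ (β w) • α u = u₁ := by simpa [← hl, f1, f2] using congrArg (T.c χ₁) h10
    refine ⟨?_, h11 ▸ h9⟩
    simpa [← hl, f3, f4, ← h11, smul_smul, mul_comm l] using (congrArg (T.c χ₀) h10).symm
  have h8 : ∀ u (m : F), α u = m • u → u = 0 := fun u m hu =>
    d0 (w + (χ₁ (β w) * m) • s) (fun h => by simpa [f3, f4] using congrArg χ₀ h)
      (h6 _ (add_mem hw (Submodule.smul_mem _ _ hs)) _ (add_mem hw (Submodule.smul_mem _ _ hs))) u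
      (by simpa [hu, mul_smul] using (h7 u).2)
  have h9 : ∀ m m' : F, m ≠ 0 → ¬ ∀ u, m • α u = m' • u := fun m m' hm h =>
    hu₀ (h8 u₀ (m⁻¹ * m') (by rw [mul_smul, ← h, inv_smul_smul₀ hm]))
  rcases hr with h5 | hr
  · obtain ⟨y, e5, e6⟩ := SetLike.not_le_iff_exists.1 (show ¬ perp A ((F ∙ w) ⊔ F ∙ s) ≤
        (F ∙ w) ⊔ F ∙ s from fun h => by
      have := Submodule.finrank_mono h
      have := γ.h.finrank_add_finrank_perp ((F ∙ w) ⊔ F ∙ s)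
      have := Submodule.finrank_add_le_finrank_add_finrank (F ∙ w) (F ∙ s)
      have := finrank_span_le (F := F) w
      have := finrank_span_le (F := F) s
      omega)
    obtain ⟨ω, e7, e8⟩ := exists_dual e6
    have e9 : ∀ u, ω (β y) • α u = (1 : F) • u := fun u => by
      simpa [e7, sub_eq_zero] using T.c_of_mem e8 (K y u (e5 s hs) (e5 w hw))
    exact h9 _ _ (fun h => hu₀ (by simpa [h] using (e9 u₀).symm)) e9
  generalize χ₀ (β w) = a, l * χ₁ (β w) = p at h7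
  obtain ⟨C, hC⟩ := c.g.cp
  obtain ⟨f, hf⟩ := γ.h.exists_eq_one c.ne
  have k1 : ∀ u u', A (β w) (β f) * C (α u) (α u') = C u u' := fun u u' => by
    simpa [hC, hf] using hM hk (T.t w u) (T.t f u')
  have k2 : ∀ u u', σ (A (β w) (β f)) * C (α u) (α u') = C u u' := fun u u' => by
    have := hM hk (T.t f u) (T.t w u')
    rw [TF.kr_t, TF.kr_t, hC, hC, γ.h.flip, γ.h.flip w, hf, map_one, mul_one, mul_assoc] at this
    exact mul_left_cancel₀ γ.h.eps_ne this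
  obtain ⟨u₁, u₂, k3⟩ := exists_C_ne hB hC
  have k4 := mul_ne_zero_iff.1 (k1 u₁ u₂ ▸ k3)
  have k5 := mul_right_cancel₀ k4.2 ((k2 u₁ u₂).trans (k1 u₁ u₂).symm)
  generalize A (β w) (β f) = μ at k1 k4 k5
  have k6 : ∀ u, (p * σ p - μ * μ) • α u = -(a * σ p + μ * σ a) • u := fun u =>
    sub_eq_zero.1 (T.right_nondeg hB hC fun u' => by
      have E1 := congrArg (C (α u')) (h7 u).1
      have E2 := congrArg (C · (α u)) (h7 u').1
      simp only [map_add, map_smul, LinearMap.map_smulₛₗ, LinearMap.add_apply, LinearMap.smul_apply,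
        smul_eq_mul, map_sub] at E1 E2 ⊢
      linear_combination (-σ p * μ) * E1 - μ * μ * E2 - (σ p * a + μ * σ a) * k1 u' u -
        σ p * p * k1 u' (α u) - μ * σ p * k1 (α u') u)
  have k7 : p * σ p = μ * μ := by_contra fun h => h9 _ _ (sub_ne_zero.2 h) k6
  have k8 : a * σ p + μ * σ a = 0 := by
    have := k6 u₀
    rw [k7, sub_self, zero_smul, eq_comm, smul_eq_zero, neg_eq_zero] at this
    exact this.resolve_right hu₀
  have k9 : p ≠ 0 := fun h => k4.1 (by simpa [h] using k7)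
  obtain ⟨m, hm⟩ : ∃ m, p * m ^ 2 + a * m = 1 := by
    rcases eq_or_ne a 0 with rfl | ha
    · have : CharP F 2 := CharTwo.of_one_ne_zero_of_two_eq_zero one_ne_zero h2
      obtain ⟨m, hm⟩ := surjective_frobenius F 2 p⁻¹
      exact ⟨m, by rw [frobenius_def] at hm; simp [hm, k9]⟩
    have k10 := congrArg σ k8
    simp only [map_add, map_mul, γ.h.invol, k5, map_zero] at k10
    have k11 : σ a ≠ 0 := by simpa
    obtain ⟨x, hx⟩ := hr (-p / a ^ 2) (by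
      rw [map_div₀, map_neg, map_pow, div_eq_div_iff (by simpa) (by simpa)]
      linear_combination σ a * k10 - a * k8)
    exact ⟨-a * x / p, by field_simp at hx ⊢; linear_combination -hx⟩
  exact h9 p (-(a + p * m)) k9 fun u => sub_eq_zero.1 (h8 _ m (by
    simp only [map_sub, map_smul]
    linear_combination (norm := module) -(h7 u).1 - hm • u))

omit c in
theorem Gm.not_bad [Finite F] (hn : 3 ≤ finrank F U) (hl : Tor A N ∨ 4 ≤ finrank F U)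
    (hq : (∃ l, σ l = l ∧ l ≠ 0 ∧ l ≠ 1) ∨ 4 ≤ finrank F U ∧ (2 : F) = 0 ∧
      (5 ≤ finrank F U ∨ ∀ n, σ n = n → ∃ x, x * (1 - x) = n))
    (h : GoodF A B N M T) (h' : GoodF A B N M T') : ¬ Bad T T' := fun hb => by
  have s := γ.sys (W := W) hB hM hl (.inl hn)
  obtain ⟨w, h1, h2⟩ := γ.exists_iso
  obtain ⟨ψ, hψ⟩ := γ.rf h1 h2
  obtain ⟨S, S', x, χ, x', χ', h1, h2, h4, h5, h6, h7⟩ := exists_max h h' hb hψ
  obtain ⟨b, hb1, hb2, φ, hφ, hb3⟩ := γ.exists_bad s (hq.imp_right And.left) h1 h2 h4 h6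
  have c := s.cfg h1 h5 h7 hb1 hb2 fun y hy => by rw [hb3, hφ.c_eq.2 (h6.c_eq.1 hy)]; simp
  rcases hq with ⟨l, h1, h2, h3⟩ | ⟨h1, h2, h3⟩
  exacts [c.false_of_three γ hB hM hn h1 h2 h3, c.false_of_two γ hB hM h1 h2 h3]

end Cfsg.Lib.TW
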