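import Cfsg.Agent.Lib.TW.Form

/-!
# Tensor factors with a form: locality in dimension at least four, bad roots
-/

set_option autoImplicit false
set_option linter.unusedSectionVars false

namespace Cfsg.Lib.TW

open Module Cfsg.Lib.Unitary Cfsg.Lib.TMax

variable {F U W V : Type*} [Field F] [AddCommGroup U] [Module F U] [AddCommGroup W] [Module F W]
  [AddCommGroup V] [Module F V] {σ : F →+* F} {ε ε' : F} {A : U →ₛₗ[σ] U →ₗ[F] F}
  {B : V →ₛₗ[σ] V →ₗ[F] F} {N : Subgroup (U ≃ₗ[F] U)} {M : Subgroup (V ≃ₗ[F] V)}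
  {T T' : TF F U W V}
  [FiniteDimensional F U] [FiniteDimensional F W] [FiniteDimensional F V] [Nontrivial W]

theorem IsRt.exists_P {w ψ g} (h : IsRt T' w ψ g) (hw : w ≠ 0) (hψ : ψ ≠ 0) {a}
    (ha : ∀ x, g x = T.e a x) : ∃ v, v ≠ 0 ∧ T.P (F ∙ v) = T'.P (F ∙ w) := by
  obtain ⟨u, hu⟩ := exists_ne (0 : W)
  have : ∃ z, a z - z ≠ 0 := by
    by_contra h0
    push Not at h0
    exact T'.t_ne_zero hw hu (h.P_le hψ (X := ⊥) (fun x => by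
      rw [ha, show a = 1 from LinearMap.ext fun z => sub_eq_zero.1 (h0 z)]; simp) (T'.t_mem_P1 w u))
  obtain ⟨z, hz⟩ := this
  refine ⟨_, hz, P1_eq_of_le hz hw fun y hy => ?_⟩
  obtain ⟨u, rfl⟩ := T.mem_P1.1 hy
  simpa [ha] using h.sub_mem (T.t z u)

theorem exists_C_ne [Nontrivial U] (hB : EF σ ε' B) {C : W →ₛₗ[σ] W →ₗ[F] F}
    (h : ∀ v u v' u', B (T.t v u) (T.t v' u') = A v v' * C u u') : ∃ u u', C u u' ≠ 0 := by
  obtain ⟨y, hy⟩ := exists_ne (0 : W)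
  obtain ⟨u, hu⟩ := not_forall.1 (mt (T.right_nondeg hB h) hy)
  exact ⟨u, y, hu⟩

section loc

variable (γ : Gm ε A N) (hB : EF σ ε' B) (h : GoodF A B N M T) (h' : GoodF A B N M T') {v w : U}
  (hv : v ≠ 0) (hw0 : w ≠ 0) (hw : A w w = 0) (e : T.P (F ∙ v) = T'.P (F ∙ w))
include γ hB h h' hv hw0 hw e

theorem loc_cong {f' : U} (hf' : A w f' = 1) {y : U} (hy : A w y = 0) :
    ∃ s, A v s = 0 ∧ ∀ u, T'.t y u - T.t s (T.c (A v) (T'.t f' u)) ∈ T.P (F ∙ v) := by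
  obtain ⟨f, hf⟩ := γ.h.exists_eq_one hv
  obtain ⟨g, hg, c, hg'⟩ := γ.h.exists_gE' hw hy
  obtain ⟨a, ha⟩ := loc_qe γ hB h h' hv hw0 hw e hg
  have h1 : ∀ u, T'.t y u - T.t (-ε • (a f - f)) (T.c (A v) (T'.t f' u)) ∈ T.P (F ∙ v) := fun u => by
    have h2 := T'.kr_sub_mem (κ := 1) (b := g) (w := w) (fun y hy => by
      obtain ⟨c, hc⟩ := hg.2.2 y hy
      simp [hc, Submodule.mem_span_singleton]) ((loc_c γ hB h h' hv hw0 hw e).1
        (show T.c (A v) (T'.t f' u - T.t f (T.c (A v) (T'.t f' u))) = 0 by simp [hf]))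
    rw [map_sub, ha (T.t _ _), ← e, TF.kr_t, hg', hf'] at h2
    convert Submodule.smul_mem _ ε (sub_mem (Submodule.smul_mem _ (A y f' + c)
      (e ▸ T'.t_mem_P1 w u)) h2) using 1
    simp only [map_add, map_sub, map_smul, LinearMap.add_apply, LinearMap.sub_apply,
      LinearMap.smul_apply, TF.e_t, LinearEquiv.coe_one, id]
    linear_combination (norm := module) (-γ.h.eps_sq) • T'.t y u
  refine ⟨_, ?_, h1⟩
  obtain ⟨u, hu⟩ := exists_ne (0 : W)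
  have h2 := T.c_of_mem1 (loc_iso γ hB h h' hv hw0 hw e) (h1 u)
  rw [map_sub, (loc_c γ hB h h' hv hw0 hw e).2 (by simp [hy]), TF.c_t, zero_sub, neg_eq_zero] at h2
  exact (smul_eq_zero.1 h2).resolve_right fun h0 => hu (by
    simpa [hf'] using (loc_c γ hB h h' hv hw0 hw e).1 h0)

theorem loc_line {s' : U} (hs' : A s' s' = 0) (hws : A w s' = 0) (h0 : s' ∉ F ∙ w) :
    ∃ s, s ≠ 0 ∧ T.P (F ∙ s) = T'.P (F ∙ s') := by
  have := γ.nontrivial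
  have hc := @loc_c _ _ _ _ _ _ _ _ _ _ _ _ _ _ _ _ _ _ _ _ _ _ _ _ γ hB h h' _ _ hv hw0 hw e
  obtain ⟨f', hf'⟩ := γ.h.exists_eq_one hw0
  obtain ⟨y', -, hwy, hsy⟩ := γ.h.exists_iso_dual hs' hws h0
  obtain ⟨s, hs, e1⟩ := loc_cong γ hB h h' hv hw0 hw e hf' hws
  obtain ⟨y, hy, e2⟩ := loc_cong γ hB h h' hv hw0 hw e hf' hwy
  obtain ⟨α, hα⟩ : ∃ α : W →ₗ[F] W, ∀ u, T.c (A v) (T'.t f' u) = α u :=
    ⟨T.c (A v) ∘ₗ T'.t f', fun _ => rfl⟩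
  simp only [hα] at e1 e2
  have h1 : Function.Surjective α := LinearMap.injective_iff_surjective.1
    ((injective_iff_map_eq_zero _).2 fun u hu => by simpa [hf'] using hc.1 ((hα u).trans hu))
  have h2 : ∀ {x x' z : V}, x - x' ∈ T.P (F ∙ v) → T.c (A v) z = 0 → B x z = B x' z :=
    fun hx hz => by simpa [sub_eq_zero] using h.cp.B_eq_zero hx hz
  obtain ⟨C, hC⟩ := h.cp
  obtain ⟨C', hC'⟩ := h'.cp
  obtain ⟨u, u', hu⟩ := exists_C_ne hB hC'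
  have h3 : ∀ {a a' b b' : U}, A w a' = 0 → A v b = 0 → (∀ u, T'.t a' u - T.t a (α u) ∈ T.P (F ∙ v)) →
      (∀ u, T'.t b' u - T.t b (α u) ∈ T.P (F ∙ v)) → A a' b' * C' u u' = A a b * C (α u) (α u') :=
    fun h4 h5 h6 h7 => by
      rw [← hC, ← hC', ← h2 (h6 u) (by simp [h5]), hB.flip, h2 (h7 u') (hc.2 (by simp [h4])),
        ← hB.flip]
  have k1 := h3 hws hy e1 e2
  have k2 := h3 hwy hs e2 e1
  have k3 := h3 hws hs e1 e1
  rw [hsy, one_mul] at k1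
  have k4 := mul_ne_zero_iff.1 (k1 ▸ hu)
  rw [γ.h.flip s' y', γ.h.flip s y, hsy, map_one, mul_one, k1, mul_assoc] at k2
  have k5 := mul_right_cancel₀ k4.2 (mul_left_cancel₀ γ.h.eps_ne k2)
  have k6 : A s s = 0 := by simpa [hs', k4.2] using k3
  have k7 : s ≠ 0 := fun h0 => by simp [h0] at k4
  have h4 : ∀ x, T.c (A v) x = 0 → T.c (A s) x = A s y • α (T'.c (A s') x) := fun x hx => by
    have h5 : T.c (A s) (x - T'.t y' (T'.c (A s') x)) = 0 := Cp.c_eq_zero ⟨C, hC⟩ hB fun u => by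
      obtain ⟨u, rfl⟩ := h1 u
      rw [← h2 (e1 u) (by rw [map_sub, hx, hc.2 (by simp [hwy]), sub_zero])]
      exact Cp.B_eq_zero ⟨C', hC'⟩ (T'.t_mem_P1 _ _) (by simp [hsy])
    have h6 := T.c_of_mem1 (γ.h.swap hs) (e2 (T'.c (A s') x))
    rw [map_sub, sub_eq_zero] at h5 h6
    rw [h5, h6, TF.c_t]
  have hs0 : s' ≠ 0 := fun h => h0 (by simp [h])
  obtain ⟨c, hc0, hc1⟩ := γ.tr
  have r' : RF ε A s' (c • A s') := ⟨hs0, hs', c, hc0, hc1, rfl⟩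
  have r : RF ε A s ((A s y)⁻¹ • c • A s) := RF.smul ⟨k7, k6, c, hc0, hc1, rfl⟩
    (by rw [map_inv₀, ← k5]) (inv_ne_zero k4.1)
  obtain ⟨b, hb, hb1⟩ := γ.exists_root r
  obtain ⟨b', hb', hb2⟩ := γ.exists_root r'
  have h5 : ∀ x ∈ T.P (F ∙ v), T.kr b 1 x = x := fun x hx => by
    rw [isRt_kr hb1, r.c_eq.2 (T.c_of_mem1 (γ.h.swap hs) hx)]; simp
  have h6 : ∀ x ∈ T.P (F ∙ v), (T.kr b 1)⁻¹ x = x := fun x hx => by
    conv_lhs => rw [← h5 x hx]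
    simp
  obtain ⟨a, ha⟩ := h.rad v hv (loc_iso γ hB h h' hv hw0 hw e) _
    (mul_mem (inv_mem (h.su b (γ.qe s k6 hb))) (h'.su b' (γ.qe s' hs' hb'))) (fun x hx => by
      rw [LinearEquiv.mul_apply, isRt_kr hb2, r'.c_eq.2 (T'.c_of_mem1 (γ.h.swap hws) (e ▸ hx))]
      simpa using h6 x hx) fun x hx => by
      have h7 : T'.kr b' 1 x - T.kr b 1 x ∈ T.P (F ∙ v) := by
        rw [isRt_kr hb1, isRt_kr hb2, add_sub_add_left_eq_sub]
        convert e1 (T'.c (c • A s') x) using 3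
        simp [TF.c_smul, h4 x hx, smul_smul, mul_right_comm _ c, k4.1]
      have := h6 _ h7
      rw [map_sub] at this
      simpa [← this] using h7
  exact (isRt_kr hb2).exists_P hs0 (γ.ne r') (a := b.toLinearMap * a) fun x => by
    simp [← ha, ← TF.kr_one_apply]

theorem loc_perp (hn : 4 ≤ finrank F U) {α : W →ₗ[F] W} (hα : ∀ u, T'.t w u = T.t v (α u)) {y : U}
    (hy : A w y = 0) : ∃ x, ∀ u, T'.t y u = T.t x (α u) := by
  let S : AddSubgroup U :=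
    { carrier := {y | ∃ x, ∀ u, T'.t y u = T.t x (α u)}
      zero_mem' := ⟨0, by simp⟩
      add_mem' := fun ⟨x, hx⟩ ⟨x', hx'⟩ => ⟨x + x', by simp [hx, hx']⟩
      neg_mem' := fun ⟨x, hx⟩ => ⟨-x, by simp [hx]⟩ }
  refine γ.span_perp hn hw0 (S := S) (fun s hs hs' => ?_) hy
  by_cases h0 : s ∈ F ∙ w
  · obtain ⟨c, rfl⟩ := Submodule.mem_span_singleton.1 h0
    exact ⟨c • v, by simp [hα]⟩
  obtain ⟨s₁, h1, h2⟩ := loc_line γ hB h h' hv hw0 hw e hs' hs h0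
  obtain ⟨z, h3, h4⟩ := γ.h.exists_perp_one h0 1
  obtain ⟨b, hb, hb'⟩ := γ.h.exists_E hw h3
  exact loc_mem γ hB h h' hv hw0 hw e hα hb one_ne_zero (by rw [hb' s hs, h4]) h1 h2

theorem loc_of_four (hn : 4 ≤ finrank F U) : Same T T' := by
  have := γ.nontrivial
  obtain ⟨α, hα⟩ := exists_t_eq hv e.ge
  obtain ⟨s, h1, h2, h3⟩ := γ.exists_line hn hw0
  have hs0 : s ≠ 0 := fun h => h3 (by simp [h])
  obtain ⟨x, hx⟩ := loc_perp γ hB h h' hv hw0 hw e hn hα h2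
  obtain ⟨u, hu⟩ := exists_ne (0 : W)
  have hx0 : x ≠ 0 := fun h0 => T'.t_ne_zero hs0 hu (by simp [hx, h0])
  have e' : T.P (F ∙ x) = T'.P (F ∙ s) := (P1_eq_of_le hs0 hx0 fun y hy => by
    obtain ⟨u, rfl⟩ := T'.mem_P1.1 hy
    exact hx u ▸ T.t_mem_P1 _ _).symm
  obtain ⟨z, h4, h5⟩ := γ.h.exists_perp_one (show w ∉ F ∙ s from fun h => by
    obtain ⟨c, rfl⟩ := Submodule.mem_span_singleton.1 h
    exact h3 (Submodule.mem_span_singleton.2 ⟨c⁻¹, by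
      rw [smul_smul, inv_mul_cancel₀ (by rintro rfl; simp at hw0), one_smul]⟩)) 1
  refine same_of_t (α := α) fun y => ?_
  have h6 : A w z = ε := by rw [γ.h.flip, h5, map_one, mul_one]
  obtain ⟨x₁, h7⟩ := loc_perp γ hB h h' hv hw0 hw e hn hα (y := y - (ε * A w y) • z)
    (by simp [h6, mul_right_comm, γ.h.eps_sq])
  obtain ⟨x₂, h8⟩ := loc_perp γ hB h h' hx0 hs0 h1 e' hn hx (y := (ε * A w y) • z) (by simp [h4])
  exact ⟨x₁ + x₂, fun u => by simp [← h7, ← h8]⟩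

end loc

theorem Gm.sys (γ : Gm ε A N) (hB : EF σ ε' B) (hM : M ≤ UG B) (hl : Tor A N ∨ 4 ≤ finrank F U)
    (hr : 3 ≤ finrank F U ∨ (2 : F) ≠ 0) :
    Sys (RF ε A) M (GoodF A B N M : TF F U W V → Prop) where
  ne _ _ h := ⟨h.1, γ.ne h, h.zero⟩
  smul _ h _ hg := h.smul hM hg
  rt _ h _ _ hw := h.rt γ hw
  loc _ _ h h' _ _ _ hv hw e := hl.elim (loc_of_tor γ hB h h' hv hw.1 hw.2.1 e)
    (loc_of_four γ hB h h' hv hw.1 hw.2.1 e)
  gen := γ.gen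
  rk := hr
  two := γ.two
  nt := inferInstance

theorem not_le_of_comm3 {T₀ T₁ T₂ : TF F U W V} (h2 : 2 ≤ finrank F U) (h01 : Comm T₀ T₁)
    (h02 : Comm T₀ T₂) (h12 : Comm T₁ T₂) {w : U} (hw : w ≠ 0) :
    ¬ T₂.P (F ∙ w) ≤ T₀.P (F ∙ w) ⊔ T₁.P (F ∙ w) := fun h => by
  have : Nontrivial U := ⟨w, 0, hw⟩
  obtain ⟨v, hv⟩ := exists_notMem (N := F ∙ w) ((finrank_span_le w).trans_lt h2)
  have h1 := (h02.inv _).le_of_le_sup (h01.inv _) hv h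
  have h3 := (h12.inv (F ∙ w)).le_of_le_sup inv_bot hv (h1.trans le_sup_left)
  obtain ⟨u, hu⟩ := exists_ne (0 : W)
  exact T₂.t_ne_zero hw hu (h3 (T₂.t_mem_P1 w u))

theorem Inv.finrank_le {X : Submodule F V} (h : Inv T X) {x : U} (hx : x ≠ 0) :
    finrank F X ≤ finrank F (X.comap (T.t x)) * finrank F U := by
  let S : TF F W U V := ⟨(TensorProduct.comm F W U).trans T.φ⟩
  rw [← S.finrank_P]
  refine Submodule.finrank_mono fun y hy => ?_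
  simpa using end_ind (p := fun a => T.e a y ∈ S.P (X.comap (T.t x))) (by simp) (fun w ψ => by
    rw [TF.e_r]
    exact S.t_mem_P (show T.t x _ ∈ X from T.e_r x ψ y ▸ h _ _ hy) w)
    (fun a b ha hb => by simpa using add_mem ha hb) 1

theorem not_comm_of_four (hn : 4 ≤ finrank F U) {b : V ≃ₗ[F] V} {l : V →ₗ[F] W}
    (hb : ∀ x, l x = 0 → b x = x) : ¬ Comm T (b • T) := fun h => by
  have : Nontrivial U := Module.nontrivial_of_finrank_pos (R := F) (by omega)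
  obtain ⟨x₁, h1⟩ := exists_ne (0 : U)
  obtain ⟨x₂, h2⟩ := exists_notMem (N := F ∙ x₁) ((finrank_span_le x₁).trans_lt (by omega))
  obtain ⟨ψ₂, h3, h4⟩ := exists_dual_span h2
  obtain ⟨χ, h5⟩ := exists_dual_one (F := F) h1
  obtain ⟨ψ₁, h6, h7⟩ : ∃ ψ₁ : Dual F U, ψ₁ x₁ = 1 ∧ ψ₁ x₂ = 0 :=
    ⟨χ - χ x₂ • ψ₂, by simp [h5, h4], by simp [h3]⟩
  have e1 := (h.inv (LinearMap.ker ψ₁)).finrank_le h1
  have e2 := (h.inv (LinearMap.ker ψ₁ ⊓ LinearMap.ker ψ₂)).finrank_le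
    (show x₂ ≠ 0 from fun h => by simp [h] at h3)
  have e3 := finrank_ker_dual ψ₁
  have e4 := finrank_ker_dual ψ₂
  have e5 := Submodule.finrank_sup_add_finrank_inf_eq (LinearMap.ker ψ₁) (LinearMap.ker ψ₂)
  have e6 := (LinearMap.ker ψ₁ ⊔ LinearMap.ker ψ₂).finrank_le
  have key : ∀ {ψ : Dual F U} {y}, y ∈ (b • T).P (LinearMap.ker ψ) → l y = 0 → T.c ψ y = 0 :=
    fun {ψ y} hy hl => by
      have := T.mem_smul_P.1 hy
      rw [← hb y hl] at this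
      simpa using T.mem_P_ker.1 this
  have e7 := LinearMap.finrank_le_finrank_of_injective (f := (l ∘ₗ T.t x₁ ∘ₗ Submodule.subtype
    (((b • T).P (LinearMap.ker ψ₁)).comap (T.t x₁))).coprod (l ∘ₗ T.t x₂ ∘ₗ Submodule.subtype
    (((b • T).P (LinearMap.ker ψ₁ ⊓ LinearMap.ker ψ₂)).comap (T.t x₂))))
    ((injective_iff_map_eq_zero _).2 fun ⟨⟨u₁, k1⟩, ⟨u₂, k2⟩⟩ k3 => by
      have k4 := key (add_mem k1 ((b • T).P_mono inf_le_left k2)) (by simpa using k3)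
      obtain rfl : u₁ = 0 := by simpa [h6, h7] using k4
      have k5 := key ((b • T).P_mono inf_le_right k2) (by simpa using k3)
      obtain rfl : u₂ = 0 := by simpa [h3] using k5
      rfl)
  rw [finrank_prod] at e7
  rw [TF.finrank_P] at e1 e2
  have := finrank_pos (R := F) (M := W)
  nlinarith [Nat.mul_le_mul_right (finrank F U) e7]

/-- A root moving `T` to a bad position. -/
theorem Gm.exists_bad (γ : Gm ε A N) {G : TF F U W V → Prop} (s : Sys (RF ε A) M G)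
    (hq : (∃ l, σ l = l ∧ l ≠ 0 ∧ l ≠ 1) ∨ 4 ≤ finrank F U) (h : G T) (h' : G T') (hb : Bad T T')
    {w ψ} (hw : RF ε A w ψ) : ∃ b ∈ M, Bad T (b • T) ∧ ∃ χ, RF ε A w χ ∧ IsRt T' w χ b := by
  by_contra h0
  have h1 : ∀ l, σ l = l → l ≠ 0 → ∃ b, IsRt T' w (l • ψ) b ∧ Comm T (b • T) := fun l hl hl' => by
    obtain ⟨b, hb1, hb2⟩ := s.rt _ h' _ _ (hw.smul hl hl')
    exact ⟨b, hb2, not_not.1 fun h1 => h0 ⟨b, hb1, ⟨s.not_same h h' hb (hw.smul hl hl') hb2, h1⟩,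
      _, hw.smul hl hl', hb2⟩⟩
  obtain ⟨b₁, r₁, c₁⟩ := h1 1 (map_one σ) one_ne_zero
  rw [one_smul] at r₁
  rcases hq with ⟨l, h2, h3, h4⟩ | hn
  swap
  · exact not_comm_of_four hn (l := T'.c ψ) (fun x hx => by rw [r₁, hx]; simp) c₁
  obtain ⟨b₂, r₂, c₂⟩ := h1 l h2 h3
  obtain ⟨b₃, r₃, c₃⟩ := h1 (l - 1) (by simp [h2]) (sub_ne_zero.2 h4)
  have e : b₁ * b₃ = b₂ := LinearEquiv.ext fun x => by
    rw [LinearEquiv.mul_apply, r₃, r₁, r₂]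
    simp [TF.c_smul, hw.zero, sub_smul, add_assoc]
  refine not_le_of_comm3 γ.two c₁ c₂ (by simpa [← mul_smul, e] using c₃.smul b₁) hw.1 fun x hx => ?_
  obtain ⟨y, hy, rfl⟩ := (T.smul_P _ _).le hx
  have : b₂ y = (1 - l) • y + l • b₁ y := by
    rw [r₁, r₂]; simp [TF.c_smul, sub_smul]; abel
  rw [LinearEquiv.coe_coe, this]
  exact Submodule.add_mem_sup (Submodule.smul_mem _ _ hy)
    (Submodule.smul_mem _ _ ((T.smul_P _ _).ge ⟨y, hy, rfl⟩))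

end Cfsg.Lib.TW
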