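import Cfsg.Agent.Lib.TW.Core

/-!
# The linear case: good tensor factors are equal or commute
-/

set_option autoImplicit false
set_option linter.unusedSectionVars false

namespace Cfsg.Lib.TW

open Module Polynomial

variable {F U W V : Type*} [Field F] [AddCommGroup U] [Module F U] [AddCommGroup W] [Module F W]
  [AddCommGroup V] [Module F V] {M : Subgroup (V ≃ₗ[F] V)}

/-- `1 + Y ∈ M`. -/
def Un (M : Subgroup (V ≃ₗ[F] V)) (Y : End F V) : Prop := ∃ g ∈ M, ∀ x, g x = x + Y x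

namespace Un

variable {X Y : End F V}

theorem zero : Un M 0 := ⟨1, one_mem _, by simp⟩

theorem mul (hX : Un M X) (hY : Un M Y) : Un M (X + Y + X * Y) :=
  let ⟨g, hg, h⟩ := hX
  let ⟨k, hk, h'⟩ := hY
  ⟨g * k, mul_mem hg hk, fun x => by simp [h, h']; abel⟩

theorem add (hX : Un M X) (hY : Un M Y) (h : X * Y = 0) : Un M (X + Y) := by
  simpa [h] using hX.mul hY

theorem neg (hX : Un M X) (h : X * X = 0) : Un M (-X) :=
  let ⟨g, hg, h'⟩ := hX
  ⟨g⁻¹, inv_mem hg, fun x => g.injective (by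
    rw [h' (x + _)]; simp [show X (X x) = 0 from LinearMap.congr_fun h x])⟩

theorem comm (hX : Un M X) (hY : Un M Y) (h1 : X * X = 0) (h2 : Y * Y = 0) (h3 : X * Y * X = 0)
    (h4 : Y * X * Y = 0) : Un M (X * Y - Y * X) := by
  convert (hX.mul hY).mul ((hX.neg h1).mul (hY.neg h2)) using 1
  have h5 : X * Y * Y = 0 := by rw [mul_assoc, h2, mul_zero]
  simp only [mul_add, add_mul, mul_neg, neg_mul, neg_neg, ← mul_assoc, h1, h2, h3, h4, h5, zero_mul]
  abel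

theorem comm' (hX : Un M X) (hY : Un M Y) (h1 : X * X = 0) (h2 : Y * Y = 0) (h3 : Y * X = 0) :
    Un M (X * Y) := by
  simpa [h3] using hX.comm hY h1 h2 (by simp [mul_assoc, h3]) (by simp [h3])

theorem conj (hX : Un M X) {k : V ≃ₗ[F] V} (hk : k ∈ M) :
    Un M (k.toLinearMap * X * (k⁻¹).toLinearMap) :=
  let ⟨g, hg, h⟩ := hX
  ⟨k * g * k⁻¹, mul_mem (mul_mem hk hg) (inv_mem hk), fun x => by simp [h]⟩

end Un

theorem exists_eigen_of_odd [FiniteDimensional F W] (hodd : Odd (finrank F W)) (a : End F W)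
    {f : F[X]} (hf : f ≠ 0) (hd : f.natDegree ≤ 2) (h : aeval a f = 0) :
    ∃ u ≠ 0, ∃ l : F, a u = l • u := by
  have : Nontrivial W := Module.nontrivial_of_finrank_pos (R := F) hodd.pos
  have hi : IsIntegral F a := Algebra.IsIntegral.isIntegral a
  have h1 := (natDegree_le_of_dvd (minpoly.dvd F a h) hf).trans hd
  by_cases h2 : (minpoly F a).roots = 0
  · exfalso
    have h3 := minpoly.natDegree_pos hi
    have h4 : (minpoly F a).natDegree = 2 := by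
      by_contra h4
      obtain ⟨r, hr⟩ := exists_root_of_degree_eq_one
        ((degree_eq_iff_natDegree_eq (minpoly.ne_zero hi)).2 (show _ = 1 by omega))
      simpa [h2] using (mem_roots (minpoly.ne_zero hi)).2 hr
    have : Fact (Irreducible (minpoly F a)) := ⟨((minpoly.monic hi).irreducible_iff_roots_eq_zero_of_degree_le_three
      h4.ge (by omega)).2 h2⟩
    let ρ : AdjoinRoot (minpoly F a) →ₐ[F] End F W := Ideal.Quotient.liftₐ _ (aeval a) fun p hp => by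
      obtain ⟨q, rfl⟩ := Ideal.mem_span_singleton'.1 hp
      simp
    let _ : Module (AdjoinRoot (minpoly F a)) W := Module.compHom W ρ.toRingHom
    have : IsScalarTower F (AdjoinRoot (minpoly F a)) W := ⟨fun c k u => by
      change ρ (c • k) u = c • ρ k u
      simp⟩
    rw [← finrank_mul_finrank F (AdjoinRoot (minpoly F a)) W,
      (AdjoinRoot.powerBasis (minpoly.ne_zero hi)).finrank, AdjoinRoot.powerBasis_dim, h4] at hodd
    exact (Nat.not_odd_iff_even.2 (even_two_mul _)) hodd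
  · obtain ⟨r, hr⟩ := Multiset.exists_mem_of_ne_zero h2
    obtain ⟨u, hu⟩ := (End.hasEigenvalue_of_isRoot (isRoot_of_mem_roots hr)).exists_hasEigenvector
    exact ⟨u, hu.2, r, hu.apply_eq_smul⟩

theorem exists_ker_pair [FiniteDimensional F U] (h : 3 ≤ finrank F U) (ψ χ : Dual F U) :
    ∃ w, w ≠ 0 ∧ ψ w = 0 ∧ χ w = 0 := by
  have h1 := finrank_ker_dual ψ
  obtain ⟨x, h2, h3⟩ := exists_ker_notMem (χ ∘ₗ (LinearMap.ker ψ).subtype) (N := ⊥)
    (by rw [finrank_bot]; omega)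
  exact ⟨x, fun h => h3 (Subtype.ext h), x.2, h2⟩

variable {T T' : TF F U W V} {w : U} {ψ : Dual F U}

theorem TF.km_r (T : TF F U W V) (w : U) (ψ : Dual F U) (β : End F W) (x : V) :
    T.km (ψ.smulRight w) β x = T.t w (β (T.c ψ x)) :=
  T.ext_t (f := T.km _ β) (g := T.t w ∘ₗ β ∘ₗ T.c ψ) (fun _ _ => by simp) x

theorem TF.apply_d (T : TF F U W V) (ψ : Dual F U) (χ : Dual F W) (x : V) :
    ψ (T.d χ x) = χ (T.c ψ x) :=
  T.ext_t (f := ψ ∘ₗ T.d χ) (g := χ ∘ₗ T.c ψ) (fun _ _ => by simp [mul_comm]) x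

theorem IsRt.mul {w' g g'} (h : IsRt T w ψ g) (h' : IsRt T w' ψ g') (h0 : ψ w' = 0) :
    IsRt T (w + w') ψ (g * g') := fun x => by
  rw [LinearEquiv.mul_apply, h', h]; simp [h0]; abel

theorem IsRt.inv {g} (h : IsRt T w ψ g) (h0 : ψ w = 0) : IsRt T (-w) ψ g⁻¹ := fun x =>
  g.injective (by rw [h (x + _)]; simp [h0])

theorem IsRt.un {g} (h : IsRt T w ψ g) (hg : g ∈ M) : Un M (T.e (ψ.smulRight w)) :=
  ⟨g, hg, fun x => by rw [h, TF.e_r]⟩

/-- All pairs. -/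
def RL (w : U) (ψ : Dual F U) : Prop := w ≠ 0 ∧ ψ ≠ 0 ∧ ψ w = 0

/-- Good factors in the linear case. -/
structure GoodL (M : Subgroup (V ≃ₗ[F] V)) (T : TF F U W V) : Prop where
  rt : ∀ w ψ, ψ w = 0 → ∃ g ∈ M, IsRt T w ψ g
  ring : ∀ w ψ β, RL w ψ → Un M (T.km (ψ.smulRight w) β) → ∃ a : F, ∀ u, β u = a • u

theorem GoodL.smul (h : GoodL M T) {g} (hg : g ∈ M) : GoodL M (g • T) :=
  ⟨fun w ψ h0 => let ⟨k, hk, hk'⟩ := h.rt w ψ h0
    ⟨_, mul_mem (mul_mem hg hk) (inv_mem hg), hk'.conj g⟩, fun w ψ β h0 h1 =>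
    h.ring w ψ β h0 (by
      convert h1.conj (inv_mem hg) using 1
      exact LinearMap.ext fun x => by simp [TF.km_r])⟩

variable [FiniteDimensional F U] [FiniteDimensional F W] [FiniteDimensional F V] [Nontrivial W]
  (h3 : 3 ≤ finrank F U)
include h3

theorem GoodL.op (h : GoodL M T) (hw : w ≠ 0) {g} (hg : g ∈ M)
    (h1 : ∀ x ∈ T.P (F ∙ w), g x = x) (h2 : ∀ x, g x - x ∈ T.P (F ∙ w)) :
    ∃ ψ, ψ w = 0 ∧ IsRt T w ψ g := by
  obtain ⟨χ, hχ⟩ := exists_dual_one (F := F) hw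
  let γ : V →ₗ[F] W := T.c χ ∘ₗ (g.toLinearMap - 1)
  have h4 : ∀ x, g x = x + T.t w (γ x) := fun x => by
    obtain ⟨u, hu⟩ := T.mem_P1.1 (h2 x)
    change _ = x + T.t w (T.c χ (g x - x))
    rw [← hu, TF.c_t, hχ, one_smul, hu, add_sub_cancel]
  have h5 : ∀ u, γ (T.t w u) = 0 := fun u => by
    change T.c χ (g _ - _) = 0
    rw [h1 _ (T.t_mem_P1 w u)]; simp
  have h6 : ∀ v, ∃ a : F, ∀ u, γ (T.t v u) = a • u := fun v => by
    obtain ⟨ψ, e1, e2, e3⟩ := exists_dual_pair h3 w v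
    obtain ⟨k, hk, hk'⟩ := h.rt v ψ e3
    refine h.ring w ψ (γ ∘ₗ T.t v) ⟨hw, e1, e2⟩ ?_
    convert Un.comm' (X := T.t w ∘ₗ γ) ⟨g, hg, h4⟩ (hk'.un hk) (LinearMap.ext fun x => by simp [h5])
      (LinearMap.ext fun x => by simp [TF.e_r, e3]) (LinearMap.ext fun x => by simp [e2])
      using 1
    exact LinearMap.ext fun x => by simp [TF.km_r, TF.e_r]
  obtain ⟨u₀, hu₀⟩ := exists_ne (0 : W)
  obtain ⟨χ', hχ'⟩ := exists_dual_one (F := F) hu₀
  refine ⟨χ' ∘ₗ γ ∘ₗ T.t.flip u₀, by simp [h5], fun x => ?_⟩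
  rw [h4]
  congr 2
  refine T.ext_t (fun v u => ?_) x
  obtain ⟨a, ha⟩ := h6 v
  simp [ha, hχ']

theorem GoodL.op' (h : GoodL M T) (hψ : ψ ≠ 0) {g} (hg : g ∈ M)
    (h1 : ∀ x, T.c ψ x = 0 → g x = x) (h2 : ∀ x, T.c ψ (g x - x) = 0) :
    ∃ w, IsRt T w ψ g := by
  obtain ⟨v, hv⟩ := exists_apply_one hψ
  let δ : W →ₗ[F] V := (g.toLinearMap - 1) ∘ₗ T.t v
  have h4 : ∀ x, g x = x + δ (T.c ψ x) := fun x => by
    have := h1 (x - T.t v (T.c ψ x)) (by simp [hv])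
    rw [map_sub, sub_eq_iff_eq_add] at this
    rw [this]; simp [δ]; abel
  have h5 : ∀ u, T.c ψ (δ u) = 0 := fun u => h2 _
  have h6 : ∀ χ, ∃ a : F, ∀ u, T.c χ (δ u) = a • u := fun χ => by
    obtain ⟨w, e1, e2, e3⟩ := exists_ker_pair h3 ψ χ
    obtain ⟨k, hk, hk'⟩ := h.rt w χ e3
    refine h.ring w ψ (T.c χ ∘ₗ δ) ⟨e1, hψ, e2⟩ ?_
    convert Un.comm' (Y := δ ∘ₗ T.c ψ) (hk'.un hk) ⟨g, hg, h4⟩
      (LinearMap.ext fun x => by simp [TF.e_r, e3]) (LinearMap.ext fun x => by simp [h5])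
      (LinearMap.ext fun x => by simp [TF.e_r, e2]) using 1
    exact LinearMap.ext fun x => by simp [TF.km_r, TF.e_r]
  obtain ⟨u₀, hu₀⟩ := exists_ne (0 : W)
  obtain ⟨χ', hχ'⟩ := exists_dual_one (F := F) hu₀
  refine ⟨T.d χ' (δ u₀), fun x => ?_⟩
  rw [h4, add_right_inj, ← sub_eq_zero]
  refine T.eq_zero_of_c fun χ => ?_
  obtain ⟨a, ha⟩ := h6 χ
  simp [ha, hχ', TF.apply_d]

theorem GoodL.loc (h : GoodL M T) (h' : GoodL M T') {v : U} (hv : v ≠ 0) (hw : w ≠ 0)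
    (e : T.P (F ∙ v) = T'.P (F ∙ w)) : Same T T' := by
  have : Nontrivial U := ⟨v, 0, hv⟩
  obtain ⟨α, hα⟩ := exists_t_eq hv e.ge
  refine same_of_t (α := α) fun x' => ?_
  obtain ⟨ψ', e1, e2, e3⟩ := exists_dual_pair h3 w x'
  obtain ⟨y, hy⟩ := exists_apply_one e1
  obtain ⟨g, hg, hg'⟩ := h'.rt w ψ' e2
  obtain ⟨ψ, -, hψ⟩ := h.op h3 hv hg (fun x hx => by
    rw [hg', T'.c_of_mem1 e2 (e ▸ hx)]; simp) fun x => e ▸ hg'.sub_mem x
  have h1 : ∀ x, T.c ψ x = α (T'.c ψ' x) := fun x =>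
    T.t_inj hv (by rw [← hα, ← add_right_inj x, ← hg', ← hψ])
  have h2 : ∀ u, α u = 0 → u = 0 := fun u hu => T'.t_inj hw (by simp [hα, hu])
  obtain ⟨u₀, hu₀⟩ := exists_ne (0 : W)
  obtain ⟨k, hk, hk'⟩ := h'.rt x' ψ' e3
  obtain ⟨x, hx⟩ := h.op' h3 (ψ := ψ) (fun h0 => hu₀ (h2 _ (by simpa [h0, hy] using (h1 (T'.t y u₀)).symm)))
    hk (fun x hx => by rw [hk', h2 _ ((h1 x).symm.trans hx)]; simp)
    fun x => by rw [hk', h1]; simp [e3]
  refine ⟨x, fun u => ?_⟩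
  have := (hk' (T'.t y u)).symm.trans (hx _)
  simpa [h1, hy] using this

omit [FiniteDimensional F W] [FiniteDimensional F V] [Nontrivial W] in
theorem gen_RL (S : Subalgebra F (End F U)) (h : ∀ w ψ, RL w ψ → ψ.smulRight w ∈ S) : S = ⊤ :=
  eq_top_iff.2 fun a _ => end_ind (p := (· ∈ S)) (zero_mem _) (fun w ψ => by
    rcases eq_or_ne w 0 with rfl | hw
    · simp
    rcases eq_or_ne ψ 0 with rfl | hψ
    · simp
    obtain ⟨x, h1, h2⟩ := exists_ker_notMem ψ (N := F ∙ w) (by have := finrank_span_le (F := F) w; omega)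
    obtain ⟨χ, h4, h5⟩ := exists_dual_span h2
    convert mul_mem (h w χ ⟨hw, fun h0 => by simp [h0] at h4, h5⟩)
      (h x ψ ⟨fun h0 => h2 (by simp [h0]), hψ, h1⟩) using 1
    exact LinearMap.ext fun v => by simp [h4]) (fun _ _ => add_mem) a

theorem sysL : Sys (RL : U → Dual F U → Prop) M (GoodL M : TF F U W V → Prop) where
  ne _ _ h := h
  smul _ h _ hg := h.smul hg
  rt _ h w ψ h0 := h.rt w ψ h0.2.2
  loc _ _ h h' _ _ _ hv h0 e := h.loc h3 h' hv h0.1 e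
  gen := gen_RL h3
  rk := .inl h3
  two := by omega
  nt := inferInstance

theorem GoodL.exists_bad (h : GoodL M T) (h' : GoodL M T') (hb : Bad T T') (hψ : ψ ≠ 0) :
    ∃ b ∈ M, Bad T (b • T) ∧ ∀ x, T'.c ψ x = 0 → b x = x := by
  by_contra h0
  have h1 : ∀ w, w ≠ 0 → ψ w = 0 → ∀ b ∈ M, IsRt T' w ψ b → Comm T (b • T) :=
    fun w hw hw' b hb1 hb2 => by
      by_contra h1
      exact h0 ⟨b, hb1, ⟨(sysL h3).not_same h h' hb ⟨hw, hψ, hw'⟩ hb2, h1⟩, fun x hx => by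
        rw [hb2, hx]; simp⟩
  obtain ⟨w₁, e1, e2⟩ := exists_ker_notMem ψ (N := ⊥) (by rw [finrank_bot]; omega)
  obtain ⟨w₂, e3, e4⟩ := exists_ker_notMem ψ (N := F ∙ w₁)
    (by have := finrank_span_le (F := F) w₁; omega)
  obtain ⟨b₁, hb₁, r₁⟩ := h'.rt w₁ ψ e1
  obtain ⟨b₂, hb₂, r₂⟩ := h'.rt w₂ ψ e3
  have c1 := h1 w₁ e2 e1 b₁ hb₁ r₁
  have c2 := h1 w₂ (fun h => e4 (by simp [h])) e3 b₂ hb₂ r₂
  have c3 := h1 _ (fun h => e4 (by simp [eq_neg_of_add_eq_zero_right h])) (by simp [e1, e3]) _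
    (mul_mem hb₁ hb₂) (r₁.mul r₂ e3)
  have c4 := h1 _ (fun h => e4 (by simp [← neg_add_eq_zero.1 h])) (by simp [e1, e3]) _
    (mul_mem (inv_mem hb₁) hb₂) ((r₁.inv e1).mul r₂ e3)
  have e5 : b₁ * b₂ = b₂ * b₁ := LinearEquiv.ext fun x => by
    rw [r₁.mul r₂ e3, r₂.mul r₁ e1, add_comm w₁]
  refine not_le_of_comm (by omega) c1 c2 c3 (by simpa [← mul_smul] using c4.smul b₁)
    (by simpa [← mul_smul] using c2.smul b₁) (by simpa [← mul_smul, e5] using c1.smul b₂) e2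
    fun x hx => ?_
  obtain ⟨y, hy, rfl⟩ := (T.smul_P _ _).le hx
  have : (b₁ * b₂) y = -y + (b₁ y + b₂ y) := by
    rw [r₁.mul r₂ e3, r₁, r₂]; simp; abel
  rw [LinearEquiv.coe_coe, this]
  exact Submodule.add_mem_sup (neg_mem hy) (Submodule.add_mem_sup
    ((T.smul_P _ _).ge ⟨y, hy, rfl⟩) ((T.smul_P _ _).ge ⟨y, hy, rfl⟩))

omit [FiniteDimensional F W] [FiniteDimensional F V] [Nontrivial W] h3 in
theorem exists_dep (h3 : finrank F U = 3) (hw : w ≠ 0) (z : Fin 3 → Dual F U)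
    (hz : ∀ i, z i w = 0) : ∃ a : Fin 3 → F, a 0 • z 0 + a 1 • z 1 + a 2 • z 2 = 0 ∧ ∃ i, a i ≠ 0 := by
  have h5 : ¬ LinearIndependent F z := fun h => by
    have e3 := finrank_span_eq_card h
    have e4 := Subspace.finrank_add_finrank_dualAnnihilator_eq (F ∙ w)
    have e5 := Submodule.finrank_mono (show Submodule.span F (Set.range z) ≤
        (F ∙ w).dualAnnihilator from Submodule.span_le.2 (by
      rintro _ ⟨i, rfl⟩
      refine (Submodule.mem_dualAnnihilator _).2 fun v hv => ?_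
      obtain ⟨a, rfl⟩ := Submodule.mem_span_singleton.1 hv
      simp [hz]))
    rw [finrank_span_singleton hw] at e4
    rw [Fintype.card_fin] at e3
    omega
  obtain ⟨a, ha, hi⟩ := Fintype.not_linearIndependent_iff.1 h5
  exact ⟨a, by rwa [Fin.sum_univ_three] at ha, hi⟩

omit [Nontrivial W] h3 in
theorem finrank_comap_ge {Y : End F V} {P D : Submodule F V} (hP : P ≤ D) (hk : ∀ x, Y x ∈ D) :
    finrank F V + finrank F P ≤ finrank F (P.comap Y) + finrank F D := by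
  have e1 := (P.mkQ ∘ₗ Y).finrank_range_add_finrank_ker
  have e3 := Submodule.finrank_mono (show LinearMap.range (P.mkQ ∘ₗ Y) ≤ D.map P.mkQ by
    rintro _ ⟨x, rfl⟩; exact ⟨_, hk x, rfl⟩)
  have e4 := (P.mkQ.domRestrict D).finrank_range_add_finrank_ker
  rw [LinearMap.range_domRestrict, LinearMap.ker_domRestrict, Submodule.ker_mkQ,
    (Submodule.comapSubtypeEquivOfLe hP).finrank_eq] at e4
  rw [LinearMap.ker_comp, Submodule.ker_mkQ] at e1
  omega

omit [Nontrivial W] in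
theorem exists_flag_of_kr (hodd : finrank F U = 3 → Odd (finrank F W)) (hw : w ≠ 0) {β α}
    (hβ : β w ∈ F ∙ w) {D : Submodule F V} (hD : finrank F D ≤ 2 * finrank F W)
    (hP : T.P (F ∙ w) ≤ D) (hk : ∀ x, T.kr β α x - x ∈ D) :
    ∃ v, ∃ ψ : Dual F U, v ∉ F ∙ w ∧ RL w ψ ∧ ψ v = 0 ∧ ψ (β v) = 0 := by
  classical
  rcases h3.eq_or_lt with h3' | h4
  swap
  · obtain ⟨v, hv⟩ := exists_notMem (N := F ∙ w) ((finrank_span_le w).trans_lt (by omega))
    obtain ⟨x, hx⟩ := exists_notMem (N := Submodule.span F (({w, v, β v} : Finset U) : Set U))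
      ((finrank_span_finset_le_card _).trans_lt (Finset.card_le_three.trans_lt h4))
    obtain ⟨ψ, h1, h2⟩ := exists_dual hx
    exact ⟨v, ψ, hv, ⟨hw, fun h0 => by simp [h0] at h1, h2 _ (Submodule.subset_span (by simp))⟩,
      h2 _ (Submodule.subset_span (by simp)), h2 _ (Submodule.subset_span (by simp))⟩
  by_contra h0
  push Not at h0
  obtain ⟨l, hl⟩ := Submodule.mem_span_singleton.1 hβ
  have hβ' : ∀ χ : Dual F U, χ w = 0 → (χ ∘ₗ β.toLinearMap) w = 0 := fun χ h => by simp [← hl, h]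
  let K := (T.P (F ∙ w)).comap ((T.kr β α).toLinearMap - 1)
  have hK : ∀ x ∈ K, ∀ χ : Dual F U, χ w = 0 → T.c (χ ∘ₗ β.toLinearMap) x = α⁻¹ (T.c χ x) :=
    fun x hx χ hχ => by
      have := T.c_of_mem1 hχ (show T.kr β α x - x ∈ _ from hx)
      rw [map_sub, TF.c_kr, sub_eq_zero] at this
      simp [← this]
  have h1 : ∀ χ : Dual F U, χ w = 0 → χ ≠ 0 → ∀ x ∈ K, T.c χ x = 0 → x ∈ T.P (F ∙ w) :=
    fun χ hχ hχ0 x hx hx' => by
      obtain ⟨v, e1, e2⟩ := exists_ker_notMem χ (N := F ∙ w)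
        (by have := finrank_span_le (F := F) w; omega)
      have e3 := h0 v χ e2 ⟨hw, hχ0, hχ⟩ e1
      have e4 : LinearMap.ker χ = (F ∙ w) ⊔ F ∙ v := (Submodule.eq_of_le_of_finrank_le
        (sup_le (by simpa) (by simpa)) (by
          have := finrank_span_singleton (K := F) hw
          have := Submodule.finrank_lt_finrank_of_lt (show (F ∙ w) < (F ∙ w) ⊔ F ∙ v from
            left_lt_sup.2 (by simpa))
          have := Submodule.finrank_lt (show LinearMap.ker χ ≠ ⊤ by simpa)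
          omega)).symm
      obtain ⟨p, hp, y, hy, rfl⟩ := Submodule.mem_sup.1 ((T.P_sup _ _).le (e4 ▸ T.mem_P_ker.2 hx'))
      obtain ⟨u, rfl⟩ := T.mem_P1.1 hy
      have := hK _ hx χ hχ
      rw [hx', map_add, T.c_of_mem1 (hβ' χ hχ) hp] at this
      have h5 : u = 0 := by simpa [e3] using this
      simpa [h5] using hp
  have h2 : 2 * finrank F W ≤ finrank F K := by
    have e1 := finrank_comap_ge (Y := (T.kr β α).toLinearMap - 1) hP hk
    rw [T.finrank_eq, ← h3', T.finrank_P1 hw] at e1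
    change _ ≤ finrank F K + _ at e1
    omega
  obtain ⟨ψ, e1, e2, -⟩ := exists_dual_pair h3 w w
  have h4 : ∀ u, ∃ x ∈ K, T.c ψ x = u := fun u => by
    have e3 := ((T.c ψ).domRestrict K).finrank_range_add_finrank_ker
    have e4 := Submodule.finrank_mono (show (LinearMap.ker ((T.c ψ).domRestrict K)).map K.subtype ≤
      T.P (F ∙ w) by rintro _ ⟨x, hx, rfl⟩; exact h1 ψ e2 e1 _ x.2 hx)
    rw [Submodule.finrank_map_subtype_eq, T.finrank_P1 hw] at e4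
    obtain ⟨x, hx⟩ := (Submodule.eq_top_of_finrank_eq (S := LinearMap.range ((T.c ψ).domRestrict K))
      (le_antisymm (Submodule.finrank_le _) (by omega))).ge (Submodule.mem_top (x := u))
    exact ⟨x, x.2, hx⟩
  obtain ⟨a, ha, i, hi⟩ := exists_dep h3'.symm hw
    ![ψ, ψ ∘ₗ β.toLinearMap, (ψ ∘ₗ β.toLinearMap) ∘ₗ β.toLinearMap] fun i => by
      fin_cases i
      exacts [e2, hβ' _ e2, hβ' _ (hβ' _ e2)]
  obtain ⟨u, hu, μ, hμ⟩ := exists_eigen_of_odd (hodd h3'.symm) (α⁻¹).toLinearMap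
    (f := C (a 2) * X ^ 2 + C (a 1) * X + C (a 0)) (fun h => by
      have e0 : a 0 = 0 := by simpa using congrArg (coeff · 0) h
      have e1 : a 1 = 0 := by simpa [coeff_C] using congrArg (coeff · 1) h
      have e2 : a 2 = 0 := by simpa [coeff_X, coeff_C] using congrArg (coeff · 2) h
      fin_cases i
      exacts [hi e0, hi e1, hi e2]) natDegree_quadratic_le (LinearMap.ext fun u => by
      obtain ⟨x, hx, rfl⟩ := h4 u
      have := congrArg (fun χ => T.c χ x) ha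
      simp [TF.c_add, TF.c_smul, hK x hx _ (hβ' ψ e2), hK x hx _ e2] at this
      simp [pow_two, ← this]
      abel)
  obtain ⟨x, hx, rfl⟩ := h4 u
  by_cases h6 : ψ ∘ₗ β.toLinearMap - μ • ψ = 0
  · obtain ⟨v, e3, e4⟩ := exists_ker_notMem ψ (N := F ∙ w)
      (by have := finrank_span_le (F := F) w; omega)
    exact h0 v ψ e4 ⟨hw, e1, e2⟩ e3 (by simpa [e3] using LinearMap.congr_fun h6 v)
  · refine hu (T.c_of_mem1 e2 (h1 _ (by rw [LinearMap.sub_apply, hβ' ψ e2]; simp [e2]) h6 x hx ?_))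
    rw [TF.c_sub, TF.c_smul, LinearMap.sub_apply, hK x hx _ e2, LinearMap.smul_apply, ← hμ]
    exact sub_self _

theorem GoodL.not_bad [Fintype F] (hodd : finrank F U = 3 → Odd (finrank F W)) (h : GoodL M T)
    (h' : GoodL M T') : ¬ Bad T T' := fun hb => by
  have : Finite V := Module.finite_of_finite F
  obtain ⟨w, e1, -⟩ := exists_ker_pair h3 (0 : Dual F U) 0
  obtain ⟨ψ, e2, e3, -⟩ := exists_dual_pair h3 w w
  obtain ⟨S, S', x, χ, x', χ', h1, h2, h4, h5, h6, h7⟩ := exists_max (R := RL) h h' hb ⟨e1, e2, e3⟩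
  obtain ⟨b, hb1, hb2, hb3⟩ := h1.exists_bad h3 h2 h4 h6.2.1
  have c := (sysL h3).cfg h1 h5 h7 hb1 hb2 hb3
  obtain ⟨v, e4, e5⟩ := exists_ker_notMem χ (N := F ∙ x)
    (by have := finrank_span_le (F := F) x; omega)
  obtain ⟨χ₁, e6, e7⟩ := exists_dual_span e5
  obtain ⟨y, hy⟩ := exists_apply_one h5.2.1
  refine c.false_of_sum (fun k hk hk' => ?_) (0 : F × F) (fun i => i.1 • χ + i.2 • χ₁) (by simp)
    (fun i hi => ⟨h5.1, fun h0 => hi ?_, by simp [h5.2.2, e7]⟩) (by simp) ?_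
  · obtain ⟨β, α, rfl, hβ⟩ := c.exists_kr hk.1 hk'
    obtain ⟨v, ψ, f1, f2, f3, f4⟩ := exists_flag_of_kr h3 hodd h5.1 hβ
      ((Submodule.finrank_add_le_finrank_add_finrank _ _).trans
        (by rw [TF.finrank_P1 _ h5.1, TF.finrank_P1 _ h5.1, two_mul])) le_sup_left hk.2.2
    obtain ⟨a, ha⟩ := c.scalar_of hk f2 f1 f3 f4
    refine (c.rt_or hk.2.2 ha).resolve_right fun ⟨z, hz, hz'⟩ => ?_
    obtain ⟨ψ, f5, f6, f7⟩ := exists_dual_pair h3 x z
    obtain ⟨u, hu⟩ := exists_ne (0 : W)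
    exact hz (S.mem_of_t_mem hu (c.nice ⟨h5.1, f5, f6⟩ (hz' (S.t_mem_P1 z u)) (by simp [f7])))
  · have f1 : i.2 = 0 := by simpa [e4, e6] using LinearMap.congr_fun h0 v
    have f2 : i.1 = 0 := by simpa [f1, hy] using LinearMap.congr_fun h0 y
    exact Prod.ext f2 f1
  · rw [Finset.sum_add_distrib, Fintype.sum_prod_type, Fintype.sum_prod_type_right]
    simp [← Nat.cast_smul_eq_nsmul F]

end Cfsg.Lib.TW
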