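import Cfsg.Agent.Lib.TW.Fam
import Cfsg.Agent.Lib.Linear.Tens

/-!
# Tensor-wreath subgroups of linear groups are maximal
-/

set_option autoImplicit false
set_option linter.unusedSectionVars false

namespace Cfsg.Lib.TW

open Module Function
open scoped commutatorElement

variable {F U W V : Type*} [Field F] [AddCommGroup U] [Module F U] [AddCommGroup W] [Module F W]
  [AddCommGroup V] [Module F V] {M : Subgroup (V ≃ₗ[F] V)} {T : TF F U W V}

theorem Cm.e_mul {γ : End F V} (h : Cm T γ) (a b : End F U) (δ : End F V) :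
    T.e a * γ * (T.e b * δ) = T.e (a * b) * (γ * δ) := by
  rw [map_mul, mul_assoc, mul_assoc, ← mul_assoc γ, h, mul_assoc]

/-- The coefficients attached to a square zero element `N`. -/
def coeffs (M : Subgroup (V ≃ₗ[F] V)) (T : TF F U W V) {N : End F U} (hN : N * N = 0) :
    AddSubgroup (End F V) where
  carrier := {β | Cm T β ∧ Un M (T.e N * β)}
  zero_mem' := ⟨fun _ => by simp, by simpa using Un.zero⟩
  add_mem' := fun {β γ} h h' => ⟨h.1.add h'.1, by
    rw [mul_add]; exact h.2.add h'.2 (by rw [h.1.e_mul, hN, map_zero, zero_mul])⟩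
  neg_mem' := fun {β} h => ⟨by simpa using h.1.smul (-1), by
    rw [mul_neg]; exact h.2.neg (by rw [h.1.e_mul, hN, map_zero, zero_mul])⟩

theorem conj_mem_coeffs {N : End F U} {hN : N * N = 0} {β : End F V} (h : β ∈ coeffs M T hN)
    {g : V ≃ₗ[F] V} (hg : g ∈ M) (hc : Cm T g.toLinearMap) :
    g.toLinearMap * β * (g⁻¹).toLinearMap ∈ coeffs M T hN := by
  have h1 : Cm T (g⁻¹).toLinearMap := fun a => LinearMap.ext fun x => g.injective (by
    simpa using (LinearMap.congr_fun (hc a) (g⁻¹ x)).symm)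
  refine ⟨(hc.mul h.1).mul h1, ?_⟩
  rw [← mul_assoc, ← mul_assoc, ← hc, mul_assoc g.toLinearMap]
  exact h.2.conj hg

theorem delta_mem_coeffs {N : End F U} {hN : N * N = 0} {β : End F V} (h : β ∈ coeffs M T hN)
    {X : End F V} (hX : Un M X) (h2 : X * X = 0) (hc : Cm T X) :
    X * β - β * X - X * β * X ∈ coeffs M T hN := by
  obtain ⟨g, hg, e⟩ := hX
  have h1 : g.toLinearMap = 1 + X := LinearMap.ext e
  have h3 : (g⁻¹).toLinearMap = 1 - X := LinearMap.ext fun x => g.injective (by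
    change g (g⁻¹ x) = g (x - X x)
    rw [e (x - _)]; simp [show X (X x) = 0 from LinearMap.congr_fun h2 x])
  convert sub_mem (conj_mem_coeffs h hg (h1 ▸ cm_one.add hc)) h using 1
  rw [h1, h3]; noncomm_ring

theorem r_sq {w : U} {ψ : Dual F U} (h : ψ w = 0) : ψ.smulRight w * ψ.smulRight w = 0 := by
  rw [r_mul_r, h, zero_smul]

theorem r_smul (a : F) (ψ : Dual F U) (w : U) : (a • ψ).smulRight w = a • ψ.smulRight w :=
  LinearMap.ext fun v => by simp [mul_smul]

theorem TF.e_r_mul (T : TF F U W V) {w x : U} {ψ χ : Dual F U} (h : ψ x = 0) :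
    T.e (ψ.smulRight w) * T.e (χ.smulRight x) = 0 := by
  rw [← map_mul, r_mul_r, h, zero_smul, map_zero]

variable [FiniteDimensional F U] (h3 : 3 ≤ finrank F U)
include h3

theorem exists_flag {w : U} (ψ : Dual F U) : ∃ y, ∃ χ : Dual F U, ψ y = 0 ∧ χ y = 1 ∧ χ w = 0 :=
  let ⟨y, h1, h2⟩ := exists_ker_notMem ψ (N := F ∙ w)
    (by have := finrank_span_le (F := F) w; omega)
  let ⟨χ, h4, h5⟩ := exists_dual_span h2
  ⟨y, χ, h1, h4, h5⟩

theorem un_tr (hrt : ∀ w (ψ : Dual F U), ψ w = 0 → Un M (T.e (ψ.smulRight w))) {γ : End F V}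
    (hγ : Cm T γ) {w} {ψ : Dual F U} (hw : RL w ψ) (h : Un M (T.e (ψ.smulRight w) * γ)) {w'} {ψ' : Dual F U}
    (h' : ψ' w' = 0) : Un M (T.e (ψ'.smulRight w') * γ) := by
  have L : ∀ {w} {ψ : Dual F U}, RL w ψ → Un M (T.e (ψ.smulRight w) * γ) → ∀ x, ψ x = 0 →
      Un M (T.e (ψ.smulRight x) * γ) := fun {w ψ} hw h x hx => by
    obtain ⟨y, χ, e1, e2, e3⟩ := exists_flag h3 (w := w) ψ
    obtain ⟨ω, hω⟩ := exists_dual_one (F := F) hw.1
    have L0 : ∀ x, ψ x = 0 → χ x ≠ 0 → Un M (T.e (ψ.smulRight x) * γ) := fun x hx hx' => by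
      have h0 : (ω - (ω x / χ x) • χ) x = 0 := by simp [hx']
      have := (hrt x _ h0).comm' h (T.e_r_mul h0) (by rw [hγ.e_mul, r_sq hw.2.2]; simp)
        (by rw [mul_assoc, hγ, ← mul_assoc, T.e_r_mul hx, zero_mul])
      rwa [← mul_assoc, ← map_mul, r_mul_r, show (ω - (ω x / χ x) • χ) w = 1 by simp [hω, e3],
        one_smul] at this
    by_cases h0 : χ x = 0
    · have := (L0 (x - y) (by simp [hx, e1]) (by simp [h0, e2])).add (L0 y e1 (by simp [e2]))
        (by rw [hγ.e_mul, r_mul_r, e1]; simp)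
      rwa [← add_mul, ← map_add, show ψ.smulRight (x - y) + ψ.smulRight y = ψ.smulRight x from
        LinearMap.ext fun v => by simp [smul_sub]] at this
    · exact L0 x hx h0
  have R : ∀ {w} {ψ : Dual F U}, RL w ψ → Un M (T.e (ψ.smulRight w) * γ) → ∀ φ : Dual F U, φ w = 0 →
      Un M (T.e (φ.smulRight w) * γ) := fun {w ψ} hw h φ hφ => by
    obtain ⟨y, χ, e1, e2, e3⟩ := exists_flag h3 (w := w) ψ
    obtain ⟨z, hz⟩ := exists_apply_one hw.2.1
    have R0 : ∀ φ : Dual F U, φ w = 0 → φ y ≠ 0 → Un M (T.e (φ.smulRight w) * γ) :=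
      fun φ hφ hφ' => by
        have h0 : φ (z - (φ z / φ y) • y) = 0 := by simp [hφ']
        have := h.comm' (hrt _ φ h0) (by rw [hγ.e_mul, r_sq hw.2.2]; simp) (T.e_r_mul h0)
          (by rw [← mul_assoc, T.e_r_mul hφ, zero_mul])
        rwa [mul_assoc, hγ, ← mul_assoc, ← map_mul, r_mul_r,
          show ψ (z - (φ z / φ y) • y) = 1 by simp [hz, e1], one_smul] at this
    by_cases h0 : φ y = 0
    · have := (R0 (φ - χ) (by simp [hφ, e3]) (by simp [h0, e2])).add (R0 χ e3 (by simp [e2]))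
        (by rw [hγ.e_mul, r_mul_r, LinearMap.sub_apply, hφ, e3]; simp)
      rwa [← add_mul, ← map_add, show (φ - χ).smulRight w + χ.smulRight w = φ.smulRight w from
        LinearMap.ext fun v => by simp [sub_smul]] at this
    · exact R0 φ hφ h0
  rcases eq_or_ne ψ' 0 with rfl | h0
  · simpa using Un.zero
  obtain ⟨x, e1, e2, e3⟩ := exists_ker_pair h3 ψ ψ'
  exact L ⟨e1, h0, e3⟩ (R ⟨e1, hw.2.1, e2⟩ (L hw h x e2) ψ' e3) w' h'

theorem sand_lin (hrt : ∀ w (ψ : Dual F U), ψ w = 0 → Un M (T.e (ψ.smulRight w))) {T' : TF F U W V}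
    (hc : ∀ a, Cm T' (T.e a)) {N : End F U} {hN : N * N = 0} {β : End F V}
    (h : β ∈ coeffs M T' hN) {w} {ψ : Dual F U} (hw : ψ w = 0) :
    T.e (ψ.smulRight w) * β * T.e (ψ.smulRight w) ∈ coeffs M T' hN := by
  obtain ⟨y, χ, e1, e2, e3⟩ := exists_flag h3 (w := w) ψ
  have h1 := delta_mem_coeffs (delta_mem_coeffs (delta_mem_coeffs h (hrt w ψ hw) (T.e_r_mul hw)
    (hc _)) (hrt w χ e3) (T.e_r_mul e3) (hc _)) (hrt y ψ e1) (T.e_r_mul e1) (hc _)
  have f1 := T.e_r_mul (w := w) (χ := χ) hw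
  have f2 := T.e_r_mul (w := w) (χ := ψ) e3
  have f3 := T.e_r_mul (w := y) (χ := ψ) hw
  have f4 := T.e_r_mul (w := y) (χ := χ) hw
  have f5 := T.e_r_mul (w := w) (χ := ψ) e1
  have f6 : T.e (χ.smulRight w) * T.e (ψ.smulRight y) = T.e (ψ.smulRight w) := by
    rw [← map_mul, r_mul_r, e2, one_smul]
  generalize T.e (ψ.smulRight w) = A, T.e (χ.smulRight w) = B, T.e (ψ.smulRight y) = C at *
  have g2 : ∀ Y, B * (A * Y) = 0 := fun Y => by rw [← mul_assoc, f2, zero_mul]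
  have g3 : ∀ Y, C * (A * Y) = 0 := fun Y => by rw [← mul_assoc, f3, zero_mul]
  have g4 : ∀ Y, C * (B * Y) = 0 := fun Y => by rw [← mul_assoc, f4, zero_mul]
  simpa only [mul_sub, sub_mul, mul_assoc, f1, f5, f6, g2, g3, g4, mul_zero, zero_mul, sub_zero,
    zero_sub, mul_neg, neg_mul, neg_zero, neg_neg] using h1

omit h3 in
theorem nd_lin {β : End F V} (h : ¬ Cm T β) : ∃ w ψ, RL w ψ ∧ T.coef ψ w β ≠ 0 := by
  by_contra h0
  push Not at h0
  refine h (cm_of_scalar fun χ u => exists_smul_of_mem (a := T.d χ ∘ₗ β ∘ₗ T.t.flip u) fun v => ?_)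
  by_contra h1
  obtain ⟨ψ, e1, e2⟩ := exists_dual_span h1
  have hv : v ≠ 0 := fun h => by simp [h] at e1
  have := LinearMap.congr_fun (h0 v ψ ⟨hv, fun h => by simp [h] at e1, e2⟩) (T.t v u)
  have h2 : T.c ψ (β (T.t v u)) = 0 := T.t_inj hv (by simpa [TF.coef] using this)
  simp [TF.apply_d, h2] at e1

theorem tri_lin : Fam.Tri (RL : U → Dual F U → Prop) 1 0 := by
  obtain ⟨w, e1, -⟩ := exists_ker_pair h3 (0 : Dual F U) 0
  obtain ⟨ψ', e2, e3, -⟩ := exists_dual_pair h3 w w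
  obtain ⟨w', ψ, e4, e5, e6⟩ := exists_flag h3 (w := w) ψ'
  obtain ⟨s, hs⟩ := exists_apply_one e2
  obtain ⟨χ, e7, e8⟩ := exists_dual_span (F := F) (show w ∉ F ∙ s from fun h => by
    obtain ⟨a, rfl⟩ := Submodule.mem_span_singleton.1 h
    simp_all)
  exact ⟨w, ψ, w', ψ', s, χ, ⟨e1, fun h => by simp [h] at e5, e6⟩,
    ⟨fun h => by simp [h] at e5, e2, e4⟩,
    ⟨fun h => by simp [h] at hs, fun h => by simp [h] at e7, e8⟩, by simp [e5, e7, hs], by simp [e3]⟩

theorem max_lin {ι : Type*} [DecidableEq ι] [Fintype ι] [Fintype F] [FiniteDimensional F W]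
    [FiniteDimensional F V] [Nontrivial W] (hodd : finrank F U = 3 → Odd (finrank F W))
    (Φ : Fam ι F U W V) (hrt : ∀ i w (ψ : Dual F U), ψ w = 0 → ∃ g ∈ M, IsRt (Φ.T i) w ψ g)
    (hP : ∀ σ τ : Equiv.Perm ι, ∃ g ∈ M, Φ.IsPerm ⁅σ, τ⁆ g) :
    (∀ g ∈ M, Φ.Wr g) ∨ ∀ (w : ι → U) (ψ : ι → Dual F U) j, ψ j (w j) = 0 →
      Un M (Φ.π fun i => (ψ i).smulRight (w i)) := by
  by_cases hG : ∀ i, GoodL M (Φ.T i)
  · exact .inl fun g hg => Fam.wr_of_not_bad (by omega) fun i j =>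
      (hG j).not_bad h3 hodd ((hG i).smul hg)
  have : Nontrivial U := Module.nontrivial_of_finrank_pos (R := F) (by omega)
  have hrt' : ∀ i w (ψ : Dual F U), ψ w = 0 → Un M ((Φ.T i).e (ψ.smulRight w)) := fun i w ψ h =>
    let ⟨_, hg, hg'⟩ := hrt i w ψ h; hg'.un hg
  have hS : Φ.Sand RL M := fun i j hij w ψ hw β hβ h x χ hx =>
    (sand_lin h3 (hrt' i) (Φ.cm_e hij.symm) (hN := r_sq hw.2.2) ⟨hβ, h⟩ hx.2.2).2
  have hT : Φ.Tr RL M := fun i γ hγ w ψ w' ψ' hw hw' h =>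
    ⟨1, one_ne_zero, by simpa using un_tr h3 (hrt' i) hγ hw h hw'.2.2⟩
  push Not at hG
  obtain ⟨j, hj⟩ := hG
  have : ∃ w ψ β, RL w ψ ∧ Un M ((Φ.T j).km (ψ.smulRight w) β) ∧ ¬ ∃ a : F, ∀ u, β u = a • u := by
    by_contra h
    push Not at h
    exact hj ⟨hrt j, h⟩
  obtain ⟨w, ψ, β, hw, h1, h2⟩ := this
  obtain ⟨J, hJ, hQ⟩ := hS.exists_Q (fun i β => nd_lin) hw (cm_km (T := Φ.T j) β)
    (fun ⟨c, hc⟩ => h2 ⟨c, fun u => (Φ.T j).t_inj hw.1 (by
      simpa using LinearMap.congr_fun hc ((Φ.T j).t w u))⟩) (by rwa [TF.e_mul_km])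
  replace hQ := hQ.univ hJ fun J hJ hQ b hb => hS.step hT (fun _ _ h => h.2.2) hP (tri_lin h3)
    (tri_lin h3) (by simp) hJ hQ hb
  refine .inr fun w ψ j hj => ?_
  by_cases h0 : ∃ i, w i = 0 ∨ ψ i = 0
  · obtain ⟨i, h0 | h0⟩ := h0 <;>
    · rw [Φ.eq_zero (i := i) (by simp [h0])]; exact Un.zero
  push Not at h0
  choose y χ e1 e2 e3 using fun i => exists_flag h3 (w := w i) (ψ i)
  obtain ⟨c, hc, h4⟩ := hQ.any hT (a := fun i => (χ i).smulRight (w i))
    ⟨fun i _ => ⟨_, _, ⟨(h0 i).1, fun h => by simpa [h] using e2 i, e3 i⟩, rfl⟩, by simp⟩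
  obtain ⟨c', hc', h5⟩ := hQ.any hT (a := fun i => (ψ i).smulRight (y i))
    ⟨fun i _ => ⟨_, _, ⟨fun h => by simpa [h] using e2 i, (h0 i).2, e1 i⟩, rfl⟩, by simp⟩
  have h6 := h4.comm' h5
    (by rw [smul_mul_smul_comm, ← map_mul, Φ.eq_zero (i := j) (r_sq (e3 j)), smul_zero])
    (by rw [smul_mul_smul_comm, ← map_mul, Φ.eq_zero (i := j) (r_sq (e1 j)), smul_zero])
    (by rw [smul_mul_smul_comm, ← map_mul, Φ.eq_zero (i := j) (by simp [r_mul_r, hj]), smul_zero])
  rw [smul_mul_smul_comm, ← map_mul, show ((fun i => (χ i).smulRight (w i)) *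
      fun i => (ψ i).smulRight (y i) : ι → End F U) = fun i => (ψ i).smulRight (w i) from
    funext fun i => by simp [r_mul_r, e2], Φ.eq_mul _ j, ← mul_smul_comm] at h6
  have h7 := un_tr h3 (hrt' j) ((Φ.cm_update _ j).smul _) ⟨(h0 j).1, (h0 j).2, hj⟩ h6
    (w' := w j) (ψ' := (c * c')⁻¹ • ψ j) (by simp [hj])
  rwa [r_smul, map_smul, smul_mul_smul_comm,
    inv_mul_cancel₀ (mul_ne_zero hc hc'), one_smul, ← Φ.eq_mul (fun i => (ψ i).smulRight (w i)) j]
    at h7

section Std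

open Matrix Cfsg.Geo Cfsg.Lib.Asch Cfsg.Lib.Unitary Cfsg.Lib.Linear
open scoped MatrixGroups

variable {κ μ : Type} [Fintype κ] [DecidableEq κ] [Fintype μ] [DecidableEq μ]

omit h3 in
theorem trGL_mem_SL (e : κ ≃ μ) (P : GL κ F) {g : GL μ F} :
    trGL e P g ∈ specialLinear κ F ↔ g ∈ specialLinear μ F := by
  rw [mem_specialLinear, mem_specialLinear, coe_trGL, tr_apply, cj_def, det_mul_right_comm,
    Units.mul_inv, one_mul, det_reindex_self]

omit h3 in
theorem commutator_mem_SL (g k : GL κ F) : ⁅g, k⁆ ∈ specialLinear κ F := by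
  rw [mem_specialLinear, ← GeneralLinearGroup.val_det_apply, map_commutatorElement,
    commutatorElement_eq_one_iff_mul_comm.2 (mul_comm _ _), Units.val_one]

omit h3 in
theorem isMaximalIn_lin [Fintype F] {m t : ℕ} (hn : 5 ≤ Fintype.card κ) (hm : 3 ≤ m) (ht : 2 ≤ t)
    (e : κ ≃ (Fin t → Fin m)) (P : GL κ F) :
    IsMaximalIn (specialLinear κ F) (tensorWreathSubgroup m t e P ⊓ specialLinear κ F) := by
  refine isMaximalIn_inf ((amb_sl (by omega)).not_pow (by omega) ht hn e P)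
    fun M hM hM' g hg hg' => ?_
  obtain ⟨Φ, h1, h2, h4⟩ := exists_fam (F := F) (by omega) (by omega) e P
  have : Nontrivial (Fin (m ^ (t - 1)) → F) := Module.nontrivial_of_finrank_pos (R := F) (by
    simpa using pow_pos (by omega) _)
  refine (max_lin (M := M.map (glEquiv κ F).toMonoidHom) (by simpa) (fun h => ?_) Φ
    (fun i w ψ h => ?_) fun σ τ => ?_).elim (fun h => (hg' (h2 g (h _ ⟨g, hg, rfl⟩))).elim)
    fun h => ?_
  · obtain rfl : m = 3 := by simpa using h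
    simpa using Odd.pow (by decide)
  · obtain ⟨k, hk, hk'⟩ := exists_SL_of_sq_zero ((Φ.T i).e (ψ.smulRight w))
      fun x => LinearMap.congr_fun ((Φ.T i).e_r_mul h) x
    obtain ⟨b, hb⟩ := exists_un (r_sq h)
    have h5 : glEquiv κ F k = (Φ.T i).kr b 1 := (Φ.T i).eq_of_t fun v u => by simp [hk', hb]
    exact ⟨_, ⟨k, hM ⟨h2 k (h5 ▸ Φ.wr_kr i b), hk⟩, rfl⟩, fun x => (hk' x).trans (by rw [TF.e_r])⟩
  · have h5 := (h4 σ).comm (h4 τ)
    rw [← map_commutatorElement] at h5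
    exact ⟨_, ⟨_, hM ⟨h2 _ h5.wr, commutator_mem_SL _ _⟩, rfl⟩, h5⟩
  have h5 : specialLinear _ F ≤ M.comap (trGL e P).toMonoidHom :=
    specialLinear_le_of_single fun x y hxy c => by
      obtain ⟨j, hj⟩ := Function.ne_iff.1 hxy
      obtain ⟨_, ⟨k, hk, rfl⟩, hk'⟩ := h (fun i => Pi.single (x i) (if i = j then c else 1))
        (fun i => LinearMap.proj (y i)) j (by simp [hj.symm])
      refine Tv.of_mulVec (g := (trGL e P).symm k) (by simpa using hk) (by simp [hxy.symm]) fun v => ?_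
      have h6 : (k : Matrix κ κ F) = tr e P (1 + c • single x y 1) := by
        apply toLin'.injective
        refine LinearMap.ext fun z => (hk' z).trans ?_
        have : (fun i => LinearMap.toMatrix' ((LinearMap.proj (y i)).smulRight
            (Pi.single (x i) (if i = j then c else 1) : Fin m → F))) =
            fun i => (if i = j then c else 1) • single (x i) (y i) (1 : F) := by
          funext i
          ext a b
          simp only [LinearMap.toMatrix'_apply, LinearMap.smulRight_apply, LinearMap.proj_apply,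
            Pi.smul_apply, Pi.single_apply, smul_eq_mul, Matrix.smul_apply, single_apply]
          by_cases h1 : a = x i <;> by_cases h2 : b = y i <;> simp [h1, h2, eq_comm]
        rw [h1, this, pureT_smul, pureT_single]
        simp
      have h7 : ((trGL e P).symm k).1 = 1 + c • single x y 1 :=
        (tr e P).injective (by rw [← coe_trGL, MulEquiv.apply_symm_apply, h6])
      rw [h7]
      ext z
      simp [add_mulVec, single_mulVec, Pi.single_apply, Function.update_apply]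
  intro k hk
  simpa using h5 ((trGL_mem_SL e P).1 (show trGL e P ((trGL e P).symm k) ∈ _ by simpa))

end Std

end Cfsg.Lib.TW
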