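import Cfsg.Agent.Lib.TW.FormCore

/-!
# Pure vectors of a tensor power with a form; Eichler directions
-/

set_option autoImplicit false
set_option linter.unusedSectionVars false

namespace Cfsg.Lib.TW

open Module Function Cfsg.Lib.Unitary Cfsg.Lib.TMax

variable {F U W V : Type*} [Field F] [AddCommGroup U] [Module F U] [AddCommGroup W] [Module F W]
  [AddCommGroup V] [Module F V] {σ : F →+* F} {ε ε' : F} {A : U →ₛₗ[σ] U →ₗ[F] F}
  {B : V →ₛₗ[σ] V →ₗ[F] F} {N : Subgroup (U ≃ₗ[F] U)} {M : Subgroup (V ≃ₗ[F] V)}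
  {T : TF F U W V} {ι : Type*} [DecidableEq ι] [Fintype ι] {Φ : Fam ι F U W V}

theorem cp_of_adj (γ : Gm ε A N) (h : ∀ a a' : End F U, (∀ x y, A (a x) y = A x (a' y)) →
    ∀ x y, B (T.e a x) y = B x (T.e a' y)) : Cp A B T := by
  obtain ⟨x₀, h0, -⟩ := γ.exists_iso
  obtain ⟨y₀, h1⟩ := γ.h.exists_eq_one' h0
  refine ⟨ε • (B.compl₂ (T.t y₀)).comp (T.t x₀), fun x u y u' => ?_⟩
  have := h (rk A x y₀) (ε • rk A y₀ x) (fun v v' => by
    simp [γ.h.flip y₀ v, γ.h.eps_sq, ← mul_assoc, mul_right_comm, mul_comm (A x v')]) (T.t x₀ u) (T.t y u')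
  simpa [h1, mul_left_comm] using this

/-- Pure vectors. -/
structure PV (Φ : Fam ι F U W V) (A : U →ₛₗ[σ] U →ₗ[F] F) (B : V →ₛₗ[σ] V →ₗ[F] F) where
  v : MultilinearMap F (fun _ : ι => U) V
  κ : F
  κ0 : κ ≠ 0
  π_v : ∀ a x, Φ.π a (v x) = v fun i => a i (x i)
  span : ∀ S : AddSubgroup V, (∀ x, v x ∈ S) → ∀ z, z ∈ S
  B_v : ∀ x y, B (v x) (v y) = κ * ∏ i, A (x i) (y i)

namespace PV

variable (p : PV Φ A B)

theorem ext {X : Type*} [AddCommGroup X] {f g : V →+ X} (h : ∀ x, f (p.v x) = g (p.v x)) (z : V) :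
    f z = g z := p.span (f.eqLocus g) h z

theorem ext' {f g : End F V} (h : ∀ x, f (p.v x) = g (p.v x)) : f = g :=
  LinearMap.ext (p.ext (f := f.toAddMonoidHom) (g := g.toAddMonoidHom) h)

theorem e_v (i : ι) (a : End F U) (x : ι → U) :
    (Φ.T i).e a (p.v x) = p.v (update x i (a (x i))) := by
  rw [← Φ.single, p.π_v]
  congr 1
  funext k
  rcases eq_or_ne k i with rfl | h <;> simp [*]

theorem adj {g g' : End F V} (h : ∀ x y, B (g (p.v x)) (p.v y) = B (p.v x) (g' (p.v y))) (z z' : V) :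
    B (g z) z' = B z (g' z') :=
  p.ext (f := (B.flip z').toAddMonoidHom.comp g.toAddMonoidHom) (g := (B.flip (g' z')).toAddMonoidHom)
    (fun x => p.ext (f := (B (g (p.v x))).toAddMonoidHom)
      (g := (B (p.v x)).toAddMonoidHom.comp g'.toAddMonoidHom) (h x) z') z

theorem mem_UG {g : V ≃ₗ[F] V} (h : ∀ x y, B (g (p.v x)) (g (p.v y)) = B (p.v x) (p.v y)) :
    g ∈ UG B := fun z z' =>
  p.ext (f := (B.flip (g z')).toAddMonoidHom.comp g.toLinearMap.toAddMonoidHom)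
    (g := (B.flip z').toAddMonoidHom) (fun x => p.ext
      (f := (B (g (p.v x))).toAddMonoidHom.comp g.toLinearMap.toAddMonoidHom)
      (g := (B (p.v x)).toAddMonoidHom) (h x) z') z

include p in
theorem π_adj {a a' : ι → End F U} (h : ∀ i x y, A (a i x) y = A x (a' i y)) (z z' : V) :
    B (Φ.π a z) z' = B z (Φ.π a' z') :=
  p.adj (fun x y => by simp [p.π_v, p.B_v, h]) z z'

include p in
theorem cp (γ : Gm ε A N) (i : ι) : Cp A B (Φ.T i) :=
  cp_of_adj γ fun a a' h x y => by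
    rw [← Φ.single, ← Φ.single]
    exact p.π_adj (fun k => by rcases eq_or_ne k i with rfl | h' <;> simp [*]) x y

theorem π_rk (x y : ι → U) : p.κ • Φ.π (fun i => rk A (x i) (y i)) = rk B (p.v x) (p.v y) :=
  p.ext' fun z => by simp [p.π_v, p.B_v, p.v.map_smul_univ, mul_smul]

theorem B_eq_zero {x y : ι → U} {i : ι} (h : A (x i) (y i) = 0) : B (p.v x) (p.v y) = 0 := by
  rw [p.B_v, Finset.prod_eq_zero (Finset.mem_univ i) h, mul_zero]

theorem B_ne_zero {x y : ι → U} (h : ∀ i, A (x i) (y i) ≠ 0) : B (p.v x) (p.v y) ≠ 0 :=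
  p.B_v x y ▸ mul_ne_zero p.κ0 (Finset.prod_ne_zero_iff.2 fun i _ => h i)

theorem mem_of_slots {S : AddSubgroup V} {q q' : ι → U → Prop}
    (h : ∀ k (S' : AddSubgroup U), (∀ y, q k y → y ∈ S') → ∀ y, q' k y → y ∈ S')
    (hS : ∀ y, (∀ k, q k (y k)) → p.v y ∈ S) {y} (hy : ∀ k, q' k (y k)) : p.v y ∈ S := by
  have key : ∀ K : Finset ι, ∀ y : ι → U, (∀ k ∈ K, q' k (y k)) → (∀ k ∉ K, q k (y k)) →
      p.v y ∈ S := fun K => by
    induction K using Finset.induction_on with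
    | empty => exact fun y _ h2 => hS y fun k => h2 k (by simp)
    | insert i K hi ih =>
      intro y h1 h2
      have := h i (S.comap (p.v.toLinearMap y i).toAddMonoidHom) (fun z hz => ih (update y i z)
        (fun k hk => by rw [update_of_ne (by rintro rfl; exact hi hk)]; exact h1 k (by simp [hk]))
        fun k hk => by
          rcases eq_or_ne k i with rfl | h3
          · simpa
          · rw [update_of_ne h3]; exact h2 k (by simp [h3, hk])) (y i) (h1 i (by simp))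
      simpa using this
  exact key Finset.univ y (fun k _ => hy k) (by simp)

theorem mem_of_perp (hA : EF σ ε A) {S : AddSubgroup V} {x : ι → U} (hx : ∀ i, x i ≠ 0)
    (hS : ∀ y i, A (x i) (y i) = 0 → p.v y ∈ S) {z : V} (hz : B (p.v x) z = 0) : z ∈ S := by
  choose f hf using fun i => hA.exists_eq_one (hx i)
  have key : ∀ (y : ι → U) (K : Finset ι),
      p.v y - p.v (K.piecewise (fun k => A (x k) (y k) • f k) y) ∈ S := fun y K => by
    induction K using Finset.induction_on with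
    | empty => simp
    | insert i K hi ih =>
      have := hS (update (K.piecewise (fun k => A (x k) (y k) • f k) y) i
        (y i - A (x i) (y i) • f i)) i (by simp [hf])
      rw [p.v.map_update_sub, ← Finset.piecewise_insert, ← K.piecewise_eq_of_notMem
        (fun k => A (x k) (y k) • f k) y hi, update_eq_self] at this
      simpa using add_mem ih this
  simpa [hz] using p.span (S.comap (1 - (p.κ⁻¹ • B (p.v x)).smulRight (p.v f) : End F V).toAddMonoidHom)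
    (fun y => by simpa [p.B_v, p.κ0, p.v.map_smul_univ] using key y Finset.univ) z

end PV

/-- The directions of the Eichler elements with centre `e`. -/
def AQ (hB : EF σ ε' B) (M : Subgroup (V ≃ₗ[F] V)) {e : V} (he : B e e = 0) : AddSubgroup V where
  carrier := {a | B e a = 0 ∧ ∃ g ∈ M, ∀ x, B e x = 0 → g x = x + B a x • e}
  zero_mem' := ⟨map_zero _, 1, one_mem _, by simp⟩
  add_mem' := fun ⟨h, g, hg, e1⟩ ⟨h', g', hg', e2⟩ => ⟨by simp [h, h'], g * g', mul_mem hg hg',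
    fun x hx => by simp [e2 x hx, e1 x hx, e1 e he, hB.swap h, add_smul, add_assoc]⟩
  neg_mem' := fun {a} ⟨h, g, hg, e1⟩ => ⟨by simp [h], g⁻¹, inv_mem hg, fun x hx => g.injective (by
    simp [e1 x hx, e1 e he, hB.swap h])⟩

section AQ

variable {hB : EF σ ε' B} {e : V} {he : B e e = 0}

theorem smul_self_mem_AQ (c : F) : c • e ∈ AQ hB M he :=
  ⟨by simp [he], 1, one_mem _, fun x hx => by simp [hx]⟩

theorem conj_mem_AQ (hM : M ≤ UG B) {e' : V} (he' : B e' e' = 0) {g} (hg : g ∈ M) {c : F}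
    (hc : c ≠ 0) (h : g e = c • e') {a : V} (ha : a ∈ AQ hB M he) : σ c • g a ∈ AQ hB M he' := by
  obtain ⟨h1, k, hk, h2⟩ := ha
  have h3 : ∀ x, B e (g⁻¹ x) = σ c * B e' x := fun x => by rw [← UG_apply_left (hM hg), h]; simp
  refine ⟨by simpa [h1, hc] using h3 (g a), g * k * g⁻¹, mul_mem (mul_mem hg hk) (inv_mem hg),
    fun x hx => ?_⟩
  rw [LinearEquiv.mul_apply, LinearEquiv.mul_apply, h2 _ (by rw [h3, hx, mul_zero]),
    ← UG_apply_left (hM hg)]
  simp [h, hB.invol, smul_smul, mul_comm]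

theorem sub_mem_AQ (hM : M ≤ UG B) {g} (hg : g ∈ M) (h : g e = e) {a : V} (ha : a ∈ AQ hB M he) :
    g a - a ∈ AQ hB M he :=
  sub_mem (by simpa using conj_mem_AQ hM he hg one_ne_zero (by simpa) ha) ha

theorem mem_AQ_of_un {a : V} (ha : B e a = 0) {z : V} (h : Un M (rk B e a + rk B z e)) :
    a ∈ AQ hB M he :=
  let ⟨g, hg, h⟩ := h; ⟨ha, g, hg, fun x hx => by simp [h, hx]⟩

theorem mem_AQ_of_tv {z : V} (hz : B z z = 0) (h : B e z = 0) {c : F} (h1 : Un M (c • rk B z z))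
    (h2 : Un M (c • rk B (z + e) (z + e))) : σ c • z ∈ AQ hB M he := by
  refine mem_AQ_of_un (by simp [h]) (z := c • (z + e)) ?_
  convert h2.add (h1.neg (by simp [rk_mul, hz])) (by simp [rk_mul, hz, h]) using 1
  ext x
  simp [hB.invol, mul_smul, add_smul, smul_comm c]
  abel

theorem mem_AQ_swap (hM : M ≤ UG B) {e₁ : V} (he₁ : B e₁ e₁ = 0) (h : B e e₁ ≠ 0) {c : F}
    (hc0 : c ≠ 0) (hc : c + ε' * σ c = 0) (h1 : ∀ c, c + ε' * σ c = 0 → Un M (c • rk B e e))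
    (h2 : ∀ c, c + ε' * σ c = 0 → Un M (c • rk B e₁ e₁)) {z : V} (hz : B e z = 0)
    (hz' : ∀ a : F, a • z ∈ AQ hB M he₁) : z ∈ AQ hB M he := by
  obtain ⟨g, hg, e1⟩ := h1 c hc
  obtain ⟨k, hk, e2⟩ := h2 (-(c * B e e₁ * B e₁ e)⁻¹) (by
    have h3 : σ c = -ε' * c := by linear_combination ε' * hc - σ c * hB.eps_sq
    rw [map_neg, map_inv₀, map_mul, map_mul, h3, hB.symm, hB.symm]
    have := hB.swap_ne h
    rcases hB.eps with rfl | rfl <;> field_simp <;> ring)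
  have h4 : B e₁ z = 0 := by simpa using (hz' 1).1
  have := conj_mem_AQ hM he (mul_mem hk hg) (mul_ne_zero hc0 h) (show (k * g) e₁ = _ by
    rw [LinearEquiv.mul_apply, e1, e2]
    have := hB.swap_ne h
    simp only [LinearMap.smul_apply, rk_apply, map_add, map_smul, he₁, smul_eq_mul, smul_smul]
    match_scalars <;> field_simp <;> ring) (hz' (σ (c * B e e₁))⁻¹)
  rwa [map_smul, smul_inv_smul₀ (by simpa using ⟨hc0, h⟩), LinearEquiv.mul_apply, e1, e2,
    LinearMap.smul_apply, rk_apply, hz, zero_smul, smul_zero, add_zero, LinearMap.smul_apply,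
    rk_apply, h4, zero_smul, smul_zero, add_zero] at this

variable [FiniteDimensional F V]

theorem exists_tv_of_fix (hB : EF σ ε' B) (he0 : e ≠ 0) {g : V ≃ₗ[F] V} (hg : g ∈ UG B)
    (h : ∀ x, B e x = 0 → g x = x) : ∃ c : F, ∀ x, g x = x + (c * B e x) • e := by
  obtain ⟨f, hf⟩ := hB.exists_eq_one he0
  obtain ⟨c, hc⟩ := Submodule.mem_span_singleton.1 (hB.sub_mem_of_fix (W := F ∙ e) hg
    (fun x hx => h x (hx e (Submodule.mem_span_singleton_self e))) f)
  refine ⟨c, fun x => ?_⟩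
  have := h (x - B e x • f) (by simp [hf])
  rw [map_sub, map_smul, eq_add_of_sub_eq hc.symm] at this
  linear_combination (norm := module) this

theorem trace_of_un (hB : EF σ ε' B) (hM : M ≤ UG B) (he0 : e ≠ 0) (he : B e e = 0) {c : F}
    (h : Un M (c • rk B e e)) : c + ε' * σ c = 0 := by
  obtain ⟨g, hg, h⟩ := h
  obtain ⟨f, hf⟩ := hB.exists_eq_one he0
  have := hM hg f f
  rw [h] at this
  simp only [map_add, LinearMap.add_apply, LinearMap.smul_apply, rk_apply, hf, one_smul, he,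
    LinearMap.map_smulₛₗ, map_smul, smul_eq_mul, hB.flip e f, map_one] at this
  linear_combination ε' * this - c * hB.eps_sq

theorem QE_le_of_AQ (hM : M ≤ UG B) (he0 : e ≠ 0) (h : ∀ z, B e z = 0 → z ∈ AQ hB M he)
    (h1 : ∀ c, c + ε' * σ c = 0 → Un M (c • rk B e e)) : QE B e ≤ M := fun g hg => by
  obtain ⟨φ, hφ⟩ := exists_dual_one (F := F) he0
  obtain ⟨f, hf⟩ := hB.exists_eq_one he0
  obtain ⟨a, ha⟩ := hB.exists_eq (φ ∘ₗ (g.toLinearMap - 1))
  obtain ⟨-, k, hk, e1⟩ := h a (hB.swap (by simp [ha, hg.2.1]))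
  obtain ⟨c, hc⟩ := exists_tv_of_fix hB he0 (mul_mem (inv_mem (hM hk)) hg.1) fun x hx => by
    obtain ⟨c, hc⟩ := hg.2.2 x hx
    rw [LinearEquiv.mul_apply, LinearEquiv.coe_inv, LinearEquiv.symm_apply_eq, e1 x hx, ha]
    simp [hc, hφ]
  obtain ⟨l, hl, e2⟩ := h1 c (trace_of_un hB le_rfl he0 he ⟨_, mul_mem (inv_mem (hM hk)) hg.1,
    fun x => by simp only [hc, LinearMap.smul_apply, rk_apply, mul_smul]⟩)
  rw [show g = k * l from eq_mul_of_inv_mul_eq (LinearEquiv.ext fun x => by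
    simp only [hc, e2, LinearMap.smul_apply, rk_apply, mul_smul]).symm]
  exact mul_mem hk hl

omit [FiniteDimensional F V] in
theorem QE_le_all (hB : EF σ ε' B) (h3 : T3 B) (hM : M ≤ UG B) {e f : V} (he : B e e = 0)
    (hf : B f f = 0) (hef : B e f ≠ 0) (h1 : QE B e ≤ M) (h2 : QE B f ≤ M) {z : V} (hz0 : z ≠ 0)
    (hz : B z z = 0) : QE B z ≤ M := by
  have key : ∀ {e f z : V}, B e e = 0 → B f f = 0 → B z z = 0 → B e f ≠ 0 → B e z ≠ 0 →
      QE B e ≤ M → QE B f ≤ M → QE B z ≤ M := fun {e f z} he hf hz h1 h2 h3 h4 k hk => by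
    obtain ⟨g, hg, hg'⟩ := hB.siegel he (x := (B e f)⁻¹ • f) (y := (B e z)⁻¹ • z) (by simp [h1])
      (by simp [h2]) (by simp [hf, hz])
    have h5 : g f = (B e f * (B e z)⁻¹) • z := by
      rw [mul_smul, ← hg', map_smul, smul_inv_smul₀ h1]
    have h6 : g⁻¹ * k * g ∈ QE B f := ⟨mul_mem (mul_mem (inv_mem hg.1) hk.1) hg.1,
      g.injective (by simp [h5, hk.2.1]), fun x hx => by
        obtain ⟨c, hc⟩ := hk.2.2 (g x) (by simpa [h5, h1, h2] using (hg.1 f x).trans hx)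
        exact ⟨c * (B e z * (B e f)⁻¹), g.injective (by simp [hc, h5, smul_smul]; field_simp)⟩⟩
    simpa [mul_assoc] using mul_mem (mul_mem (h3 hg) (h4 h6)) (inv_mem (h3 hg))
  obtain ⟨s, hs, h4, h5⟩ := hB.exists_common' h3 (x := e) (by rintro rfl; simp at hef) hz0 he hz
  exact key hs he hz h4 h5 (key he hf hs hef (hB.swap_ne h4) h1 h2) h1

end AQ

theorem Gm.span_nonperp (γ : Gm ε A N) {x : U} (h0 : x ≠ 0) (hx : A x x = 0) (S : AddSubgroup U)
    (hS : ∀ y, A y y = 0 ∧ A x y ≠ 0 → y ∈ S) (y : U) : y ∈ S := by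
  obtain ⟨f, hf, hxf⟩ := γ.h.exists_hyp h0 hx
  obtain ⟨c, hc0, hc⟩ := γ.tr
  have h1 : ∀ a : F, a • x ∈ S := fun a => by
    rcases eq_or_ne a 0 with rfl | ha
    · simp
    have h2 : σ a ≠ 0 := by simpa
    simpa using sub_mem (hS ((c / σ a) • f + a • x) ⟨by
      simp only [map_add, LinearMap.add_apply, LinearMap.map_smulₛₗ, map_smul, LinearMap.smul_apply,
        hf, hx, hxf, γ.h.flip x f, smul_eq_mul, map_div₀, γ.h.invol, map_one]
      field_simp
      linear_combination σ a * a * hc, by simp [hx, hxf, hc0, ha]⟩)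
      (hS ((c / σ a) • f) ⟨by simp [hf], by simp [hxf, hc0, ha]⟩)
  have h2 : ∀ y, A x y ≠ 0 → y ∈ S := fun y hy => by
    obtain ⟨a, ha⟩ := γ.h.exists_iso_add hx hy
    simpa using sub_mem (hS _ ⟨ha, by simpa [hx]⟩) (h1 a)
  by_cases h : A x y = 0
  · simpa using sub_mem (h2 (y + f) (by simp [h, hxf])) (h2 f (by simp [hxf]))
  · exact h2 y h

theorem Gm.span_perp_pair [FiniteDimensional F U] (γ : Gm ε A N) (h3 : 3 ≤ finrank F U) {x : U}
    (h0 : x ≠ 0) (hx : A x x = 0) (S : AddSubgroup U)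
    (hS : ∀ s, (A x s = 0 ∧ ∃ f, A f f = 0 ∧ A x f ≠ 0 ∧ A f s = 0) → s ∈ S) (s : U)
    (hs : A x s = 0) : s ∈ S := by
  obtain ⟨f, hf, hxf⟩ := γ.h.exists_hyp h0 hx
  obtain ⟨z, h1, h2, h4⟩ := exists_ker_pair h3 (A x) (A f)
  have h5 : z ∉ F ∙ x := fun h => by
    obtain ⟨a, rfl⟩ := Submodule.mem_span_singleton.1 h
    simp [γ.h.swap_ne (hxf ▸ one_ne_zero)] at h4
    simp [h4] at h1
  obtain ⟨y, h6, h7⟩ := γ.h.exists_perp_one h5 (ε * A f s)
  obtain ⟨b, hb, hb'⟩ := γ.h.exists_E hx h6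
  have h8 := γ.decomp hx hf hxf s
  have h9 := hS (b z) ⟨by rw [← hb.2.1, hb.1, h2], b f, (hb.1 f f).trans hf,
    by rw [← hb.2.1, hb.1, hxf]; simp, (hb.1 f z).trans h4⟩
  rw [hb' z h2, h7] at h9
  simpa [hs] using add_mem (hS _ ⟨h8.1, f, hf, by simp [hxf], h8.2⟩)
    (sub_mem h9 (hS z ⟨h2, f, hf, by simp [hxf], h4⟩))

namespace PV

variable [FiniteDimensional F U] [FiniteDimensional F V] [Nontrivial ι] (p : PV Φ A B)
  (γ : Gm ε A N) (hB : EF σ ε' B) (hM : M ≤ UG B) (su : ∀ i, ∀ b ∈ N, (Φ.T i).kr b 1 ∈ M)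
  {c : F} (hc0 : c ≠ 0) (hc : c + ε' * σ c = 0)
  (hT : ∀ x, (∀ i, A (x i) (x i) = 0) → ∀ c, c + ε' * σ c = 0 → Un M (c • rk B (p.v x) (p.v x)))
include γ hB hM su hc0 hc hT

theorem mem_AQ_one {x : ι → U} (h0 : ∀ i, x i ≠ 0) (hx : ∀ i, A (x i) (x i) = 0) (he) (i : ι) {s : U}
    (hs : A (x i) s = 0 ∨ ∀ y, A y y = 0) : p.v (update x i s) ∈ AQ hB M (e := p.v x) he := by
  obtain ⟨j, hj⟩ := exists_ne i
  have h1 : ∀ y, A y y = 0 → A (y + x i) (y + x i) = 0 →
      σ c • p.v (update x i y) ∈ AQ hB M (e := p.v x) he := fun y h1 h2 => by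
    have h3 : ∀ {y}, A y y = 0 → ∀ k, A (update x i y k) (update x i y k) = 0 := fun h k => by
      rcases eq_or_ne k i with rfl | h' <;> simp [*]
    refine mem_AQ_of_tv (p.B_eq_zero (h3 h1 i)) (p.B_eq_zero (i := j) (by simp [hj, hx]))
      (hT _ (h3 h1) c hc) ?_
    simpa [p.v.map_update_add] using hT _ (h3 h2) c hc
  have h2 : σ c ≠ 0 := by simpa
  rcases hs with hs | hs
  swap
  · simpa [h2] using h1 ((σ c)⁻¹ • s) (hs _) (hs _)
  obtain ⟨f, hf, hxf⟩ := γ.h.exists_hyp (h0 i) (hx i)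
  obtain ⟨d, hd0, hd⟩ := γ.tr
  obtain ⟨b, hb, l, hb'⟩ := γ.h.exists_gE' (a := -(ε * (σ c * d)⁻¹) • s) (hx i) (by simp [hs])
  have h3 := sub_mem_AQ hM (su i b (γ.qe _ (hx i) hb)) (by
    rw [TF.kr_one_apply, p.e_v, LinearEquiv.coe_coe, hb.2.1, update_eq_self])
    (h1 (d • f) (by simp [hf]) (by simpa [hf, hx, hxf, γ.h.flip (x i) f, mul_comm, add_comm] using hd))
  rw [map_smul, TF.kr_one_apply, p.e_v, update_idem, update_self, ← smul_sub, ← p.v.map_update_sub,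
    ← p.v.map_update_smul, LinearEquiv.coe_coe, hb'] at h3
  have h4 := smul_self_mem_AQ (hB := hB) (M := M) (he := he)
    (σ c * (A (-(ε * (σ c * d)⁻¹) • s) (d • f) + l * d))
  rw [show ∀ a : F, a • p.v x = p.v (update x i (a • x i)) by simp] at h4
  convert sub_mem h3 h4 using 1
  rw [← p.v.map_update_sub]
  congr 2
  simp only [map_smul, hxf, smul_eq_mul, mul_one]
  have := γ.h.eps_sq
  match_scalars <;> field_simp <;> simp [sq, this]

theorem QE_le (h3 : 3 ≤ finrank F U ∨ ∀ y, A y y = 0) {x : ι → U} (h0 : ∀ i, x i ≠ 0)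
    (hx : ∀ i, A (x i) (x i) = 0) : QE B (p.v x) ≤ M := by
  obtain ⟨i₀⟩ : Nonempty ι := inferInstance
  have he := p.B_eq_zero (hx i₀)
  choose f hf hxf using fun i => γ.h.exists_hyp (h0 i) (hx i)
  refine QE_le_of_AQ (hB := hB) (he := he) hM (fun h => p.B_ne_zero (x := x) (y := f)
    (by simp [hxf]) (by simp [h])) (fun z hz => p.mem_of_perp γ.h h0 (fun y i hy => ?_) hz) (hT x hx)
  refine p.mem_of_slots (q := fun k s => if k = i then A (x k) s = 0 ∧ ∃ f, A f f = 0 ∧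
    A (x k) f ≠ 0 ∧ (A f s = 0 ∨ ∀ y, A y y = 0) else A s s = 0 ∧ A (x k) s ≠ 0)
    (q' := fun k s => k = i → A (x k) s = 0) (fun k S hS s hs => ?_) (fun y hy => ?_)
    (by rintro _ rfl; exact hy)
  · split_ifs at hS with h
    · rcases h3 with h3 | h3
      · exact γ.span_perp_pair h3 (h0 k) (hx k) S
          (fun s ⟨h1, f, h2, h4, h5⟩ => hS s ⟨h1, f, h2, h4, .inl h5⟩) s (hs h)
      · exact hS s ⟨hs h, f k, hf k, by simp [hxf], .inr h3⟩
    · exact γ.span_nonperp (h0 k) (hx k) S hS s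
  obtain ⟨h1, g, h2, h4, h5⟩ := (if_pos rfl ▸ hy i :)
  have h6 : ∀ k, A (update y i g k) (update y i g k) = 0 ∧ A (x k) (update y i g k) ≠ 0 := fun k => by
    rcases eq_or_ne k i with rfl | h
    · simp [h2, h4]
    · simpa [h] using hy k
  refine mem_AQ_swap hM (p.B_eq_zero (h6 i).1) (p.B_ne_zero fun k => (h6 k).2) hc0 hc (hT x hx)
    (hT _ fun k => (h6 k).1) (p.B_eq_zero h1) fun a => ?_
  simpa using p.mem_AQ_one γ hB hM su hc0 hc hT (fun k h => (h6 k).2 (by simp [h]))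
    (fun k => (h6 k).1) _ i (s := a • y i) (h5.imp_left fun h => by simp [h])

/-- All the transvections with a pure centre give everything. -/
theorem QE_le_all (h3 : 3 ≤ finrank F U ∨ ∀ y, A y y = 0) {z : V} (hz0 : z ≠ 0) (hz : B z z = 0) :
    QE B z ≤ M := by
  obtain ⟨i₀⟩ : Nonempty ι := inferInstance
  obtain ⟨e, h0, he⟩ := γ.exists_iso
  obtain ⟨f, hf, hef⟩ := γ.h.exists_hyp h0 he
  exact TW.QE_le_all hB (hB.t3_of_trace hc0 hc) hM (p.B_eq_zero (x := fun _ => e) (i := i₀) he)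
    (p.B_eq_zero (x := fun _ => f) (i := i₀) hf) (p.B_ne_zero (by simp [hef]))
    (p.QE_le γ hB hM su hc0 hc hT h3 (fun _ => h0) fun _ => he)
    (p.QE_le γ hB hM su hc0 hc hT h3 (fun _ h => by simp [h] at hef) fun _ => hf) hz0 hz

end PV

end Cfsg.Lib.TW
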