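import Cfsg.Agent.Lib.TW.Lin

/-!
# Families of tensor factors, pure unipotent elements
-/

set_option autoImplicit false
set_option linter.unusedSectionVars false

namespace Cfsg.Lib.TW

open Module Function

variable {F U W V : Type*} [Field F] [AddCommGroup U] [Module F U] [AddCommGroup W] [Module F W]
  [AddCommGroup V] [Module F V] {M : Subgroup (V ≃ₗ[F] V)} {T : TF F U W V}

/-- `Y` commutes with the first factor. -/
def Cm (T : TF F U W V) (Y : End F V) : Prop := ∀ a, Y * T.e a = T.e a * Y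

theorem Cm.mul {X Y : End F V} (hX : Cm T X) (hY : Cm T Y) : Cm T (X * Y) := fun a => by
  rw [mul_assoc, hY, ← mul_assoc, hX, mul_assoc]

theorem Cm.add {X Y : End F V} (hX : Cm T X) (hY : Cm T Y) : Cm T (X + Y) := fun a => by
  rw [add_mul, mul_add, hX, hY]

theorem Cm.sub {X Y : End F V} (hX : Cm T X) (hY : Cm T Y) : Cm T (X - Y) := fun a => by
  rw [sub_mul, mul_sub, hX, hY]

theorem Cm.smul {X : End F V} (hX : Cm T X) (c : F) : Cm T (c • X) := fun a => by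
  rw [smul_mul_assoc, mul_smul_comm, hX]

theorem cm_one : Cm T 1 := fun a => by simp

theorem cm_km (β : End F W) : Cm T (T.km 1 β) := fun a => LinearMap.ext (T.km_e β a)

theorem Cm.exists_km [Nontrivial U] {Y : End F V} (h : Cm T Y) : ∃ β, Y = T.km 1 β :=
  T.exists_km_of_comm fun a x => LinearMap.congr_fun (h a) x

theorem TF.e_mul_km (T : TF F U W V) (a : End F U) (β : End F W) : T.e a * T.km 1 β = T.km a β :=
  T.ext' fun _ _ => by simp

theorem Cm.eq_zero {Y : End F V} (h : Cm T Y) {a : End F U} (ha : a ≠ 0) (e : T.e a * Y = 0) :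
    Y = 0 := by
  obtain ⟨v, hv⟩ := DFunLike.ne_iff.1 ha
  have : Nontrivial U := ⟨_, _, hv⟩
  obtain ⟨β, rfl⟩ := h.exists_km
  have : β = 0 := LinearMap.ext fun u => T.t_inj hv (by
    simpa using LinearMap.congr_fun e (T.t v u))
  exact T.ext' fun _ _ => by simp [this]

/-- A matrix coefficient with respect to the first factor. -/
noncomputable def TF.coef (T : TF F U W V) (ψ : Dual F U) (w : U) (β : End F V) : End F V :=
  T.km 1 (T.c ψ ∘ₗ β ∘ₗ T.t w)

theorem TF.cm_coef (T : TF F U W V) (ψ w β) : Cm T (T.coef ψ w β) := cm_km _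

theorem TF.e_mul_e (T : TF F U W V) (x w : U) (ψ χ : Dual F U) (β : End F V) :
    T.e (ψ.smulRight x) * β * T.e (χ.smulRight w) = T.e (χ.smulRight x) * T.coef ψ w β :=
  T.ext' fun _ _ => by simp [TF.coef, TF.e_r]

theorem Cm.coef_comm [Nontrivial U] {Y β : End F V} (h : Cm T Y) (e : β * Y = Y * β) (ψ w) :
    T.coef ψ w β * Y = Y * T.coef ψ w β := by
  obtain ⟨η, rfl⟩ := h.exists_km
  refine T.ext' fun v u => ?_
  have := congrArg (T.c ψ) (LinearMap.congr_fun e (T.t w u))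
  simp only [End.mul_apply, TF.km_t, End.one_apply, TF.c_km] at this
  simp [TF.coef, this, End.one_eq_id]

theorem r_mul_r (w x : U) (ψ χ : Dual F U) :
    ψ.smulRight w * χ.smulRight x = ψ x • χ.smulRight w :=
  LinearMap.ext fun v => by simp [mul_smul, smul_comm (ψ x)]

theorem r_ne_zero {w : U} {ψ : Dual F U} (hw : w ≠ 0) (hψ : ψ ≠ 0) : ψ.smulRight w ≠ 0 := by
  obtain ⟨v, hv⟩ := exists_apply_one hψ
  exact fun h => hw (by simpa [hv] using LinearMap.congr_fun h v)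

theorem TF.eq_zero_of_d [FiniteDimensional F U] (T : TF F U W V) {x : V}
    (h : ∀ χ, T.d χ x = 0) : x = 0 :=
  T.eq_zero_of_c fun ψ => by
    by_contra h0
    obtain ⟨χ, hχ⟩ := exists_dual_one (F := F) h0
    simp [← TF.apply_d, h] at hχ

theorem TF.d_e (T : TF F U W V) (χ : Dual F W) (a : End F U) (x : V) :
    T.d χ (T.e a x) = a (T.d χ x) :=
  T.ext_t (f := T.d χ ∘ₗ T.e a) (g := a ∘ₗ T.d χ) (fun _ _ => by simp) x

theorem cm_of_scalar [FiniteDimensional F U] {β : End F V}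
    (h : ∀ χ u, ∃ c : F, ∀ v, T.d χ (β (T.t v u)) = c • v) : Cm T β := fun a =>
  T.ext' fun v u => sub_eq_zero.1 (T.eq_zero_of_d fun χ => by
    obtain ⟨c, hc⟩ := h χ u
    simp [hc, TF.d_e])

/-- A tensor power decomposition. -/
structure Fam (ι F U W V : Type*) [DecidableEq ι] [Field F] [AddCommGroup U] [Module F U]
    [AddCommGroup W] [Module F W] [AddCommGroup V] [Module F V] where
  T : ι → TF F U W V
  π : (ι → End F U) →* End F V
  single : ∀ i a, π (Pi.mulSingle i a) = (T i).e a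
  cen : ∀ Y, (∀ i, Cm (T i) Y) → ∃ c : F, Y = c • 1

variable {ι : Type*} [DecidableEq ι] {R : U → Dual F U → Prop}

/-- Root elements in the positions `J`, identity elsewhere. -/
def Pr (R : U → Dual F U → Prop) (a : ι → End F U) (J : Finset ι) : Prop :=
  (∀ i ∈ J, ∃ w ψ, R w ψ ∧ a i = ψ.smulRight w) ∧ ∀ i ∉ J, a i = 1

theorem Pr.update {a : ι → End F U} {J : Finset ι} (h : Pr R a J) (i : ι) {w ψ} (hw : R w ψ) :
    Pr R (update a i (ψ.smulRight w)) (insert i J) :=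
  ⟨fun k hk => by
    rcases eq_or_ne k i with rfl | h1
    · exact ⟨w, ψ, hw, by simp⟩
    · rw [update_of_ne h1]; exact h.1 k (by simpa [h1] using hk), fun k hk => by
    rw [Finset.mem_insert, not_or] at hk
    rw [update_of_ne hk.1, h.2 k hk.2]⟩

theorem pr_one : Pr R (1 : ι → End F U) ∅ := ⟨by simp, fun _ _ => rfl⟩

theorem Pr.erase {a : ι → End F U} {J : Finset ι} (h : Pr R a J) (i : ι) :
    Pr R (Function.update a i 1) (J.erase i) :=
  ⟨fun k hk => by rw [update_of_ne (Finset.ne_of_mem_erase hk)]; exact h.1 k (Finset.mem_of_mem_erase hk),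
    fun k hk => by
      rcases eq_or_ne k i with rfl | h1
      · simp
      · rw [update_of_ne h1, h.2 k (by simpa [h1] using hk)]⟩

namespace Fam

variable (Φ : Fam ι F U W V)

theorem update_eq (a : ι → End F U) (i : ι) (x : End F U) :
    Φ.π (update a i x) = (Φ.T i).e x * Φ.π (update a i 1) := by
  rw [← Φ.single, ← map_mul]
  congr 1
  funext k
  rcases eq_or_ne k i with rfl | h <;> simp [*]

theorem eq_mul (a : ι → End F U) (i : ι) : Φ.π a = (Φ.T i).e (a i) * Φ.π (update a i 1) := by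
  rw [← update_eq, update_eq_self]

theorem cm {a : ι → End F U} {i : ι} (h : a i = 1) : Cm (Φ.T i) (Φ.π a) := fun x => by
  rw [← Φ.single, ← map_mul, ← map_mul]
  congr 1
  funext k
  rcases eq_or_ne k i with rfl | h <;> simp [*]

theorem cm_update (a : ι → End F U) (i : ι) : Cm (Φ.T i) (Φ.π (update a i 1)) := Φ.cm (by simp)

theorem cm_e {i j : ι} (h : i ≠ j) (x : End F U) : Cm (Φ.T i) ((Φ.T j).e x) :=
  Φ.single j x ▸ Φ.cm (by simp [h])

theorem comm {i j : ι} (h : i ≠ j) : Comm (Φ.T i) (Φ.T j) := fun a b x =>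
  (LinearMap.congr_fun (Φ.cm_e h b a) x).symm

theorem eq_zero {a : ι → End F U} {i : ι} (h : a i = 0) : Φ.π a = 0 := by
  rw [Φ.eq_mul a i, h, map_zero, zero_mul]

theorem update_of_one {a : ι → End F U} {i : ι} (h : a i = 1) (x : End F U) :
    Φ.π (update a i x) = (Φ.T i).e x * Φ.π a := by
  rw [update_eq, ← h, update_eq_self]

theorem smul_eq (K : Finset ι) (c : ι → F) (a : ι → End F U) :
    Φ.π (fun i => if i ∈ K then c i • a i else a i) = (∏ i ∈ K, c i) • Φ.π a := by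
  induction K using Finset.induction_on with
  | empty => simp
  | insert i K hi ih =>
    rw [Finset.prod_insert hi, mul_smul, ← ih, Φ.eq_mul _ i, Φ.eq_mul (fun i => if i ∈ K then _ else _) i,
      if_pos (Finset.mem_insert_self _ _), if_neg hi, map_smul, smul_mul_assoc]
    congr 3
    funext k
    rcases eq_or_ne k i with rfl | h <;> simp [*]

/-- Sandwiching is possible. -/
def Sand (Φ : Fam ι F U W V) (R : U → Dual F U → Prop) (M : Subgroup (V ≃ₗ[F] V)) : Prop :=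
  ∀ i j, i ≠ j → ∀ w ψ, R w ψ → ∀ β, Cm (Φ.T j) β → Un M ((Φ.T j).e (ψ.smulRight w) * β) →
    ∀ x χ, R x χ → Un M ((Φ.T j).e (ψ.smulRight w) *
      ((Φ.T i).e (χ.smulRight x) * β * (Φ.T i).e (χ.smulRight x)))

/-- Some pure element with support `J` lies in `M`. -/
def Q (Φ : Fam ι F U W V) (R : U → Dual F U → Prop) (M : Subgroup (V ≃ₗ[F] V)) (J : Finset ι) :
    Prop := ∃ a, ∃ c : F, c ≠ 0 ∧ Pr R a J ∧ Un M (c • Φ.π a)

variable {Φ}

theorem Sand.un (hS : Φ.Sand R M) {J : Finset ι} {a} (ha : Pr R a J) {j} (hj : j ∈ J) {i}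
    (hi : i ∉ J) {γ} (hγ : Cm (Φ.T j) γ) (h : Un M (Φ.π a * γ)) {x χ} (hx : R x χ) :
    Un M (Φ.π (update a i (χ.smulRight x)) * (Φ.T i).coef χ x γ) := by
  obtain ⟨w, ψ, hw, e⟩ := ha.1 j hj
  have hij : i ≠ j := fun h => hi (h ▸ hj)
  rw [Φ.eq_mul a j, e, mul_assoc] at h
  have h1 := hS i j hij w ψ hw _ ((Φ.cm_update a j).mul hγ) h x χ hx
  have h2 : Cm (Φ.T i) (Φ.π (update a j 1)) := Φ.cm (by rw [update_of_ne hij, ha.2 i hi])
  rw [← mul_assoc _ (Φ.π _), ← h2, mul_assoc (Φ.π _), mul_assoc (Φ.π _), TF.e_mul_e, ← mul_assoc,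
    ← mul_assoc, ← e, ← Φ.eq_mul, Φ.cm (ha.2 i hi), ← Φ.update_of_one (ha.2 i hi)] at h1
  exact h1

variable [Nontrivial U]

theorem Sand.exists_Q_aux (hS : Φ.Sand R M)
    (hN : ∀ i β, ¬ Cm (Φ.T i) β → ∃ w ψ, R w ψ ∧ (Φ.T i).coef ψ w β ≠ 0) (S : Finset ι) :
    ∀ (J : Finset ι) a γ, J.Nonempty → Pr R a J → Disjoint S J → γ ≠ 0 →
      (∀ i ∉ S, Cm (Φ.T i) γ) → Un M (Φ.π a * γ) → ∃ J', J ⊆ J' ∧ Φ.Q R M J' := by
  induction S using Finset.induction_on with
  | empty =>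
    intro J a γ _ ha _ h0 h1 h2
    obtain ⟨c, rfl⟩ := Φ.cen γ fun i => h1 i (by simp)
    exact ⟨J, le_rfl, a, c, fun h => h0 (by simp [h]), ha, by simpa using h2⟩
  | insert i S hi ih =>
    intro J a γ hJ ha hd h0 h1 h2
    rw [Finset.disjoint_insert_left] at hd
    by_cases h : Cm (Φ.T i) γ
    · refine ih J a γ hJ ha hd.2 h0 (fun k hk => ?_) h2
      rcases eq_or_ne k i with rfl | h3
      exacts [h, h1 k (by simp [h3, hk])]
    obtain ⟨x, χ, hx, h3⟩ := hN i γ h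
    obtain ⟨j, hj⟩ := hJ
    have h4 : j ∉ insert i S := by
      rw [Finset.mem_insert, not_or]
      exact ⟨fun h => hd.1 (h ▸ hj), fun h => Finset.disjoint_left.1 hd.2 h hj⟩
    obtain ⟨J', h5, h6⟩ := ih (insert i J) _ _ (by simp) (ha.update i hx)
      (by simpa [hi] using hd.2) h3 (fun k hk => by
        rcases eq_or_ne k i with rfl | h3
        · exact TF.cm_coef _ _ _ _
        · exact fun b => (Φ.cm_e h3.symm b).coef_comm (h1 k (by simp [h3, hk]) b) _ _)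
      (hS.un ha hj hd.1 (h1 j h4) h2 hx)
    exact ⟨J', (Finset.subset_insert _ _).trans h5, h6⟩

theorem Sand.exists_Q [Fintype ι] (hS : Φ.Sand R M)
    (hN : ∀ i β, ¬ Cm (Φ.T i) β → ∃ w ψ, R w ψ ∧ (Φ.T i).coef ψ w β ≠ 0) {j w ψ β} (hw : R w ψ)
    (hβ : Cm (Φ.T j) β) (h0 : ¬ ∃ c : F, β = c • 1) (h : Un M ((Φ.T j).e (ψ.smulRight w) * β)) :
    ∃ J, 2 ≤ J.card ∧ Φ.Q R M J := by
  obtain ⟨i, hi⟩ := not_forall.1 (mt (Φ.cen β) h0)
  have hij : i ≠ j := fun h => hi (h ▸ hβ)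
  obtain ⟨x, χ, hx, h3⟩ := hN i β hi
  have h1 := (pr_one (ι := ι)).update j hw
  obtain ⟨J, h4, h5⟩ := hS.exists_Q_aux hN (Finset.univ \ insert i (insert j ∅)) _ _ _ (by simp)
    (h1.update i hx) Finset.sdiff_disjoint h3 (fun k hk => by
      rcases eq_or_ne k i with rfl | h3
      · exact TF.cm_coef _ _ _ _
      · obtain rfl : k = j := by simpa [h3] using hk
        exact fun b => (Φ.cm_e hij b).coef_comm (hβ b) _ _)
    (hS.un h1 (by simp) (by simpa) hβ (by rwa [Φ.update_of_one rfl, map_one, mul_one]) hx)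
  exact ⟨J, (Finset.card_pair hij).ge.trans (Finset.card_le_card h4), h5⟩

omit [Nontrivial U] in
theorem Sand.all (hS : Φ.Sand R M) {j w ψ} (hw : R w ψ) {β} (hβ : Cm (Φ.T j) β)
    (h : Un M ((Φ.T j).e (ψ.smulRight w) * β)) (K : Finset ι) :
    j ∉ K → ∀ s, Pr R s K → Un M ((Φ.T j).e (ψ.smulRight w) * (Φ.π s * β * Φ.π s)) := by
  induction K using Finset.induction_on with
  | empty =>
    intro _ s hs
    rwa [show s = 1 from funext fun i => hs.2 i (by simp), map_one, one_mul, mul_one]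
  | insert i K hi ih =>
    intro hj s hs
    rw [Finset.mem_insert, not_or] at hj
    obtain ⟨x, χ, hx, e⟩ := hs.1 i (by simp)
    have h1 := hs.erase i
    rw [Finset.erase_insert hi] at h1
    have h2 : Cm (Φ.T j) (Φ.π (update s i 1)) := Φ.cm (h1.2 j hj.2)
    have := hS i j (Ne.symm hj.1) w ψ hw _ ((h2.mul hβ).mul h2) (ih hj.2 _ h1) x χ hx
    rwa [← mul_assoc _ _ (Φ.π _), ← mul_assoc _ (Φ.π _), mul_assoc _ (Φ.π _), Φ.cm_update, ← e,
      ← Φ.eq_mul] at this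

/-- Transitivity on the roots. -/
def Tr (Φ : Fam ι F U W V) (R : U → Dual F U → Prop) (M : Subgroup (V ≃ₗ[F] V)) : Prop :=
  ∀ i γ, Cm (Φ.T i) γ → ∀ w ψ w' ψ', R w ψ → R w' ψ' → Un M ((Φ.T i).e (ψ.smulRight w) * γ) →
    ∃ c : F, c ≠ 0 ∧ Un M (c • ((Φ.T i).e (ψ'.smulRight w') * γ))

omit [Nontrivial U] in
theorem Q.any (hT : Φ.Tr R M) {J : Finset ι} (h : Φ.Q R M J) {a} (ha : Pr R a J) :
    ∃ c : F, c ≠ 0 ∧ Un M (c • Φ.π a) := by
  obtain ⟨b, c, hc, hb, h⟩ := h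
  have key : ∀ S : Finset ι, S ⊆ J → ∃ c : F, c ≠ 0 ∧ Un M (c • Φ.π (S.piecewise a b)) := by
    intro S
    induction S using Finset.induction_on with
    | empty => exact fun _ => ⟨c, hc, by simpa⟩
    | insert i S hi ih =>
      intro hS
      obtain ⟨c, hc, h⟩ := ih ((Finset.subset_insert _ _).trans hS)
      obtain ⟨w, ψ, hw, e⟩ := hb.1 i (hS (by simp))
      obtain ⟨w', ψ', hw', e'⟩ := ha.1 i (hS (by simp))
      rw [Φ.eq_mul _ i, Finset.piecewise_eq_of_notMem _ _ _ hi, e, ← mul_smul_comm] at h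
      obtain ⟨d, hd, h1⟩ := hT i _ ((Φ.cm_update _ i).smul c) w ψ w' ψ' hw hw' h
      refine ⟨d * c, mul_ne_zero hd hc, ?_⟩
      rwa [Finset.piecewise_insert, Φ.update_eq, e', mul_smul, ← mul_smul_comm c]
  have := key J le_rfl
  rwa [show J.piecewise a b = a from funext fun i => by
    by_cases hi : i ∈ J
    · exact Finset.piecewise_eq_of_mem _ _ _ hi
    · rw [Finset.piecewise_eq_of_notMem _ _ _ hi, ha.2 i hi, hb.2 i hi]] at this

omit [Nontrivial U] in
theorem Q.perm {J : Finset ι} (h : Φ.Q R M J) {σ : Equiv.Perm ι} {g : V ≃ₗ[F] V} (hg : g ∈ M)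
    (e : ∀ a, g.toLinearMap * Φ.π a * (g⁻¹).toLinearMap = Φ.π (a ∘ σ.symm)) :
    Φ.Q R M (J.map σ.toEmbedding) := by
  obtain ⟨a, c, hc, ha, h⟩ := h
  refine ⟨a ∘ σ.symm, c, hc, ⟨fun i hi => ha.1 _ (by simpa using hi),
    fun i hi => ha.2 _ (by simpa using hi)⟩, ?_⟩
  rw [← e, ← smul_mul_assoc, ← mul_smul_comm]
  exact h.conj hg

omit [Nontrivial U] in
/-- The growth step. -/
theorem Sand.grow (hS : Φ.Sand R M) (hT : Φ.Tr R M) (h0 : ∀ w ψ, R w ψ → ψ w = 0)
    {J J' : Finset ι} (hJ : Φ.Q R M J) (hJ' : Φ.Q R M J') {i j} (hi : i ∈ J) (hi' : i ∉ J')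
    (hj : j ∈ J') (hj' : j ∉ J) {a a' s} (ha : Pr R a J) (ha' : Pr R a' J') (hs : Pr R s (J ∩ J'))
    {p p' : ι → F} (hp : ∀ k ∈ J ∩ J', s k * (a k * a' k) * s k = p k • s k)
    (hp' : ∀ k ∈ J ∩ J', s k * (a' k * a k) * s k = p' k • s k)
    (hne : ∏ k ∈ J ∩ J', p k ≠ ∏ k ∈ J ∩ J', p' k) : Φ.Q R M (J ∪ J') := by
  obtain ⟨c, hc, h⟩ := hJ.any hT ha
  obtain ⟨c', hc', h'⟩ := hJ'.any hT ha'
  obtain ⟨w, ψ, hw, e⟩ := ha.1 i hi
  obtain ⟨w', ψ', hw', e'⟩ := ha'.1 j hj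
  have h1 : a i * a i = 0 := by rw [e, r_mul_r, h0 _ _ hw, zero_smul]
  have h2 : a' j * a' j = 0 := by rw [e', r_mul_r, h0 _ _ hw', zero_smul]
  have h3 := h.comm h' (by simp [← map_mul, Φ.eq_zero (a := a * a) h1])
    (by simp [← map_mul, Φ.eq_zero (a := a' * a') h2])
    (by simp [← map_mul, Φ.eq_zero (a := a * a' * a) (i := i) (by simp [ha'.2 i hi', h1])])
    (by simp [← map_mul, Φ.eq_zero (a := a' * a * a') (i := j) (by simp [ha.2 j hj', h2])])
  let b : ι → End F U := fun k => if k ∈ J ∩ J' then s k else a k * a' k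
  have h4 : ∀ k ∉ J ∩ J', a' k * a k = a k * a' k := fun k hk => by
    by_cases h : k ∈ J
    · rw [ha'.2 k fun h' => hk (Finset.mem_inter.2 ⟨h, h'⟩), one_mul, mul_one]
    · rw [ha.2 k h, one_mul, mul_one]
  have h5 : Φ.π s * Φ.π (a * a') * Φ.π s = (∏ k ∈ J ∩ J', p k) • Φ.π b := by
    rw [← Φ.smul_eq, ← map_mul, ← map_mul]
    congr 1
    funext k
    by_cases hk : k ∈ J ∩ J'
    · simp only [b, if_pos hk, Pi.mul_apply, hp k hk]
    · simp only [b, if_neg hk, Pi.mul_apply, hs.2 k hk, one_mul, mul_one]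
  have h6 : Φ.π s * Φ.π (a' * a) * Φ.π s = (∏ k ∈ J ∩ J', p' k) • Φ.π b := by
    rw [← Φ.smul_eq, ← map_mul, ← map_mul]
    congr 1
    funext k
    by_cases hk : k ∈ J ∩ J'
    · simp only [b, if_pos hk, Pi.mul_apply, hp' k hk]
    · simp only [b, if_neg hk, Pi.mul_apply, hs.2 k hk, one_mul, mul_one, h4 k hk]
  have h7 : i ∉ J ∩ J' := fun h => hi' (Finset.mem_inter.1 h).2
  let β := (c * c') • (Φ.π (update (a * a') i 1) - Φ.π (update (a' * a) i 1))
  have h8 : (Φ.T i).e (ψ.smulRight w) * β = (c * c') • (Φ.π (a * a') - Φ.π (a' * a)) := by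
    rw [Φ.eq_mul (a * a') i, Φ.eq_mul (a' * a) i, mul_smul_comm, mul_sub]
    simp [ha'.2 i hi', e]
  have h9 := hS.all hw (((Φ.cm_update (a * a') i).sub (Φ.cm_update (a' * a) i)).smul (c * c'))
    (by rw [h8]; simpa [mul_smul, smul_sub, smul_comm c' c] using h3) _ h7 s hs
  rw [← mul_assoc, ← mul_assoc, ← Φ.cm (hs.2 i h7), mul_assoc (Φ.π s), h8, mul_smul_comm,
    smul_mul_assoc, mul_sub, sub_mul, h5, h6, ← sub_smul, smul_smul] at h9
  refine ⟨b, _, mul_ne_zero (mul_ne_zero hc hc') (sub_ne_zero.2 hne), ⟨fun k hk => ?_,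
    fun k hk => ?_⟩, h9⟩
  · by_cases h : k ∈ J ∩ J'
    · simpa only [b, if_pos h] using hs.1 k h
    by_cases h' : k ∈ J
    · simpa only [b, if_neg h, ha'.2 k fun h'' => h (Finset.mem_inter.2 ⟨h', h''⟩), mul_one]
        using ha.1 k h'
    · simpa only [b, if_neg h, ha.2 k h', one_mul] using ha'.1 k (by simpa [h'] using hk)
  · rw [Finset.mem_union, not_or] at hk
    simp [b, hk.1, ha.2 k hk.1, ha'.2 k hk.2]

end Fam

end Cfsg.Lib.TW
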