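import Cfsg.Agent.Lib.TW.Base

/-!
# Relative position of two tensor factors
-/

set_option autoImplicit false
set_option linter.unusedSectionVars false

namespace Cfsg.Lib.TW

open Module

variable {F U W V : Type*} [Field F] [AddCommGroup U] [Module F U] [AddCommGroup W] [Module F W]
  [AddCommGroup V] [Module F V] {T T' T'' : TF F U W V}

/-- The two decompositions have the same factors. -/
def Same (T T' : TF F U W V) : Prop :=
  ∃ (a : U ≃ₗ[F] U) (b : W ≃ₗ[F] W), ∀ v u, T'.t v u = T.t (a v) (b u)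

/-- The first factors commute. -/
def Comm (T T' : TF F U W V) : Prop := ∀ a b x, T.e a (T'.e b x) = T'.e b (T.e a x)

/-- Neither equal nor commuting. -/
def Bad (T T' : TF F U W V) : Prop := ¬ Same T T' ∧ ¬ Comm T T'

/-- A subspace invariant under the first factor. -/
def Inv (T : TF F U W V) (X : Submodule F V) : Prop := ∀ a, ∀ x ∈ X, T.e a x ∈ X

theorem Same.refl (T : TF F U W V) : Same T T := ⟨1, 1, fun _ _ => rfl⟩

theorem Same.symm (h : Same T T') : Same T' T :=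
  let ⟨a, b, h⟩ := h
  ⟨a⁻¹, b⁻¹, fun v u => by simp [h]⟩

theorem Same.trans (h : Same T T') (h' : Same T' T'') : Same T T'' :=
  let ⟨a, b, h⟩ := h
  let ⟨a', b', h'⟩ := h'
  ⟨a * a', b * b', fun v u => by simp [h, h']⟩

theorem Same.smul (h : Same T T') (g : V ≃ₗ[F] V) : Same (g • T) (g • T') :=
  let ⟨a, b, h⟩ := h
  ⟨a, b, fun v u => by simp [h]⟩

theorem same_smul_iff {g : V ≃ₗ[F] V} : Same T (g • T) ↔ ∃ a b, g = T.kr a b :=
  ⟨fun ⟨a, b, h⟩ => ⟨a, b, T.eq_of_t fun v u => by simpa using h v u⟩,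
    fun ⟨a, b, h⟩ => ⟨a, b, fun v u => by simp [h]⟩⟩

theorem Same.exists_kr (h : Same T T') : ∃ a b, T' = T.kr a b • T := by
  obtain ⟨a, b, h⟩ := h
  refine ⟨a, b, ?_⟩
  obtain ⟨φ⟩ := T'
  change _ = TF.mk _
  congr 1
  exact LinearEquiv.toLinearMap_injective (TensorProduct.ext' fun v u =>
    (h v u).trans (T.kr_t a b v u).symm)

theorem Same.exists_e (h : Same T T') :
    ∃ a : U ≃ₗ[F] U, ∀ b, T'.e b = T.e (a.toLinearMap * b * (a⁻¹).toLinearMap) :=
  let ⟨a, _, h⟩ := h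
  ⟨a, fun _ => T'.ext' fun v u => by rw [TF.e_t, h, h]; simp⟩

theorem Same.exists_P (h : Same T T') :
    ∃ a : U ≃ₗ[F] U, ∀ N, T'.P N = T.P (N.map a.toLinearMap) := by
  obtain ⟨a, b, rfl⟩ := h.exists_kr
  exact ⟨a, fun N => by rw [TF.smul_P, TF.map_kr_P]⟩

theorem Same.exists_P1 (h : Same T T') {w : U} (hw : w ≠ 0) :
    ∃ v, v ≠ 0 ∧ T'.P (F ∙ w) = T.P (F ∙ v) :=
  let ⟨a, h⟩ := h.exists_P
  ⟨a w, by simpa, by rw [h, Submodule.map_span, Set.image_singleton]; rfl⟩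

theorem Comm.symm (h : Comm T T') : Comm T' T := fun a b x => (h b a x).symm

theorem Comm.smul (h : Comm T T') (g : V ≃ₗ[F] V) : Comm (g • T) (g • T') := fun a b x => by
  simp [TF.smul_e, h a b]

theorem Comm.of_same (h : Comm T' T'') (h' : Same T T') : Comm T T'' := fun a b x => by
  obtain ⟨c, hc⟩ := h'.symm.exists_e
  rw [hc, h]

theorem Bad.symm (h : Bad T T') : Bad T' T := ⟨fun h' => h.1 h'.symm, fun h' => h.2 h'.symm⟩

theorem Bad.smul (h : Bad T T') (g : V ≃ₗ[F] V) : Bad (g • T) (g • T') :=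
  ⟨fun h' => h.1 (by simpa using h'.smul g⁻¹), fun h' => h.2 (by simpa using h'.smul g⁻¹)⟩

theorem Bad.of_same (h : Bad T' T'') (h' : Same T T') : Bad T T'' :=
  ⟨fun h1 => h.1 (h'.symm.trans h1), fun h1 => h.2 (h1.of_same h'.symm)⟩

theorem not_comm_self [FiniteDimensional F U] [Nontrivial W] (h2 : 2 ≤ finrank F U) :
    ¬ Comm T T := fun h => by
  have : Nontrivial U := Module.nontrivial_of_finrank_pos (R := F) (by omega)
  obtain ⟨v, hv⟩ := exists_ne (0 : U)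
  obtain ⟨w, hw⟩ := exists_notMem (N := F ∙ v) ((finrank_span_le v).trans_lt h2)
  obtain ⟨ψ, h1, h2⟩ := exists_dual_span hw
  obtain ⟨χ, h3⟩ := exists_dual_one (F := F) hv
  obtain ⟨u, hu⟩ := exists_ne (0 : W)
  have := h (ψ.smulRight v) (χ.smulRight w) (T.t v u)
  simp [h1, h2, h3, T.t_ne_zero hv hu] at this

theorem Comm.inv [Nontrivial U] (h : Comm T T') (N : Submodule F U) : Inv T (T'.P N) := by
  intro a x hx
  obtain ⟨β, hβ⟩ := T'.exists_km_of_comm (h a)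
  rw [hβ]
  exact T'.P_le (X := (T'.P N).comap _) (fun v hv u => by simpa using T'.t_mem_P hv _) hx

theorem Inv.sup {X Y : Submodule F V} (hX : Inv T X) (hY : Inv T Y) : Inv T (X ⊔ Y) := by
  intro a x hx
  obtain ⟨y, hy, z, hz, rfl⟩ := Submodule.mem_sup.1 hx
  rw [map_add]
  exact Submodule.add_mem_sup (hX a y hy) (hY a z hz)

theorem inv_bot : Inv T ⊥ := fun a x hx => by simp [(Submodule.mem_bot F).1 hx]

theorem same_of_t [FiniteDimensional F U] [FiniteDimensional F W] [Nontrivial U] [Nontrivial W]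
    {α : W →ₗ[F] W} (h : ∀ v', ∃ v, ∀ u, T'.t v' u = T.t v (α u)) : Same T T' := by
  have hα : Function.Injective α := by
    rw [injective_iff_map_eq_zero]
    intro u hu
    obtain ⟨v', hv'⟩ := exists_ne (0 : U)
    obtain ⟨v, hv⟩ := h v'
    exact T'.t_inj hv' (by simp [hv, hu])
  obtain ⟨u₀, hu₀⟩ := exists_ne (0 : W)
  obtain ⟨χ, hχ⟩ := exists_dual_one (F := F) (show α u₀ ≠ 0 from fun e => hu₀ (hα (by simpa)))
  have h1 : ∀ v' u, T'.t v' u = T.t ((T.d χ ∘ₗ T'.t.flip u₀) v') (α u) := fun v' u => by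
    obtain ⟨v, hv⟩ := h v'
    simp [hv, hχ]
  have h2 : Function.Injective (T.d χ ∘ₗ T'.t.flip u₀) := by
    rw [injective_iff_map_eq_zero]
    intro v hv
    exact T'.t_inj' hu₀ (by rw [h1, hv]; simp)
  exact ⟨LinearEquiv.ofInjectiveEndo _ h2, LinearEquiv.ofInjectiveEndo α hα, fun v u => by
    rw [LinearEquiv.coe_ofInjectiveEndo, LinearEquiv.coe_ofInjectiveEndo, h1]⟩

theorem exists_t_eq {v w : U} (hv : v ≠ 0) (h : T'.P (F ∙ w) ≤ T.P (F ∙ v)) :
    ∃ α : W →ₗ[F] W, ∀ u, T'.t w u = T.t v (α u) := by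
  obtain ⟨ψ, hψ⟩ := exists_dual_one (F := F) hv
  refine ⟨T.c ψ ∘ₗ T'.t w, fun u => ?_⟩
  obtain ⟨u', hu'⟩ := T.mem_P1.1 (h (T'.t_mem_P1 w u))
  simp [← hu', hψ]

variable [FiniteDimensional F U]

theorem Inv.le_of_le_sup {X Y : Submodule F V} (hX : Inv T X) (hY : Inv T Y) {N : Submodule F U}
    {v : U} (hv : v ∉ N) (h : X ≤ T.P N ⊔ Y) : X ≤ Y := fun x hx => by
  obtain ⟨ψ, h1, h2⟩ := exists_dual hv
  have := end_ind (p := fun a => T.e a x ∈ Y) (by simp) (fun w χ => by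
    obtain ⟨p, hp, y, hy, e⟩ := Submodule.mem_sup.1 (h (hX (χ.smulRight v) x hx))
    have h3 : T.e (χ.smulRight w) x = T.e (ψ.smulRight w) (p + y) := by simp [e, TF.e_r, h1]
    rw [h3, map_add, TF.e_r, T.c_of_mem h2 hp, map_zero, zero_add]
    exact hY _ _ hy) (fun a b ha hb => by simpa using add_mem ha hb) 1
  simpa using this

theorem Inv.eq_bot [Nontrivial W] {X : Submodule F V} (hX : Inv T X) {N : Submodule F U}
    {ψ : Dual F U} {v : U} (hv : v ∉ N) (hψ : ψ v = 0)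
    (h : ∀ x ∈ X, T.c ψ x = 0 → x ∈ T.P N) : X = ⊥ :=
  eq_bot_iff.2 fun x hx => T.eq_zero_of_c fun χ => by
    by_contra h0
    have h1 := h _ (hX (χ.smulRight v) x hx)
    rw [TF.e_r] at h1
    exact hv (T.mem_of_t_mem h0 (h1 (by simp [hψ])))

theorem not_le_of_comm [Nontrivial W] {T₀ T₁ T₂ T₃ : TF F U W V} (h2 : 2 ≤ finrank F U)
    (h01 : Comm T₀ T₁) (h02 : Comm T₀ T₂) (h03 : Comm T₀ T₃) (h12 : Comm T₁ T₂) (h13 : Comm T₁ T₃)
    (h23 : Comm T₂ T₃) {w : U} (hw : w ≠ 0) :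
    ¬ T₃.P (F ∙ w) ≤ T₀.P (F ∙ w) ⊔ (T₁.P (F ∙ w) ⊔ T₂.P (F ∙ w)) := fun h => by
  have : Nontrivial U := ⟨w, 0, hw⟩
  obtain ⟨v, hv⟩ := exists_notMem (N := F ∙ w) ((finrank_span_le w).trans_lt h2)
  have h1 := (h03.inv _).le_of_le_sup ((h01.inv _).sup (h02.inv _)) hv h
  have h2 := (h13.inv _).le_of_le_sup (h12.inv _) hv h1
  have h3 := (h23.inv (F ∙ w)).le_of_le_sup inv_bot hv (h2.trans le_sup_left)
  obtain ⟨u, hu⟩ := exists_ne (0 : W)
  exact T₃.t_ne_zero hw hu (h3 (T₃.t_mem_P1 w u))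

variable [FiniteDimensional F W] [FiniteDimensional F V]

theorem P1_eq_of_le {v w : U} (hv : v ≠ 0) (hw : w ≠ 0) (h : T.P (F ∙ v) ≤ T'.P (F ∙ w)) :
    T.P (F ∙ v) = T'.P (F ∙ w) :=
  Submodule.eq_of_le_of_finrank_eq h (by rw [T.finrank_P1 hv, T'.finrank_P1 hw])

/-- A Kronecker product moving everything into a small subspace has a scalar factor. -/
theorem scalar_of_rank (h3 : 3 ≤ finrank F U) {a : U ≃ₗ[F] U} {b : W ≃ₗ[F] W} {X : Submodule F V}
    (h : ∀ x, T.kr a b x - x ∈ X) (hX : finrank F X ≤ finrank F W) :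
    (∃ c : F, ∀ v, a v = c • v) ∨ ∃ c : F, ∀ u, b u = c • u := by
  by_cases h1 : ∀ v, a v ∈ F ∙ v
  · exact .inl (exists_smul_of_mem (a := a.toLinearMap) h1)
  push Not at h1
  obtain ⟨v, hv⟩ := h1
  obtain ⟨χ, hχ, hχ'⟩ := exists_dual_span hv
  let f : W →ₗ[F] V := T.t (a v) ∘ₗ b.toLinearMap - T.t v
  have h2 : Function.Injective f := by
    rw [injective_iff_map_eq_zero]
    intro u hu
    simpa [f, hχ, hχ'] using congrArg (T.c χ) hu
  have h4 : LinearMap.range f = X := Submodule.eq_of_le_of_finrank_le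
    (by rintro _ ⟨u, rfl⟩; simpa [f] using h (T.t v u))
    (by rwa [LinearMap.finrank_range_of_inj h2])
  obtain ⟨ψ, h5, h6, h7⟩ := exists_dual_pair h3 v (a v)
  obtain ⟨y, hy⟩ := exists_apply_one h5
  have h8 : ∀ u, ψ (a y) • b u = u := fun u => by
    obtain ⟨u', hu'⟩ := h4.ge (h (T.t y u))
    simpa [f, h6, h7, hy, eq_comm (a := (0 : W)), sub_eq_zero] using congrArg (T.c ψ) hu'
  refine .inr ⟨(ψ (a y))⁻¹, fun u => ?_⟩
  by_cases h0 : ψ (a y) = 0
  · have : u = 0 := by rw [← h8 u, h0, zero_smul]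
    simp [this]
  · rw [eq_inv_smul_iff₀ h0, h8]

omit [FiniteDimensional F U] [FiniteDimensional F W] [FiniteDimensional F V] in
/-- A quadratic unipotent Kronecker product has a scalar factor in odd characteristic. -/
theorem scalar_of_sq (h2 : (2 : F) ≠ 0) {a : U ≃ₗ[F] U} {b : W ≃ₗ[F] W}
    (h : ∀ x, T.kr a b (T.kr a b x) - (2 : F) • T.kr a b x + x = 0) :
    (∃ c : F, ∀ v, a v = c • v) ∨ ∃ c : F, ∀ u, b u = c • u := by
  by_cases h1 : ∀ v, a v ∈ F ∙ v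
  · exact .inl (exists_smul_of_mem (a := a.toLinearMap) h1)
  push Not at h1
  obtain ⟨v, hv⟩ := h1
  obtain ⟨χ, hχ, hχ'⟩ := exists_dual_span hv
  have h3 : ∀ u, χ (a (a v)) • b u = (2 : F) • u := fun u => by
    simpa [hχ, hχ', sub_eq_zero] using congrArg (T.c χ) (h (T.t v (b⁻¹ u)))
  refine .inr ⟨2 * (χ (a (a v)))⁻¹, fun u => ?_⟩
  by_cases h0 : χ (a (a v)) = 0
  · have : u = 0 := by simpa [h0, h2] using (h3 u).symm
    simp [this]
  · rw [mul_comm, mul_smul, eq_inv_smul_iff₀ h0, h3]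

end Cfsg.Lib.TW
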