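import Cfsg.Agent.Lib.TW.Unit

/-!
# Symplectic tensor factors of dimension at least four: long and short coefficients
-/

set_option autoImplicit false
set_option linter.unusedSectionVars false

namespace Cfsg.Lib.TW

open Module Function Cfsg.Lib.Unitary Cfsg.Lib.TMax

variable {F U W V : Type*} [Field F] [AddCommGroup U] [Module F U] [AddCommGroup W] [Module F W]
  [AddCommGroup V] [Module F V] {ε' : F} {A : U →ₗ[F] U →ₗ[F] F}
  {B : V →ₗ[F] V →ₗ[F] F} {N : Subgroup (U ≃ₗ[F] U)} {M : Subgroup (V ≃ₗ[F] V)}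
  {T : TF F U W V} {ι : Type*} [DecidableEq ι] [Fintype ι] {Φ : Fam ι F U W V}

/-- A symplectic factor. -/
structure Gs (A : U →ₗ[F] U →ₗ[F] F) (N : Subgroup (U ≃ₗ[F] U)) : Prop extends Gm (-1) A N where
  alt : ∀ y, A y y = 0

theorem un_skew {σ : F →+* F} {B : V →ₛₗ[σ] V →ₗ[F] F} (hM : M ≤ UG B) {X : End F V} (h : Un M X)
    (h2 : X * X = 0) : Ad B X (-X) := fun x y => by
  obtain ⟨g, hg, h⟩ := h
  have := hM hg x (y - X y)
  rw [h, h] at this
  simp only [map_sub, show X (X y) = 0 from LinearMap.congr_fun h2 y, map_add, sub_zero,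
    LinearMap.add_apply, sub_add_cancel] at this
  rw [LinearMap.neg_apply, map_neg]
  linear_combination this

theorem Un.sub {X Y : End F V} (hX : Un M X) (hY : Un M Y) (h : X * Y = 0) (h' : Y * Y = 0) :
    Un M (X - Y) := by
  simpa [sub_eq_add_neg] using hX.add (hY.neg h') (by simp [h])

theorem Cm.rk_mul {σ : F →+* F} {A : U →ₛₗ[σ] U →ₗ[F] F} {η : End F V} (h : Cm T η) {a b c : U}
    (h0 : A b c = 0) (d : U) (η' : End F V) : T.e (rk A a b) * η * (T.e (rk A c d) * η') = 0 := by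
  rw [h.e_mul, TMax.rk_mul, h0]; simp

theorem rk_add_left (x y z : U) : rk A (x + y) z = rk A x z + rk A y z := by ext; simp

theorem rk_add_right (x y z : U) : rk A x (y + z) = rk A x y + rk A x z := by ext; simp [add_smul]

theorem rk_smul_left (c : F) (x y : U) : rk A (c • x) y = c • rk A x y := by
  simpa using rk_smul c 1 x y

theorem rk_smul_right (c : F) (x y : U) : rk A x (c • y) = c • rk A x y := by
  simpa using rk_smul (A := A) 1 c x y

/-- Long coefficients. -/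
def IsB (A : U →ₗ[F] U →ₗ[F] F) (M : Subgroup (V ≃ₗ[F] V)) (T : TF F U W V) (β : End F V) : Prop :=
  Cm T β ∧ ∀ w, Un M (T.e (rk A w w) * β)

/-- Short coefficients. -/
def IsA (A : U →ₗ[F] U →ₗ[F] F) (B : V →ₗ[F] V →ₗ[F] F) (M : Subgroup (V ≃ₗ[F] V))
    (T : TF F U W V) (η : End F V) : Prop :=
  Cm T η ∧ ∃ η', Cm T η' ∧ Ad B η η' ∧
    ∀ w s, A w s = 0 → Un M (T.e (rk A w s) * η + T.e (rk A s w) * η')

namespace Gs

variable (γ : Gs A N)
include γ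

theorem skew (x y : U) : A x y = -A y x := by simpa using γ.h.flip y x

theorem rf1 {w : U} (h : w ≠ 0) : RF (-1) A w (A w) := ⟨h, γ.alt w, 1, one_ne_zero, by simp, by simp⟩

theorem ad_rk (x y : U) : Ad A (rk A x y) (-rk A y x) := by simpa using Ad.rk γ.h x y

theorem sq_zero {η η' ζ ζ' : End F V} (h : Cm T η) (h' : Cm T η') {w s s' : U} (h1 : A w s = 0)
    (h2 : A w s' = 0) (h3 : A s s' = 0) : (T.e (rk A w s) * η + T.e (rk A s w) * η') *
      (T.e (rk A w s') * ζ + T.e (rk A s' w) * ζ') = 0 := by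
  simp only [mul_add, add_mul, h.rk_mul h3, h.rk_mul (γ.h.swap h1), h'.rk_mul h2,
    h'.rk_mul (γ.alt w), add_zero]

/-- The short coefficients as a subspace. -/
def S (B : V →ₗ[F] V →ₗ[F] F) (M : Subgroup (V ≃ₗ[F] V)) (T : TF F U W V) :
    Submodule F (End F V) where
  carrier := {η | IsA A B M T η}
  zero_mem' := ⟨fun _ => by simp, 0, fun _ => by simp, fun _ _ => by simp,
    fun _ _ _ => by simpa using Un.zero⟩
  add_mem' := fun ⟨h, η, e1, e2, e3⟩ ⟨h', η', f1, f2, f3⟩ => ⟨h.add h', _, e1.add f1, e2.add f2,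
    fun w s hw => by
      convert (e3 w s hw).add (f3 w s hw) (γ.sq_zero h e1 hw hw (γ.alt s)) using 1
      noncomm_ring⟩
  smul_mem' := fun c _ ⟨h, η, e1, e2, e3⟩ => ⟨h.smul c, _, e1.smul c, e2.smul c, fun w s hw => by
    simpa [rk_smul_left, rk_smul_right] using e3 (c • w) s (by simp [hw])⟩

variable [FiniteDimensional F U]

theorem nondeg : LinearMap.BilinForm.Nondegenerate A := ⟨γ.h.nondeg, γ.h.nondeg'⟩

theorem ug_le {K : Subgroup (U ≃ₗ[F] U)} (h : ∀ e, QE A e ≤ K) : UG A ≤ K := by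
  have hA : LinearMap.BilinForm.IsAlt A := γ.alt
  change Symp.isom A ≤ K
  rw [← Symp.closure_transvs hA γ.nondeg, Subgroup.closure_le]
  rintro _ ⟨v, c, rfl⟩
  exact h v ⟨Symp.transv_mem_isom _ v c, by rw [Symp.transv_apply, γ.alt]; simp, fun x _ => ⟨_, rfl⟩⟩

theorem move1 {x x' : U} (h : x ≠ 0) (h' : x' ≠ 0) : ∃ b ∈ N, b x = x' :=
  let ⟨b, hb, e⟩ := Symp.exists_isom_of_ne_zero γ.alt γ.nondeg h h'
  ⟨b, γ.ug_le (fun e => γ.qe e (γ.alt e)) hb, e⟩

theorem move {x y x' y' : U} (h : x ≠ 0) (h1 : y ∉ F ∙ x) (h' : x' ≠ 0) (h1' : y' ∉ F ∙ x')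
    (e : A x y = A x' y') : ∃ b ∈ N, b x = x' ∧ b y = y' :=
  let ⟨b, hb, e⟩ := Symp.exists_isom_of_pair γ.alt γ.nondeg ((LinearIndependent.pair_iff' h).2
    fun a ha => h1 (Submodule.mem_span_singleton.2 ⟨a, ha⟩)) ((LinearIndependent.pair_iff' h').2
    fun a ha => h1' (Submodule.mem_span_singleton.2 ⟨a, ha⟩)) e
  ⟨b, γ.ug_le (fun e => γ.qe e (γ.alt e)) hb, e⟩

theorem exists_perp_notMem (h : 5 ≤ finrank F U) (x y : U) :
    ∃ z, A x z = 0 ∧ A y z = 0 ∧ z ∉ (F ∙ x) ⊔ F ∙ y := by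
  obtain ⟨z, e5, e6⟩ := SetLike.not_le_iff_exists.1 (show ¬ perp A ((F ∙ x) ⊔ F ∙ y) ≤
      (F ∙ x) ⊔ F ∙ y from fun h => by
    have := Submodule.finrank_mono h
    have := γ.h.finrank_add_finrank_perp ((F ∙ x) ⊔ F ∙ y)
    have := Submodule.finrank_add_le_finrank_add_finrank (F ∙ x) (F ∙ y)
    have := finrank_span_le (F := F) x
    have := finrank_span_le (F := F) y
    omega)
  exact ⟨z, e5 x (Submodule.mem_sup_left (Submodule.mem_span_singleton_self x)),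
    e5 y (Submodule.mem_sup_right (Submodule.mem_span_singleton_self y)), e6⟩

variable (su : ∀ b ∈ N, T.kr b 1 ∈ M)
include su

theorem un_conj {b} (hb : b ∈ N) {x y x' y' z : U} {η η' ζ : End F V} (h1 : Cm T η) (h2 : Cm T η')
    (h3 : Cm T ζ) (h : Un M (T.e (rk A x y) * η + T.e (rk A x' y') * η' + T.e (rk A z z) * ζ)) :
    Un M (T.e (rk A (b x) (b y)) * η + T.e (rk A (b x') (b y')) * η' + T.e (rk A (b z) (b z)) * ζ) := by
  simpa only [TF.kr_inv, inv_one, TF.kr_coe, mul_add, add_mul, ← conj_rk (γ.le hb), map_mul,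
    mul_assoc, h1 (b⁻¹).toLinearMap, h2 (b⁻¹).toLinearMap, h3 (b⁻¹).toLinearMap]
    using h.conj (su b hb)

theorem isB_of {w : U} (h0 : w ≠ 0) {β : End F V} (h1 : Cm T β) (h : Un M (T.e (rk A w w) * β)) :
    IsB A M T β := ⟨h1, fun w' => by
  rcases eq_or_ne w' 0 with rfl | h2
  · simpa [rk] using Un.zero
  obtain ⟨b, hb, rfl⟩ := γ.move1 h0 h2
  simpa only [conj_rk (γ.le hb)] using h.conj_e h1 (su b hb)⟩

variable [Finite F]

/-- The long coefficients as a subspace. -/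
def L : Submodule F (End F V) where
  carrier := {β | IsB A M T β}
  zero_mem' := ⟨fun _ => by simp, fun _ => by simpa using Un.zero⟩
  add_mem' := fun h h' => ⟨h.1.add h'.1, fun w =>
    mul_add (T.e _) _ _ ▸ (h.2 w).add (h'.2 w) (h.1.rk_mul (γ.alt w) _ _)⟩
  smul_mem' := fun c _ h =>
    let ⟨w, h0, _⟩ := γ.exists_iso
    γ.isB_of su h0 (h.1.smul c) (smul_mem_coeffs γ.toGm su (γ.rf1 h0) ⟨h.1, h.2 w⟩ rfl).2

theorem one_L : (1 : End F V) ∈ γ.L su := ⟨cm_one, fun w => by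
  obtain ⟨b, hb, hb'⟩ := γ.h.exists_transv (c := 1) (γ.alt w) (by simp)
  simpa [rk] using (isRt_kr (ψ := A w) (by simpa using hb')).un (su b (γ.qe w (γ.alt w) hb))⟩

theorem isA_of {w s : U} (h0 : w ≠ 0) (h1 : s ∉ F ∙ w) (h2 : A w s = 0) {η η' : End F V}
    (h3 : Cm T η) (h4 : Cm T η') (h5 : Ad B η η')
    (h : Un M (T.e (rk A w s) * η + T.e (rk A s w) * η')) : η ∈ γ.S B M T := by
  have key : ∀ w' s', w' ≠ 0 → s' ∉ F ∙ w' → A w' s' = 0 →
      Un M (T.e (rk A w' s') * η + T.e (rk A s' w') * η') := fun w' s' e1 e2 e3 => by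
    obtain ⟨b, hb, rfl, rfl⟩ := γ.move h0 h1 e1 e2 (h2.trans e3.symm)
    simpa using γ.un_conj su hb (z := w) h3 h4 (fun _ => by simp : Cm T 0) (by simpa using h)
  refine ⟨h3, η', h4, h5, fun w' s' e => ?_⟩
  rcases eq_or_ne w' 0 with rfl | e1
  · simpa [rk] using Un.zero
  by_cases e2 : s' ∈ F ∙ w'
  swap
  · exact key w' s' e1 e2 e
  obtain ⟨c, rfl⟩ := Submodule.mem_span_singleton.1 e2
  have h6 := (key w (s + w) h0 (fun h => h1 (by
    simpa using sub_mem h (Submodule.mem_span_singleton_self w))) (by simp [h2, γ.alt])).sub h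
    (γ.sq_zero h3 h4 (by simp [h2, γ.alt]) h2 (by simp [h2, γ.alt])) (γ.sq_zero h3 h4 h2 h2 (γ.alt s))
  have := ((γ.L su).smul_mem c (γ.isB_of su h0 (h3.add h4) (by
    convert h6 using 1
    simp only [rk_add_left, rk_add_right, map_add]
    noncomm_ring))).2 w'
  simpa [rk_smul_left, rk_smul_right, mul_add] using this

variable [FiniteDimensional F V] (hB : EF (RingHom.id F) ε' B) (cp : Cp A B T)
  (hM : M ≤ UG B)
include hB cp hM

theorem ad_self {β : End F V} (h : β ∈ γ.L su) : Ad B β β := by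
  obtain ⟨w, h0, -⟩ := γ.exists_iso
  obtain ⟨β', h1⟩ := hB.exists_adj β
  have h2 := Ad.cm h1 γ.h hB cp h.1
  have h3 := ((Ad.e cp (γ.ad_rk w w)).mul h1).unique hB
    (un_skew hM (h.2 w) (h.1.rk_mul (γ.alt w) _ _))
  rw [map_neg, mul_neg, neg_inj, h2, ← sub_eq_zero, ← mul_sub] at h3
  rwa [sub_eq_zero.1 ((h2.sub h.1).eq_zero (r_ne_zero h0 (γ.ne (γ.rf1 h0))) h3)] at h1

theorem B_le {β : End F V} (h : β ∈ γ.L su) : β ∈ γ.S B M T :=
  ⟨h.1, β, h.1, γ.ad_self su hB cp hM h, fun w s e => by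
    convert ((h.2 (w + s)).sub (h.2 w) (h.1.rk_mul (by simp [γ.alt, γ.h.swap e]) _ _)
      (h.1.rk_mul (γ.alt w) _ _)).sub (h.2 s) (by
        rw [sub_mul, h.1.rk_mul e, h.1.rk_mul (by simp [γ.alt, e]), sub_zero])
      (h.1.rk_mul (γ.alt s) _ _) using 1
    simp only [rk_add_left, rk_add_right, map_add]
    noncomm_ring⟩

omit cp hM in
theorem add_ad {η η' : End F V} (h : η ∈ γ.S B M T) (h' : Ad B η η') : η + η' ∈ γ.L su := by
  obtain ⟨h1, η'', h2, h3, h4⟩ := h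
  rw [h'.unique hB h3]
  exact ⟨h1.add h2, fun w => mul_add (T.e _) _ _ ▸ h4 w w (γ.alt w)⟩

variable (hK : (2 : F) ≠ 0 ∨ 5 ≤ finrank F U)
include hK

omit hB cp hM in
theorem sep {w s : U} (h0 : w ≠ 0) (h1 : s ∉ F ∙ w) (h2 : A w s = 0) {η η' ζ : End F V}
    (h3 : Cm T η) (h4 : Cm T η') (h5 : Ad B η η') (h6 : Cm T ζ)
    (h : Un M (T.e (rk A w s) * η + T.e (rk A s w) * η' + T.e (rk A w w) * ζ)) :
    η ∈ γ.S B M T := by
  obtain ⟨z, e1, e2, e3, e4⟩ : ∃ z, A w z = 0 ∧ A s z = 0 ∧ z ∉ F ∙ w ∧ s + z ∉ F ∙ w := by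
    rcases hK with hK | hK
    · exact ⟨s, h2, γ.alt s, h1, by rwa [← two_smul F, Submodule.smul_mem_iff _ hK]⟩
    obtain ⟨z, e1, e2, e3⟩ := γ.exists_perp_notMem hK w s
    exact ⟨z, e1, e2, fun h => e3 (Submodule.mem_sup_left h), fun h => e3 (by
      simpa using sub_mem (Submodule.mem_sup_left h)
        (Submodule.mem_sup_right (Submodule.mem_span_singleton_self s)))⟩
  obtain ⟨b, hb, e5, e6⟩ := γ.move h0 h1 h0 e4 (by simp [h2, e1])
  have h7 := γ.un_conj su hb h3 h4 h6 h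
  rw [e5, e6] at h7
  have h8 : ∀ s', A w s' = 0 → A s' s = 0 → (T.e (rk A w s') * η + T.e (rk A s' w) * η' +
      T.e (rk A w w) * ζ) * (T.e (rk A w s) * η + T.e (rk A s w) * η' + T.e (rk A w w) * ζ) = 0 :=
    fun s' f1 f2 => by
      simp only [mul_add, add_mul, h3.rk_mul f2, h3.rk_mul (γ.h.swap f1), h4.rk_mul h2,
        h4.rk_mul (γ.alt w), h6.rk_mul h2, h6.rk_mul (γ.alt w), add_zero]
  refine γ.isA_of su h0 e3 e1 h3 h4 h5 ?_
  convert h7.sub h (h8 _ (by simp [h2, e1]) (by simp [γ.alt, γ.h.swap e2])) (h8 s h2 (γ.alt s))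
    using 1
  simp only [rk_add_left, rk_add_right, map_add]
  noncomm_ring

theorem key {w s : U} (h0 : w ≠ 0) (h1 : s ∉ F ∙ w) (h2 : A w s = 0) {g} (hg : g ∈ M)
    {H H' β : End F V} (h3 : Cm T H) (h4 : Ad B H H') (hβ : β ∈ γ.L su)
    (h : ∀ z, g.toLinearMap * T.e (rk A s z) = T.e (rk A s z) + T.e (rk A w z) * H) :
    H * β ∈ γ.S B M T ∧ H * β * H' ∈ γ.L su := by
  have h5 := h4.cm γ.h hB cp h3
  obtain ⟨z, hz⟩ := γ.h.exists_eq_one h0
  have h6 := (hβ.2 s).conj hg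
  have h7 : ∀ x y, T.e (rk A x w) * T.e (rk A z y) = T.e (rk A x y) := fun x y => by
    rw [← map_mul, TMax.rk_mul, hz, one_smul]
  have h8 : g.toLinearMap * (T.e (rk A s s) * β) * (g⁻¹).toLinearMap =
      (T.e (rk A w s) * (H * β) + T.e (rk A s w) * (β * H') + T.e (rk A w w) * (H * β * H')) +
        T.e (rk A s s) * β := by
    rw [← h7 s s, mul_assoc _ _ β, ← hβ.1, ← mul_assoc, ← mul_assoc, h, mul_assoc,
      right_of_left γ.toGm hB cp (hM hg) h4 h]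
    simp only [mul_add, add_mul, ← mul_assoc, hβ.1 _, h5 _]
    simp only [mul_assoc, hβ.1 _, h5 _, h3 _, (h3.mul hβ.1) _]
    simp only [← mul_assoc, hβ.1 _, h5 _, h3 _, h7]
    abel
  have h9 := (h8 ▸ h6).sub (hβ.2 s) (by
    simp only [add_mul, (h3.mul hβ.1).rk_mul (γ.alt s), (hβ.1.mul h5).rk_mul h2,
      ((h3.mul hβ.1).mul h5).rk_mul h2, hβ.1.rk_mul (γ.alt s), add_zero]) (hβ.1.rk_mul (γ.alt s) _ _)
  rw [add_sub_cancel_right] at h9
  have h10 := h4.mul (γ.ad_self su hB cp hM hβ)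
  have h11 := γ.sep su hK h0 h1 h2 (h3.mul hβ.1) (hβ.1.mul h5) h10 ((h3.mul hβ.1).mul h5) h9
  refine ⟨h11, γ.isB_of su h0 ((h3.mul hβ.1).mul h5) ?_⟩
  obtain ⟨-, η, e1, e2, e3⟩ := h11
  obtain rfl := h10.unique hB e2
  simpa using h9.sub (e3 w s h2) (by
    rw [add_mul, γ.sq_zero (h3.mul hβ.1) e1 h2 h2 (γ.alt s), mul_add,
      ((h3.mul hβ.1).mul h5).rk_mul (γ.alt w), ((h3.mul hβ.1).mul h5).rk_mul h2]; simp)
    (γ.sq_zero (h3.mul hβ.1) e1 h2 h2 (γ.alt s))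

variable (hn : 4 ≤ finrank F U)
include hn

theorem mul_L {η η' β : End F V} (h : η ∈ γ.S B M T) (h' : Ad B η η') (hβ : β ∈ γ.L su) :
    η * β ∈ γ.S B M T ∧ η * β * η' ∈ γ.L su := by
  obtain ⟨w, h0, -⟩ := γ.exists_iso
  obtain ⟨s, -, h1, h2⟩ := γ.exists_line hn h0
  obtain ⟨z, h3, h4⟩ := γ.h.exists_perp_one h2 1
  obtain ⟨h5, η'', h6, h7, h8⟩ := h
  obtain ⟨g, hg, e⟩ := h8 w z h3
  refine γ.key su hB cp hM hK h0 h2 h1 hg h5 h' hβ fun y => ?_
  rw [show g.toLinearMap = 1 + _ from LinearMap.ext e, add_mul, add_mul, mul_assoc, mul_assoc, h5,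
    h6, ← mul_assoc, ← mul_assoc, ← map_mul, ← map_mul, TMax.rk_mul, TMax.rk_mul, h4, h1]
  simp

theorem polar {η η' ζ ζ' : End F V} (h : η ∈ γ.S B M T) (h' : Ad B η η') (k : ζ ∈ γ.S B M T)
    (k' : Ad B ζ ζ') : η * ζ' + ζ * η' ∈ γ.L su := by
  have := fun {η η'} h h' => (γ.mul_L su hB cp hM hK hn (η := η) (η' := η') h h' (γ.one_L su)).2
  convert sub_mem (sub_mem (this (add_mem h k) (h'.add k')) (this h h')) (this k k') using 1
  noncomm_ring

theorem mul_pow_mem (n : ℕ) {β : End F V} (hβ : β ∈ γ.L su ^ n) {η} (h : η ∈ γ.S B M T) :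
    η * β ∈ γ.S B M T := by
  induction hβ using Submodule.pow_induction_on_right' with
  | algebraMap r => simpa [Algebra.algebraMap_eq_smul_one] using Submodule.smul_mem _ r h
  | add x y _ _ _ h1 h2 => exact mul_add η x y ▸ add_mem h1 h2
  | mul_mem _ x _ h1 m hm =>
    obtain ⟨η', h2⟩ := hB.exists_adj (η * x)
    exact mul_assoc η x m ▸ (γ.mul_L su hB cp hM hK hn h1 h2 hm).1

omit hn in
theorem good (h : ∀ η ∈ γ.S B M T, ∃ c : F, η = c • 1) : GoodF A B N M T := by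
  refine ⟨cp, su, fun w h0 hw g hg h1 h2 => rad_of_scalar γ.toGm su hB cp h0 hw hM hg h1
    (fun a ha => ?_) fun β h3 h4 => h β (γ.B_le su hB cp hM (γ.isB_of su h0 h3 h4))⟩
  by_cases h3 : a ∈ F ∙ w
  · exact ⟨0, fun u => by simpa using h1 _ (T.t_mem_P h3 u)⟩
  obtain ⟨H, h4, h5⟩ := exists_left h0 h2 ha
  obtain ⟨H', h6⟩ := hB.exists_adj H
  obtain ⟨c, hc⟩ := h _ (γ.key su hB cp hM hK h0 h3 ha hg h4 h6 (γ.one_L su) h5).1
  obtain ⟨f, hf⟩ := γ.h.exists_eq_one h0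
  rw [mul_one] at hc
  exact ⟨c, fun u => by simpa [hf, hc] using LinearMap.congr_fun (h5 w) (T.t f u)⟩

end Gs

end Cfsg.Lib.TW
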