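import Cfsg.Agent.Lib.TW.SpA

/-!
# Symplectic tensor factors of dimension at least four: invariant subspaces of coefficients
-/

set_option autoImplicit false
set_option linter.unusedSectionVars false

namespace Cfsg.Lib.TW

open Module Function Cfsg.Lib.Unitary Cfsg.Lib.TMax
open scoped commutatorElement

variable {F U W V : Type*} [Field F] [AddCommGroup U] [Module F U] [AddCommGroup W] [Module F W]
  [AddCommGroup V] [Module F V] {ε' : F} {A : U →ₗ[F] U →ₗ[F] F}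
  {B : V →ₗ[F] V →ₗ[F] F} {N : Subgroup (U ≃ₗ[F] U)} {M : Subgroup (V ≃ₗ[F] V)}
  {T : TF F U W V} {ι : Type*} [DecidableEq ι] [Fintype ι] {Φ : Fam ι F U W V}

/-- Short root directions. -/
def ph (A : U →ₗ[F] U →ₗ[F] F) (x y : U) : End F U := rk A x y - rk A y x

/-- The long root elements. -/
def TyN (A : U →ₗ[F] U →ₗ[F] F) : Set (End F U) := {a | ∃ x, a = rk A x x}

/-- The self-adjoint square zero elements. -/
def TyP (A : U →ₗ[F] U →ₗ[F] F) : Set (End F U) := {a | ∃ x y, A x y = 0 ∧ a = ph A x y}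

theorem Cm.eq_zero_of_sq {γ : End F V} (h : Cm T γ) {a : End F U} (ha : a ≠ 0) (h2 : a * a = 0)
    {c : F} (e : T.e a * γ = c • 1) : γ = 0 := by
  have := (cm_one.smul c).eq_zero ha (by rw [← e, ← mul_assoc, ← map_mul, h2]; simp)
  exact h.eq_zero ha (e.trans this)

theorem not_cm_e [Nontrivial V] {a b : End F U} (ha : a ≠ 0) (hb : b ≠ 0) (h : b * a = 0) :
    ¬ Cm T (T.e a) := fun h1 =>
  one_ne_zero (cm_one.eq_zero ha (by simpa using h1.eq_zero hb (by rw [← map_mul, h, map_zero])))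

theorem Fam.IsPerm.conj_e {s g} (h : Φ.IsPerm s g) (i : ι) (a : End F U) :
    g.toLinearMap * (Φ.T i).e a * (g⁻¹).toLinearMap = (Φ.T (s i)).e a := by
  rw [← Φ.single, h, ← Φ.single]
  congr 1
  funext k
  rcases eq_or_ne k (s i) with rfl | hk
  · simp
  · rw [Pi.mulSingle_eq_of_ne hk, comp_apply, Pi.mulSingle_eq_of_ne]
    rintro rfl; simp at hk

/-- Mixed elements in the slots `j` and `i`. -/
def Fam.Mx (Φ : Fam ι F U W V) (A : U →ₗ[F] U →ₗ[F] F) (M : Subgroup (V ≃ₗ[F] V)) (j i : ι) : Prop :=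
  ∀ w x y, A x y = 0 → Un M ((Φ.T j).e (rk A w w) * (Φ.T i).e (ph A x y))

theorem Fam.Mx.perm {j i : ι} (h : Φ.Mx A M j i) {s g} (hg : g ∈ M) (e : Φ.IsPerm s g) :
    Φ.Mx A M (s j) (s i) := fun w x y h0 => by
  convert (h w x y h0).conj hg using 1
  rw [← e.conj_e, ← e.conj_e]
  exact LinearMap.ext fun v => by simp

theorem e_mem_pow {τ : Set (End F U)} (hτ : Submodule.span F τ ^ 4 = ⊤) {S Γ : Submodule F (End F V)}
    (h1 : ∀ β ∈ Γ, Cm T β) (h2 : ∀ a ∈ τ, ∀ β ∈ Γ, T.e a * β ∈ S) (h3 : 1 ∈ Γ ^ 4) (a : End F U) :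
    T.e a ∈ S ^ 4 := by
  have h4 : (Submodule.span F τ).map T.e.toLinearMap * Γ ≤ S := by
    rw [Submodule.map_span, Submodule.mul_le]
    intro x hx β hβ
    induction hx using Submodule.span_induction with
    | mem x hx => obtain ⟨a, ha, rfl⟩ := hx; exact h2 a ha β hβ
    | zero => simp
    | add x y _ _ h h' => exact add_mul x y β ▸ add_mem h h'
    | smul c x _ h => exact smul_mul_assoc c x β ▸ S.smul_mem c h
  have h5 : Commute ((Submodule.span F τ).map T.e.toLinearMap) Γ :=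
    le_antisymm (Submodule.mul_le.2 fun _ ⟨a, ha, e⟩ β hβ => by
      rw [← e, AlgHom.toLinearMap_apply, ← h1 β hβ]
      exact Submodule.mul_mem_mul hβ ⟨a, ha, rfl⟩) (Submodule.mul_le.2 fun β hβ _ ⟨a, ha, e⟩ => by
      rw [← e, AlgHom.toLinearMap_apply, h1 β hβ]
      exact Submodule.mul_mem_mul ⟨a, ha, rfl⟩ hβ)
  refine pow_le_pow_left' h4 4 ?_
  rw [h5.mul_pow, ← Submodule.map_pow, hτ, ← mul_one (T.e a)]
  exact Submodule.mul_mem_mul ⟨a, trivial, rfl⟩ h3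

namespace Gs

variable (γ : Gs A N)
include γ

theorem rk_ne {x : U} (h : x ≠ 0) : rk A x x ≠ 0 := r_ne_zero h (γ.ne (γ.rf1 h))

theorem ad_ph (x y : U) : Ad A (ph A x y) (ph A x y) := by
  simpa [ph, sub_eq_add_neg, add_comm] using (γ.ad_rk x y).sub (γ.ad_rk y x)

theorem ph_mul {x y z : U} (h1 : A x y = 0) (h2 : A x z = 0) :
    ph A x y * ph A x z = -A y z • rk A x x := by
  simp [ph, mul_sub, sub_mul, TMax.rk_mul, γ.h.swap h1, h2, γ.alt]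

variable [FiniteDimensional F U]

theorem ph_ne {x y : U} (h0 : x ≠ 0) (h1 : y ∉ F ∙ x) : ph A x y ≠ 0 := fun h => by
  obtain ⟨z, h2, h3⟩ := γ.h.exists_perp_one h1 1
  have := LinearMap.congr_fun h z
  simp [ph, h2, γ.skew y z, h3, h0] at this

theorem tyN_sq : Submodule.span F (TyN A) ^ 2 = ⊤ := by
  refine eq_top_iff.2 fun a _ => end_ind (p := (· ∈ _)) (zero_mem _) (fun w ψ => ?_)
    (fun _ _ => add_mem) a
  obtain ⟨y, rfl⟩ := γ.h.exists_eq ψ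
  have h1 : ∀ y, A w y ≠ 0 → rk A w y ∈ Submodule.span F (TyN A) ^ 2 := fun y hy => by
    have := Submodule.mul_mem_mul (Submodule.subset_span (R := F) (s := TyN A) ⟨w, rfl⟩)
      (Submodule.subset_span (R := F) (s := TyN A) ⟨y, rfl⟩)
    rwa [TMax.rk_mul, Submodule.smul_mem_iff _ hy, ← sq] at this
  rcases eq_or_ne w 0 with rfl | h0
  · simp
  obtain ⟨f, hf⟩ := γ.h.exists_eq_one h0
  change rk A w y ∈ _
  by_cases h : A w y = 0
  · simpa [rk_add_right] using sub_mem (h1 (y + f) (by simp [h, hf])) (h1 f (by simp [hf]))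
  · exact h1 y h

theorem tyN_pow : Submodule.span F (TyN A) ^ 4 = ⊤ := by
  rw [show 4 = 2 * 2 from rfl, pow_mul, γ.tyN_sq, sq]
  exact eq_top_iff.2 fun a _ => mul_one a ▸ Submodule.mul_mem_mul trivial trivial

variable (hn : 4 ≤ finrank F U)
include hn

theorem exists_pair {x : U} (h0 : x ≠ 0) : ∃ y z, A x y = 0 ∧ A x z = 0 ∧ y ∉ F ∙ x ∧ A z y = 1 :=
  let ⟨y, _, h1, h2⟩ := γ.exists_line hn h0
  let ⟨z, h3, h4⟩ := γ.h.exists_perp_one h2 1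
  ⟨y, z, h1, h3, h2, h4⟩

theorem tyP_pow : Submodule.span F (TyP A) ^ 4 = ⊤ := by
  rw [show 4 = 2 * 2 from rfl, pow_mul, eq_top_iff, ← γ.tyN_sq]
  refine pow_le_pow_left' (Submodule.span_le.2 ?_) 2
  rintro _ ⟨x, rfl⟩
  rcases eq_or_ne x 0 with rfl | h0
  · simp [rk]
  obtain ⟨y, z, h1, h2, -, h3⟩ := γ.exists_pair hn h0
  have := Submodule.mul_mem_mul (Submodule.subset_span (R := F) (s := TyP A) ⟨x, y, h1, rfl⟩)
    (Submodule.subset_span (R := F) (s := TyP A) ⟨x, z, h2, rfl⟩)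
  rwa [γ.ph_mul h1 h2, ← γ.skew, h3, one_smul, ← sq] at this

theorem cm_of_coef {β : End F V}
    (h : ∀ x y, x ≠ 0 → A x y = 0 → y ∉ F ∙ x → T.coef (A y) x β = 0) : Cm T β := by
  refine cm_of_scalar fun χ u => exists_smul_of_mem (a := T.d χ ∘ₗ β ∘ₗ T.t.flip u) fun x => ?_
  rcases eq_or_ne x 0 with rfl | h0
  · simp
  have h1 : ∀ y, A x y = 0 → y ∉ F ∙ x → A y (T.d χ (β (T.t x u))) = 0 := fun y h1 h2 => by
    have := LinearMap.congr_fun (h x y h0 h1 h2) (T.t x u)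
    have h4 : T.c (A y) (β (T.t x u)) = 0 := T.t_inj h0 (by simpa [TF.coef] using this)
    simp [TF.apply_d, h4]
  refine γ.h.mem_of_perp fun s hs => ?_
  have h2 := mem_perp_singleton.1 hs
  by_cases h3 : s ∈ F ∙ x
  swap
  · exact h1 s h2 h3
  obtain ⟨y, -, h4, h5⟩ := γ.exists_line hn h0
  simpa [h1 y h4 h5] using h1 (s + y) (by simp [h2, h4]) fun h => h5 (by simpa using sub_mem h h3)

theorem extract₀ {S : AddSubgroup (End F V)} (hS : Cl T N S) {β} (hβ : β ∈ S) (h : ¬ Cm T β) :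
    ∃ τ, (τ = TyN A ∨ τ = TyP A) ∧ ∃ δ, δ ≠ 0 ∧ Cm T δ ∧
      (∀ Y, Cm T Y → β * Y = Y * β → δ * Y = Y * δ) ∧ ∀ a ∈ τ, T.e a * δ ∈ S := by
  have := γ.nontrivial
  have := mt (γ.cm_of_coef hn) h
  push Not at this
  obtain ⟨x, y, h0, h1, h2, h3⟩ := this
  have h4 := hS.two γ.toGm (γ.alt x) (γ.alt y) h1 (c := 1) (by simp) hβ
  simp only [mul_one, one_smul] at h4
  have c1 := T.cm_coef (A y) x β
  have c2 := T.cm_coef (A x) y β
  by_cases h5 : T.coef (A y) x β + T.coef (A x) y β = 0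
  · refine ⟨_, .inr rfl, _, h3, c1, fun Y hY e => hY.coef_comm e _ _, ?_⟩
    rintro _ ⟨y', x', e, rfl⟩
    rcases eq_or_ne x' 0 with rfl | e1
    · simp [ph, rk]
    by_cases e2 : y' ∈ F ∙ x'
    · obtain ⟨c, rfl⟩ := Submodule.mem_span_singleton.1 e2
      simp [ph, rk_smul_left, rk_smul_right]
    obtain ⟨b, hb, rfl, rfl⟩ := γ.move h0 h2 e1 e2 (h1.trans (γ.h.swap e).symm)
    simpa [ph, add_mul, sub_eq_add_neg, eq_neg_of_add_eq_zero_right h5] using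
      hS.conj hb (γ.le hb) c1 c2 h4
  refine ⟨_, .inl rfl, _, h5, c1.add c2, fun Y hY e => by
    rw [add_mul, mul_add, hY.coef_comm e, hY.coef_comm e], ?_⟩
  rintro _ ⟨x', rfl⟩
  rcases eq_or_ne x' 0 with rfl | e1
  · simp [rk]
  obtain ⟨b, hb, rfl⟩ := γ.move1 h0 e1
  simpa using hS.conj hb (γ.le hb) (x' := x) (y' := x) (c1.add c2) (fun _ => by simp : Cm T 0)
    (by simpa using hS.long γ.toGm (γ.alt x) h1 h2 c1 c2 h4 1)

/-- Invariant under the slots in `K`, trivial in the other slots. -/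
def _root_.Cfsg.Lib.TW.Fam.Inv (Φ : Fam ι F U W V) (N : Subgroup (U ≃ₗ[F] U)) (K : Finset ι)
    (S : Submodule F (End F V)) : Prop :=
  (∀ i ∈ K, Cl (Φ.T i) N S.toAddSubgroup) ∧ ∀ i ∉ K, ∀ β ∈ S, Cm (Φ.T i) β

theorem extract {K : Finset ι} {S} (hS : Φ.Inv N K S) {i : ι} {β} (hβ : β ∈ S)
    (h : ¬ Cm (Φ.T i) β) : ∃ τ, (τ = TyN A ∨ τ = TyP A) ∧ ∃ Γ, Γ ≠ ⊥ ∧ Φ.Inv N (K.erase i) Γ ∧
      ∀ a ∈ τ, ∀ δ ∈ Γ, (Φ.T i).e a * δ ∈ S := by
  have hi : i ∈ K := by_contra fun hi => h (hS.2 i hi β hβ)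
  obtain ⟨τ, hτ, δ, h0, h1, h2, h3⟩ := γ.extract₀ hn (hS.1 i hi) hβ h
  refine ⟨τ, hτ,
    { carrier := {δ | (∀ k ∉ K.erase i, Cm (Φ.T k) δ) ∧ ∀ a ∈ τ, (Φ.T i).e a * δ ∈ S}
      zero_mem' := ⟨fun _ _ _ => by simp, by simp⟩
      add_mem' := fun h h' => ⟨fun k hk => (h.1 k hk).add (h'.1 k hk), fun a ha =>
        mul_add ((Φ.T i).e a) _ _ ▸ add_mem (h.2 a ha) (h'.2 a ha)⟩
      smul_mem' := fun c _ h => ⟨fun k hk => (h.1 k hk).smul c, fun a ha =>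
        mul_smul_comm c ((Φ.T i).e a) _ ▸ S.smul_mem c (h.2 a ha)⟩ },
    fun h => h0 (h.le (show δ ∈ _ from ⟨fun k hk => ?_, h3⟩)), ⟨fun k hk b hb ζ hζ => ⟨fun l hl => ?_,
      fun a ha => ?_⟩, fun k hk ζ hζ => hζ.1 k hk⟩, fun a ha ζ hζ => hζ.2 a ha⟩
  · rcases eq_or_ne k i with rfl | e
    · exact h1
    · exact fun a => h2 _ (Φ.cm_e e.symm a) (hS.2 k (by simpa [e] using hk) β hβ a)
  · have e : l ≠ k := fun e => hl (e ▸ hk)
    exact ((Φ.cm_e e _).mul (hζ.1 l hl)).mul (Φ.cm_e e _)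
  · have := hS.1 k (Finset.mem_of_mem_erase hk) b hb _ (hζ.2 a ha)
    rwa [← mul_assoc, Φ.cm_e (Finset.ne_of_mem_erase hk).symm, mul_assoc, mul_assoc, ← mul_assoc _ ζ]
      at this

theorem ty_pow {τ} (h : τ = TyN A ∨ τ = TyP A) : Submodule.span F τ ^ 4 = ⊤ := by
  rcases h with rfl | rfl
  exacts [γ.tyN_pow, γ.tyP_pow hn]

theorem one_mem_pow (K : Finset ι) : ∀ S, Φ.Inv N K S → S ≠ ⊥ → 1 ∈ S ^ 4 := by
  induction K using Finset.strongInduction with | _ K ih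
  intro S hS h0
  obtain ⟨β, hβ, h1⟩ := Submodule.exists_mem_ne_zero_of_ne_bot h0
  by_cases h : ∀ i, Cm (Φ.T i) β
  · obtain ⟨c, rfl⟩ := Φ.cen β h
    simpa using Submodule.pow_mem_pow S ((S.smul_mem_iff fun h => h1 (by simp [h])).1 hβ) 4
  obtain ⟨i, hi⟩ := not_forall.1 h
  obtain ⟨τ, hτ, Γ, h2, h3, h4⟩ := γ.extract hn hS hβ hi
  simpa using e_mem_pow (γ.ty_pow hn hτ) (h3.2 i (by simp)) h4 (ih _ (Finset.erase_ssubset
    (by_contra fun h => hi (hS.2 i h β hβ))) Γ h3 h2) 1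

theorem e_mem_pow {K : Finset ι} {S} (hS : Φ.Inv N K S) {i : ι} {β} (hβ : β ∈ S)
    (h : ¬ Cm (Φ.T i) β) (a : End F U) : (Φ.T i).e a ∈ S ^ 4 :=
  let ⟨_, hτ, Γ, h2, h3, h4⟩ := γ.extract hn hS hβ h
  TW.e_mem_pow (γ.ty_pow hn hτ) (h3.2 i (by simp)) h4 (γ.one_mem_pow hn _ Γ h3 h2) a

variable [FiniteDimensional F V] [Finite F] (su : ∀ i, ∀ b ∈ N, (Φ.T i).kr b 1 ∈ M)

omit hn in
theorem inv_L (j : ι) : Φ.Inv N (Finset.univ.erase j) (γ.L (su j)) :=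
  ⟨fun i hi b hb β hβ =>
    have h := fun w => cl_coeffs (Finset.ne_of_mem_erase hi) (su i) (r_sq (γ.alt w)) b hb β
      ⟨hβ.1, hβ.2 w⟩
    ⟨(h 0).1, fun w => (h w).2⟩, fun i hi β hβ => by
      obtain rfl : i = j := by simpa using hi
      exact hβ.1⟩

include su in
omit hn in
theorem inv_S (cp : ∀ i, Cp A B (Φ.T i)) (j : ι) :
    Φ.Inv N (Finset.univ.erase j) (γ.S B M (Φ.T j)) := by
  refine ⟨fun i hi b hb η ⟨h1, η', h2, h3, h4⟩ => ?_, fun i hi β hβ => by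
    obtain rfl : i = j := by simpa using hi
    exact hβ.1⟩
  have e := Φ.cm_e (Finset.ne_of_mem_erase hi).symm
  refine ⟨((e _).mul h1).mul (e _), _, ((e b.toLinearMap).mul h2).mul (e (b⁻¹).toLinearMap),
    mul_assoc ((Φ.T i).e _) η' _ ▸ ((Ad.e (cp i) (.of_UG (γ.le hb))).mul h3).mul
      (Ad.e (cp i) (.of_UG (inv_mem (γ.le hb)))), fun w s h => ?_⟩
  simpa only [TF.kr_inv, inv_one, TF.kr_coe, mul_add, add_mul, ← mul_assoc, e _ _] using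
    (h4 w s h).conj (su i b hb)

variable (hB : EF (RingHom.id F) ε' B) (cp : ∀ i, Cp A B (Φ.T i)) (hM : M ≤ UG B)
  (hK : (2 : F) ≠ 0 ∨ 5 ≤ finrank F U)
include hB cp hM hK

theorem scalar_of_L {j : ι} (hL : ∀ β ∈ γ.L (su j), ∃ c : F, β = c • 1) {η}
    (hη : η ∈ γ.S B M (Φ.T j)) : ∃ c : F, η = c • 1 := by
  refine Φ.cen η fun i => by_contra fun h => ?_
  obtain ⟨τ, hτ, Γ, h0, hΓ, h1⟩ := γ.extract hn (γ.inv_S su cp j) hη h
  have c1 := hΓ.2 i (by simp)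
  choose ad had using hB.exists_adj
  have c2 := fun δ hδ => Ad.cm (had δ) γ.h hB (cp i) (c1 δ hδ)
  have key : ∀ a ∈ τ, ∀ b ∈ τ, ∀ a' b', Ad A a a' → Ad A b b' → ∀ δ ∈ Γ, ∀ ζ ∈ Γ, ∃ c : F,
      (Φ.T i).e (a * b') * (δ * ad ζ) + (Φ.T i).e (b * a') * (ζ * ad δ) = c • 1 :=
    fun a ha b hb a' b' e1 e2 δ hδ ζ hζ => by
      simpa only [c2 _ hδ _, c2 _ hζ _, (c1 _ hδ).e_mul, (c1 _ hζ).e_mul] using
        hL _ (γ.polar (su j) hB (cp j) hM hK hn (h1 a ha δ hδ) ((Ad.e (cp i) e1).mul (had δ))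
          (h1 b hb ζ hζ) ((Ad.e (cp i) e2).mul (had ζ)))
  obtain ⟨x, hx, -⟩ := γ.exists_iso
  obtain ⟨ζ, hζ, hζ0⟩ := Submodule.exists_mem_ne_zero_of_ne_bot h0
  rcases hτ with rfl | rfl
  · obtain ⟨y, hy⟩ := γ.h.exists_eq_one hx
    obtain ⟨z, e1, -, e2, e3⟩ := γ.exists_iso_perp hn x y
    have h2 : ∀ δ ∈ Γ, δ * ad ζ = 0 := fun δ hδ => by
      obtain ⟨c, hc⟩ := key _ ⟨x, rfl⟩ _ ⟨y, rfl⟩ _ _ (γ.ad_rk x x) (γ.ad_rk y y) δ hδ ζ hζ
      have h3 := ((cm_one (T := Φ.T i)).smul c).eq_zero (γ.rk_ne e1) (by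
        rw [← hc]
        simp [mul_add, ← mul_assoc, ← map_mul, TMax.rk_mul, γ.h.swap e2, γ.h.swap e3])
      refine ((c1 δ hδ).mul (c2 ζ hζ)).eq_zero (γ.rk_ne (x := y) fun h => by simp [h] at hy) ?_
      simpa [h3, mul_add, ← mul_assoc, ← map_mul, TMax.rk_mul, γ.alt, γ.skew y x, hy] using
        congrArg ((Φ.T i).e (rk A y y) * ·) hc
    have h3 : ∀ X ∈ Γ ^ 3 * Γ, X * ad ζ = 0 := fun X hX => Submodule.mul_induction_on hX
      (fun _ _ δ hδ => by rw [mul_assoc, h2 δ hδ, mul_zero]) fun _ _ h h' => by simp [add_mul, h, h']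
    have h4 := h3 1 (pow_succ Γ 3 ▸ γ.one_mem_pow hn _ Γ hΓ h0)
    exact hζ0 (LinearMap.ext fun v => hB.nondeg _ fun v' => by simp [had, one_mul (ad ζ) ▸ h4])
  obtain ⟨y, z, e1, e2, e3, e4⟩ := γ.exists_pair hn hx
  have h2 : ∀ δ ∈ Γ, ad δ = -δ := fun δ hδ => by
    obtain ⟨c, hc⟩ := hL _ (γ.add_ad (su j) hB (h1 _ ⟨x, y, e1, rfl⟩ δ hδ)
      ((Ad.e (cp i) (γ.ad_ph x y)).mul (had δ)))
    exact eq_neg_of_add_eq_zero_right (((c1 δ hδ).add (c2 δ hδ)).eq_zero_of_sq (γ.ph_ne hx e3)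
      (by simp [γ.ph_mul e1 e1, γ.alt]) (by rw [← hc, c2 δ hδ, mul_add]))
  have h3 : ∀ δ ∈ Γ, δ * ζ = ζ * δ := fun δ hδ => by
    obtain ⟨c, hc⟩ := key _ ⟨x, y, e1, rfl⟩ _ ⟨x, z, e2, rfl⟩ _ _ (γ.ad_ph x y) (γ.ad_ph x z) δ hδ ζ hζ
    refine (sub_eq_zero.1 ((((c1 ζ hζ).mul (c1 δ hδ)).sub ((c1 δ hδ).mul (c1 ζ hζ))).eq_zero_of_sq
      (γ.rk_ne hx) (r_sq (γ.alt x)) (c := c) ?_)).symm
    simp [← hc, γ.ph_mul e1 e2, γ.ph_mul e2 e1, h2 δ hδ, h2 ζ hζ, γ.skew y z, e4, mul_add,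
      sub_eq_add_neg, add_comm]
  obtain ⟨c, rfl⟩ := Φ.cen ζ fun k => by_contra fun hk => hk fun a =>
    Submodule.pow_induction_on_right Γ (C := fun X => ζ * X = X * ζ)
      (fun r => (Algebra.commutes r ζ).symm) (fun x y h h' => by rw [mul_add, add_mul, h, h'])
      (fun x h m hm => by rw [← mul_assoc, h, mul_assoc, mul_assoc, h3 m hm])
      (γ.e_mem_pow hn hΓ hζ hk a)
  have h4 : ad (c • 1) = c • 1 := Ad.unique (had _) hB (Ad.one.smul c)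
  have hc : c ≠ 0 := fun h => hζ0 (by simp [h])
  rcases hK with hK | hK
  · exact hζ0 ((smul_eq_zero.1 (show (2 : F) • c • (1 : End F V) = 0 by
      rw [two_smul]; nth_rw 1 [← h4]; rw [h2 _ hζ, neg_add_cancel])).resolve_left hK)
  obtain ⟨v, f1, f2, f3⟩ := γ.exists_perp_notMem hK x y
  obtain ⟨w, f4, f5⟩ : ∃ w ∈ perp A ((F ∙ x) ⊔ F ∙ y), A w v ≠ 0 := by
    by_contra! h
    exact f3 (γ.h.mem_of_perp h)
  have f6 := f4 x (Submodule.mem_sup_left (Submodule.mem_span_singleton_self x))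
  have f7 := f4 y (Submodule.mem_sup_right (Submodule.mem_span_singleton_self y))
  obtain ⟨d, hd⟩ := key _ ⟨x, v, f1, rfl⟩ _ ⟨y, w, f7, rfl⟩ _ _ (γ.ad_ph x v) (γ.ad_ph y w) _ hζ _ hζ
  refine hζ0 ((c1 _ hζ).eq_zero_of_sq (γ.ph_ne hx e3) (by simp [γ.ph_mul e1 e1, γ.alt])
    (c := (c * A w v)⁻¹ * d) ?_)
  rw [mul_smul, ← hd, eq_inv_smul_iff₀ (mul_ne_zero hc f5), h4]
  simp [ph, mul_sub, sub_mul, TMax.rk_mul, e1, γ.h.swap e1, f1, f2, f6, f7, γ.h.swap f1,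
    γ.h.swap f2, γ.h.swap f6, γ.h.swap f7, γ.skew v w]
  module

theorem mem_S {j : ι} {X} (h : X ∈ γ.L (su j) ^ 4) : X ∈ γ.S B M (Φ.T j) := by
  simpa using γ.mul_pow_mem (su j) hB (cp j) hM hK hn 4 h
    (γ.B_le (su j) hB (cp j) hM (γ.one_L (su j)))

theorem mx_of {i j : ι} {β} (hβ : β ∈ γ.L (su j)) (h : ¬ Cm (Φ.T i) β) : Φ.Mx A M j i :=
  fun w x y _ => by
    simpa [ph, sub_eq_add_neg] using (γ.add_ad (su j) hB (γ.mem_S hn su hB cp hM hK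
      (γ.e_mem_pow hn (γ.inv_L su j) hβ h _)) (Ad.e (cp i) (γ.ad_rk x y))).2 w

variable [Nontrivial V]

theorem of_mx {i j : ι} (hij : i ≠ j) (h : Φ.Mx A M j i) : ∃ β ∈ γ.L (su i), ¬ Cm (Φ.T j) β := by
  have h1 : ∀ w, (Φ.T j).e (rk A w w) ∈ γ.S B M (Φ.T i) := fun w =>
    ⟨Φ.cm_e hij _, _, Φ.cm_e hij _, Ad.e (cp j) (γ.ad_rk w w), fun x y e => by
      simpa [ph, sub_eq_add_neg, mul_add, Φ.cm_e hij _ _] using h w x y e⟩
  obtain ⟨x, hx, -⟩ := γ.exists_iso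
  obtain ⟨y, hy⟩ := γ.h.exists_eq_one hx
  obtain ⟨z, e1, -, e2, e3⟩ := γ.exists_iso_perp hn x y
  refine ⟨_, γ.polar (su i) hB (cp i) hM hK hn (h1 x) (Ad.e (cp j) (γ.ad_rk x x)) (h1 y)
    (Ad.e (cp j) (γ.ad_rk y y)), ?_⟩
  rw [← map_mul, ← map_mul, ← map_add]
  exact not_cm_e (fun h => hx (by simpa [γ.alt, γ.skew y x, hy] using LinearMap.congr_fun h x))
    (γ.rk_ne e1) (by simp [mul_add, ← mul_assoc, TMax.rk_mul, γ.h.swap e2, γ.h.swap e3])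

include su in
theorem mx_all (hP : ∀ s s' : Equiv.Perm ι, ∃ g ∈ M, Φ.IsPerm ⁅s, s'⁆ g) {i j : ι} (hij : i ≠ j)
    (h : Φ.Mx A M j i) {a b : ι} (hab : a ≠ b) : Φ.Mx A M a b := by
  have h1 : ∀ {i j}, i ≠ j → Φ.Mx A M j i → Φ.Mx A M i j := fun hij h =>
    let ⟨_, h1, h2⟩ := γ.of_mx hn su hB cp hM hK hij h
    γ.mx_of hn su hB cp hM hK h1 h2
  have h2 : ∀ {a b}, a ≠ b → Φ.Mx A M a b → ∀ c, a ≠ c → Φ.Mx A M a c := fun {a b} hab h c hac => by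
    rcases eq_or_ne b c with rfl | hbc
    · exact h
    obtain ⟨g, hg, e⟩ := hP (Equiv.swap a c) (Equiv.swap a b)
    refine h1 hac ?_
    simpa [commutatorElement_def, Equiv.swap_apply_def, hab, hac, hbc, hab.symm, hac.symm, hbc.symm]
      using h.perm hg e
  rcases eq_or_ne j a with rfl | h3
  · exact h2 hij.symm h b hab
  · exact h2 h3.symm (h1 h3.symm (h2 hij.symm h a h3)) b hab

include su in
omit cp in
theorem long_of_not_good (p : PV Φ A B) (hP : ∀ s s' : Equiv.Perm ι, ∃ g ∈ M, Φ.IsPerm ⁅s, s'⁆ g)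
    (hG : ¬ ∀ i, GoodF A B N M (Φ.T i)) {x y : ι → U} {i : ι} (h : A (x i) (y i) = 0) (c : F) :
    Un M (c • (rk B (p.v x) (p.v y) - ε' • rk B (p.v y) (p.v x))) := by
  have cp := p.cp γ.toGm
  obtain ⟨j, hj⟩ := not_forall.1 hG
  have := mt (fun h => γ.good (su j) hB (cp j) hM hK fun _ =>
    γ.scalar_of_L hn su hB cp hM hK h) hj
  push Not at this
  obtain ⟨β, hβ, h1⟩ := this
  obtain ⟨k, hk⟩ := not_forall.1 (mt (Φ.cen β) (not_exists.2 h1))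
  have h2 : ∀ k, k ≠ i → ∀ a, (Φ.T k).e a ∈ γ.L (su i) ^ 4 := fun l hl a =>
    let ⟨_, h1, h2⟩ := γ.of_mx hn su hB cp hM hK hl.symm (γ.mx_all hn su hB cp hM hK hP
      (show k ≠ j from fun h => hk (h ▸ hβ.1)) (γ.mx_of hn su hB cp hM hK hβ hk) hl)
    γ.e_mem_pow hn (γ.inv_L su i) h1 h2 a
  have h3 : ∀ (K : Finset ι) (a : ι → End F U), (∀ k, k ∉ K ∨ k = i → a k = 1) →
      Φ.π a ∈ γ.S B M (Φ.T i) := fun K => by
    induction K using Finset.induction_on with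
    | empty =>
      intro a ha
      rw [show a = 1 from funext fun k => ha k (by simp), map_one]
      exact γ.B_le (su i) hB (cp i) hM (γ.one_L (su i))
    | insert l K hl ih =>
      intro a ha
      rcases eq_or_ne l i with rfl | e
      · exact ih a fun k hk => ha k (by by_cases k = l <;> simp_all)
      rw [Φ.eq_mul a l, ← Φ.cm_update]
      exact γ.mul_pow_mem (su i) hB (cp i) hM hK hn 4 (h2 l e _) (ih _ fun k hk => by
        rcases eq_or_ne k l with rfl | e'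
        · simp
        · rw [update_of_ne e', ha k (by simpa [e'] using hk)])
  obtain ⟨h4, η, h5, h6, h7⟩ := Submodule.smul_mem _ (c * p.κ) (h3 Finset.univ
    (update (fun k => rk A (x k) (y k)) i 1) fun k hk => by simp_all)
  have h8 : (Φ.T i).e (rk A (x i) (y i)) * (c * p.κ) • Φ.π (update (fun k => rk A (x k) (y k)) i 1) =
      c • rk B (p.v x) (p.v y) := by
    rw [mul_smul_comm, ← Φ.eq_mul (fun k => rk A (x k) (y k)) i, mul_smul, p.π_rk]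
  have h9 := ((Ad.e (cp i) (γ.ad_rk (x i) (y i))).mul h6).unique hB (h8 ▸ (Ad.rk hB _ _).smul c)
  rw [h5, map_neg, neg_mul, neg_eq_iff_eq_neg] at h9
  simpa [h8, h9, sub_eq_add_neg] using h7 _ _ h

end Gs

end Cfsg.Lib.TW
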