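import Cfsg.Agent.Lib.TW.SpB

/-!
# Symplectic tensor factors of dimension two: coefficients
-/

set_option autoImplicit false
set_option linter.unusedSectionVars false

namespace Cfsg.Lib.TW

open Module Function Cfsg.Lib.Unitary Cfsg.Lib.TMax
open scoped commutatorElement

variable {F U W V : Type*} [Field F] [AddCommGroup U] [Module F U] [AddCommGroup W] [Module F W]
  [AddCommGroup V] [Module F V] {ε' : F} {A : U →ₗ[F] U →ₗ[F] F}
  {B : V →ₗ[F] V →ₗ[F] F} {N : Subgroup (U ≃ₗ[F] U)} {M : Subgroup (V ≃ₗ[F] V)}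
  {T : TF F U W V} {ι : Type*} [DecidableEq ι] [Fintype ι] {Φ : Fam ι F U W V}

theorem PV.π_ne_zero [FiniteDimensional F U] (p : PV Φ A B) {ε : F} (hA : EF (RingHom.id F) ε A)
    {a : ι → End F U} (h : ∀ i, a i ≠ 0) : Φ.π a ≠ 0 := fun h0 => by
  choose x hx using fun i => DFunLike.ne_iff.1 (h i)
  choose y hy using fun i => hA.exists_eq_one (hx i)
  exact p.B_ne_zero (x := fun i => a i (x i)) (y := y) (by simp [hy]) (by simp [← p.π_v, h0])

namespace Gs

variable (γ : Gs A N) [FiniteDimensional F U] (hn : finrank F U = 2)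
include γ hn

theorem mem_line {w a : U} (h0 : w ≠ 0) (h : A w a = 0) : a ∈ F ∙ w := by
  have := γ.h.finrank_add_finrank_perp (F ∙ w)
  have h1 := finrank_span_singleton (K := F) h0
  rw [Submodule.eq_of_le_of_finrank_le (show (F ∙ w) ≤ perp A (F ∙ w) by
    simpa using mem_perp_singleton.2 (γ.alt w)) (by omega)]
  exact mem_perp_singleton.2 h

theorem ph_eq (y s : U) : ph A y s = -A y s • 1 := by
  rcases eq_or_ne y 0 with rfl | h0
  · simp [ph, rk]
  by_cases h : A y s = 0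
  · obtain ⟨c, rfl⟩ := Submodule.mem_span_singleton.1 (γ.mem_line hn h0 h)
    simp [ph, rk_smul_left, rk_smul_right, γ.alt]
  refine LinearMap.ext fun v => sub_eq_zero.1 ?_
  obtain ⟨c, hc⟩ := Submodule.mem_span_singleton.1 (γ.mem_line hn h0
    (a := ph A y s v - (-A y s • 1 : End F U) v) (by simp [ph, γ.alt, mul_comm]))
  have := congrArg (A s) hc
  rw [← hc, show c = 0 by simpa [ph, γ.alt, γ.skew s y, mul_comm, h] using this, zero_smul]

theorem nd {β : End F V} (h : ¬ Cm T β) : ∃ w ψ, RF (-1) A w ψ ∧ T.coef ψ w β ≠ 0 := by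
  by_contra! h0
  refine h (cm_of_scalar fun χ u => exists_smul_of_mem (a := T.d χ ∘ₗ β ∘ₗ T.t.flip u) fun x => ?_)
  rcases eq_or_ne x 0 with rfl | hx
  · simp
  have := LinearMap.congr_fun (h0 x _ (γ.rf1 hx)) (T.t x u)
  have h4 : T.c (A x) (β (T.t x u)) = 0 := T.t_inj hx (by simpa [TF.coef] using this)
  exact γ.mem_line hn hx (by simp [TF.apply_d, h4])

variable [FiniteDimensional F V] (hB : EF (RingHom.id F) ε' B) (hM : M ≤ UG B) (h2 : (2 : F) ≠ 0)
  (p : PV Φ A B) (su : ∀ i, ∀ b ∈ N, (Φ.T i).kr b 1 ∈ M)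
  (hP : ∀ s s' : Equiv.Perm ι, ∃ g ∈ M, Φ.IsPerm ⁅s, s'⁆ g)
include hB hM h2 p su hP

omit hn su hP in
theorem odd_of_Q {J : Finset ι} (hJ : J.Nonempty) (h : Φ.Q (RF (-1) A) M J) : Odd J.card := by
  obtain ⟨a, c, hc, ha, h⟩ := h
  obtain ⟨j, hj⟩ := hJ
  have h1 : ∀ i ∈ J, a i ≠ 0 ∧ a i * a i = 0 ∧ Ad A (a i) (-a i) := fun i hi => by
    obtain ⟨w, ψ, hw, e⟩ := ha.1 i hi
    refine e ▸ ⟨r_ne_zero hw.1 (γ.ne hw), r_sq hw.zero, ?_⟩
    obtain ⟨-, -, d, -, -, rfl⟩ := hw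
    simpa [r_eq_rk] using (γ.ad_rk w w).smul d
  have h3 := (Ad.smul (p.π_adj (a := a) (a' := fun i => if i ∈ J then (-1 : F) • a i else a i)
    fun i => by
      split_ifs with hi
      · simpa [Ad] using (h1 i hi).2.2
      · simp [ha.2 i hi]) c).unique hB (un_skew hM h (by
        rw [smul_mul_smul_comm, ← map_mul, Φ.eq_zero (i := j) (h1 j hj).2.1, smul_zero]))
  rw [Φ.smul_eq, Finset.prod_const, RingHom.id_apply, ← smul_neg, ← neg_one_smul F (Φ.π a)] at h3
  have := γ.nontrivial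
  have h4 := smul_left_injective F (p.π_ne_zero γ.h fun i => by
    by_cases hi : i ∈ J
    exacts [(h1 i hi).1, ha.2 i hi ▸ one_ne_zero]) (smul_right_injective _ hc h3)
  exact Nat.not_even_iff_odd.1 fun h => h2 (by rw [h.neg_one_pow] at h4; linear_combination h4)

variable [Finite F] {l : F} (hl0 : l ≠ 0) (hl1 : l ≠ 1)
include hl0 hl1

omit hn in
theorem grow {J : Finset ι} (hJ : 2 ≤ J.card) (h : Φ.Q (RF (-1) A) M J) {b d : ι} (hb : b ∉ J)
    (hd : d ∉ J) (hbd : b ≠ d) : Φ.Q (RF (-1) A) M (insert b (insert d J)) := by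
  obtain ⟨a, ha, a', ha', haa⟩ := Finset.one_lt_card.1 hJ
  have h1 := (h.swap hP ha ha' haa hb).swap hP (a := a') (b := d) (by simp [ha', haa.symm])
    (Finset.mem_insert_self _ _) (by rintro rfl; exact hb ha') (by simp [hbd.symm, hd])
  obtain ⟨e, h0, he⟩ := γ.exists_iso
  obtain ⟨f, hf⟩ := γ.h.exists_eq_one h0
  have pr : ∀ {w}, w ≠ 0 → ∀ K : Finset ι, Pr (RF (-1) A) (fun k => if k ∈ K then rk A w w else 1) K :=
    fun {w} h K => ⟨fun k hk => ⟨w, _, γ.rf1 h, if_pos hk⟩, fun k hk => if_neg hk⟩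
  have h3 : J ∩ insert d ((insert b (J.erase a)).erase a') = (J.erase a).erase a' := by
    ext k; by_cases k ∈ J <;> aesop
  have h4 := (Fam.sand_of_fixed γ.toGm su rfl hl0 hl1).grow (Fam.tr_form γ.toGm su)
    (fun _ _ h => h.zero) h h1 ha (by aesop) (Finset.mem_insert_self _ _) hd (pr h0 _)
    (pr (w := f) (fun h => by simp [h] at hf) _)
    (pr (w := e + f) (fun h => by simpa [he, hf] using congrArg (A e) h) _)
    (p := fun _ => 1) (p' := fun _ => -1)
    (fun k hk => by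
      simp only [hk, (Finset.mem_inter.1 hk).1, (Finset.mem_inter.1 hk).2, if_true]
      simp [TMax.rk_mul, γ.alt, hf, γ.skew f e])
    (fun k hk => by
      simp only [hk, (Finset.mem_inter.1 hk).1, (Finset.mem_inter.1 hk).2, if_true]
      simp [TMax.rk_mul, γ.alt, hf, γ.skew f e]) (by
      obtain ⟨m, hm⟩ := γ.odd_of_Q hB hM h2 p ⟨a, ha⟩ h
      rw [h3, Finset.prod_const_one, Finset.prod_const, Odd.neg_one_pow ⟨m - 1, by
        rw [Finset.card_erase_of_mem (by simp [ha', haa.symm]), Finset.card_erase_of_mem ha]; omega⟩]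
      exact fun h => h2 (by linear_combination h))
  convert h4 using 1
  ext k; by_cases k ∈ J <;> aesop

theorem exists_Q (hG : ¬ ∀ i, GoodF A B N M (Φ.T i)) :
    ∃ J : Finset ι, 2 ≤ J.card ∧ Φ.Q (RF (-1) A) M J ∧ Jᶜ.card ≤ 1 := by
  classical
  have := γ.nontrivial
  obtain ⟨j, hj⟩ := not_forall.1 hG
  have : ¬ ∀ w, w ≠ 0 → ∀ β, Cm (Φ.T j) β → Un M ((Φ.T j).e (rk A w w) * β) → ∃ c : F, β = c • 1 :=
    fun h => hj ⟨p.cp γ.toGm j, su j, fun w h0 hw g hg h1 _ => rad_of_scalar γ.toGm (su j) hB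
      (p.cp γ.toGm j) h0 hw hM hg h1 (fun a ha => ⟨0, fun u => by
        simpa using h1 _ ((Φ.T j).t_mem_P (γ.mem_line hn h0 ha) u)⟩) (h w h0)⟩
  push Not at this
  obtain ⟨w, h0, β, hβ, h1, h3⟩ := this
  obtain ⟨J, hJ⟩ := (Fam.sand_of_fixed γ.toGm su rfl hl0 hl1).exists_Q (fun _ _ => γ.nd hn)
    (γ.rf1 h0) hβ (not_exists.2 h3) h1
  obtain ⟨K, hK, h4⟩ := Finset.exists_max_image (Finset.univ.filter fun J : Finset ι =>
    2 ≤ J.card ∧ Φ.Q (RF (-1) A) M J) Finset.card ⟨J, by simpa⟩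
  simp only [Finset.mem_filter, Finset.mem_univ, true_and] at hK h4
  refine ⟨K, hK.1, hK.2, not_lt.1 fun h => ?_⟩
  obtain ⟨b, hb, d, hd, hbd⟩ := Finset.one_lt_card.1 h
  rw [Finset.mem_compl] at hb hd
  have h5 : (insert b (insert d K)).card = K.card + 2 := by
    rw [Finset.card_insert_of_notMem (by simp [hb, hbd]), Finset.card_insert_of_notMem hd]
  have := h4 _ ⟨by omega, γ.grow hB hM h2 p su hP hl0 hl1 hK.1 hK.2 hb hd hbd⟩
  omega

theorem Q_univ (hG : ¬ ∀ i, GoodF A B N M (Φ.T i)) (ht : Odd (Fintype.card ι)) :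
    Φ.Q (RF (-1) A) M Finset.univ := by
  obtain ⟨J, h1, h3, h4⟩ := γ.exists_Q hn hB hM h2 p su hP hl0 hl1 hG
  obtain ⟨m, hm⟩ := γ.odd_of_Q hB hM h2 p (Finset.card_pos.1 (by omega)) h3
  obtain ⟨m', hm'⟩ := ht
  have := J.card_add_card_compl
  rwa [← J.eq_univ_of_card (by omega)]

theorem Q_erase (hG : ¬ ∀ i, GoodF A B N M (Φ.T i)) (ht : Even (Fintype.card ι)) (i : ι) :
    Φ.Q (RF (-1) A) M (Finset.univ.erase i) := by
  obtain ⟨J, h1, h3, h4⟩ := γ.exists_Q hn hB hM h2 p su hP hl0 hl1 hG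
  obtain ⟨m, hm⟩ := γ.odd_of_Q hB hM h2 p (Finset.card_pos.1 (by omega)) h3
  obtain ⟨m', hm'⟩ := ht
  have := J.card_add_card_compl
  obtain ⟨b, hb⟩ := Finset.card_eq_one.1 (show Jᶜ.card = 1 by omega)
  obtain rfl : J = Finset.univ.erase b := by rw [← Finset.compl_singleton, ← hb, compl_compl]
  rcases eq_or_ne i b with rfl | h
  · exact h3
  obtain ⟨c, hc, hc'⟩ := Finset.exists_mem_ne h1 i
  convert h3.swap hP (a := i) (b := b) (by simp [h]) hc hc'.symm (by simp) using 1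
  ext k; by_cases k = b <;> aesop

omit hB hM h2 hP hl0 hl1 in
theorem long_of_Q {i j : ι} (hj : j ≠ i) (hQ : Φ.Q (RF (-1) A) M (Finset.univ.erase i)) (x : ι → U)
    (s : U) (c : F) :
    Un M (c • (rk B (p.v x) (p.v (update x i s)) - rk B (p.v (update x i s)) (p.v x))) := by
  rcases eq_or_ne (p.v x) 0 with h | h
  · simpa [h, rk] using Un.zero
  have h0 : ∀ i, x i ≠ 0 := fun i h0 => h (p.v.map_coord_zero i h0)
  obtain ⟨d, hd, h1⟩ := hQ.any (Fam.tr_form γ.toGm su) (a := update (fun k => rk A (x k) (x k)) i 1)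
    ⟨fun k hk => ⟨_, _, γ.rf1 (h0 k), update_of_ne (Finset.ne_of_mem_erase hk) _ _⟩, by simp⟩
  rw [Φ.eq_mul _ j, ← mul_smul_comm, update_of_ne hj] at h1
  have h3 := (smul_mem_coeffs γ.toGm (su j) (γ.rf1 (h0 j)) ⟨(Φ.cm_update _ j).smul d, h1⟩
    (μ := c * p.κ * -A (x i) s / d) rfl).2
  have h4 : ∀ y z, rk B (p.v (update x i y)) (p.v (update x i z)) =
      p.κ • ((Φ.T i).e (rk A y z) * Φ.π (update (fun k => rk A (x k) (x k)) i 1)) := fun y z => by
    rw [← p.π_rk, ← Φ.update_eq]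
    congr 2
    funext k
    rcases eq_or_ne k i with rfl | h <;> simp [*]
  convert h3 using 1
  rw [← update_eq_self i x, update_idem, h4, h4, ← smul_sub, ← sub_mul, ← map_sub, ← ph, γ.ph_eq hn,
    update_eq_self, Φ.eq_mul _ j, update_of_ne hj]
  simp [smul_smul, hd, rk, mul_assoc]

omit hn h2 su hP hl0 hl1

variable (hL : ∀ i x s (c : F),
  Un M (c • (rk B (p.v x) (p.v (update x i s)) - rk B (p.v (update x i s)) (p.v x))))
include hL

theorem mem_AQ_step {x y w : ι → U} {he} {i k : ι} (hik : i ≠ k) (h1 : A (x i) (y i) = 0)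
    (h3 : w k = y k) (h4 : y k ≠ 0) (h5 : ∀ j ≠ k, A (y j) (w j) ≠ 0)
    (h : p.v w ∈ AQ hB M (e := p.v x) he) : p.v y ∈ AQ hB M (e := p.v x) he := by
  obtain ⟨s, hs⟩ := γ.h.exists_eq_one' h4
  have h6 : B (p.v (update y k s)) (p.v w) ≠ 0 := p.B_ne_zero fun j => by
    rcases eq_or_ne j k with rfl | h <;> simp [*]
  obtain ⟨g, hg, e⟩ := hL k y s (B (p.v (update y k s)) (p.v w))⁻¹
  simpa [e, h6, p.B_eq_zero (x := y) (y := w) (i := k) (h3 ▸ γ.alt _)] using sub_mem_AQ hM hg (by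
    simp [e, p.B_eq_zero (γ.h.swap h1), p.B_eq_zero (x := update y k s) (y := x) (i := i)
      (by simp [hik, γ.h.swap h1])]) h

include hn in
theorem mem_AQ_two (ht : 4 ≤ Fintype.card ι) {x : ι → U} (h0 : ∀ i, x i ≠ 0) (he) {z : V}
    (hz : B (p.v x) z = 0) : z ∈ AQ hB M (e := p.v x) he := by
  choose f hf using fun i => γ.h.exists_eq_one (h0 i)
  have h1 : ∀ i k, i ≠ k → ∀ y, y i = x i → y k = x k → p.v y ∈ AQ hB M (e := p.v x) he :=
    fun i k hik y e1 e2 => p.mem_of_slots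
      (q := fun j s => if j = i ∨ j = k then s = x j else A s s = 0 ∧ A (x j) s ≠ 0)
      (q' := fun j s => j = i ∨ j = k → s = x j) (fun j S hS s hs => by
        split_ifs at hS with h
        exacts [hS s (hs h), γ.span_nonperp (h0 j) (γ.alt _) S hS s]) (fun y hy => by
        have e1 : y i = x i := by simpa using hy i
        have e2 : y k = x k := by simpa using hy k
        refine γ.mem_AQ_step hB hM p hL (w := update x i (f i)) hik (e1 ▸ γ.alt _)
          (by simp [hik.symm, e2]) (e2 ▸ h0 k) (fun j hj => ?_) (mem_AQ_of_un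
            (p.B_eq_zero (i := k) (by simp [hik.symm, γ.alt])) (z := (-1 : F) • p.v (update x i (f i)))
            (by rw [rk_smul_left]; simpa [sub_eq_add_neg] using hL i x (f i) 1))
        rcases eq_or_ne j i with rfl | h
        · simp [e1, hf]
        · simpa [h] using γ.h.swap_ne (by simpa [h, hj] using hy j : _ ∧ _).2)
      (by rintro _ (rfl | rfl) <;> assumption)
  refine p.mem_of_perp γ.h h0 (fun y i hy => p.mem_of_slots
    (q := fun j s => if j = i then s ≠ 0 ∧ A (x j) s = 0 else A s s = 0 ∧ A (x j) s ≠ 0)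
    (q' := fun j s => j = i → A (x j) s = 0) (fun j S hS s hs => ?_) (fun y hy => ?_)
    (by rintro _ rfl; exact hy)) hz
  · split_ifs at hS with h
    · rcases eq_or_ne s 0 with rfl | h'
      exacts [zero_mem _, hS s ⟨h', hs h⟩]
    · exact γ.span_nonperp (h0 j) (γ.alt _) S hS s
  obtain ⟨k, hk⟩ := Fintype.exists_ne_of_one_lt_card (by omega) i
  obtain ⟨a, ha, b, hb, hab⟩ := Finset.one_lt_card.1 (show 1 < ({i, k}ᶜ : Finset ι).card by
    rw [Finset.card_compl, Finset.card_pair hk.symm]; omega)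
  simp only [Finset.mem_compl, Finset.mem_insert, Finset.mem_singleton, not_or] at ha hb
  obtain ⟨e1, e2⟩ : y i ≠ 0 ∧ A (x i) (y i) = 0 := by simpa using hy i
  refine γ.mem_AQ_step hB hM p hL (w := update (update x i (f i)) k (y k)) hk.symm e2 (by simp)
    (fun h => by simpa [hk, h] using hy k) (fun j hj => ?_) (h1 a b hab _ (by simp [ha]) (by simp [hb]))
  rcases eq_or_ne j i with rfl | h
  · obtain ⟨c, hc⟩ := Submodule.mem_span_singleton.1 (γ.mem_line hn (h0 j) e2)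
    simpa [hj, ← hc, hf] using fun h => e1 (by simp [← hc, h])
  · simpa [h, hj] using γ.h.swap_ne (by simpa [h] using hy j : _ ∧ _).2

end Gs

end Cfsg.Lib.TW
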