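import Cfsg.Agent.Lib.TW.SpD

/-!
# Small symplectic factors in characteristic two: the spin overgroup
-/

set_option autoImplicit false
set_option linter.unusedSectionVars false

namespace Cfsg.Lib.TW

open Module Function Cfsg.Lib.Unitary Cfsg.Lib.TMax

variable {F U W V : Type*} [Field F] [AddCommGroup U] [Module F U] [AddCommGroup W] [Module F W]
  [AddCommGroup V] [Module F V] {A : U →ₗ[F] U →ₗ[F] F} {B : V →ₗ[F] V →ₗ[F] F}
  {N : Subgroup (U ≃ₗ[F] U)} {ι : Type*} [DecidableEq ι] [Fintype ι] {Φ : Fam ι F U W V}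

/-- The normaliser of a space of endomorphisms. -/
noncomputable def NE (E : Submodule F (End F V)) : Subgroup (V ≃ₗ[F] V) :=
  (stab E).comap (MonoidHom.mk' (fun g : V ≃ₗ[F] V => g.conj) fun _ _ => rfl)

theorem NE.conj {E : Submodule F (End F V)} {g} (h : g ∈ NE E) {y} (hy : y ∈ E) :
    g.toLinearMap * y * (g⁻¹).toLinearMap ∈ E := apply_mem_of_stab h hy

variable [FiniteDimensional F V]

theorem mem_NE {s : Set (End F V)} {g : V ≃ₗ[F] V}
    (h : ∀ y ∈ s, g.toLinearMap * y * (g⁻¹).toLinearMap ∈ Submodule.span F s) :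
    g ∈ NE (Submodule.span F s) :=
  mem_stab_of_le fun _ hy => (Submodule.span_le (p := (Submodule.span F s).comap
    g.conj.toLinearMap)).2 h hy

theorem rank_add (X Y : End F V) : finrank F (LinearMap.range (X + Y)) ≤
    finrank F (LinearMap.range X) + finrank F (LinearMap.range Y) :=
  (Submodule.finrank_mono (LinearMap.range_add_le X Y)).trans
    (Submodule.finrank_add_le_finrank_add_finrank _ _)

theorem rank_mul_l (X Y : End F V) :
    finrank F (LinearMap.range (X * Y)) ≤ finrank F (LinearMap.range X) :=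
  Submodule.finrank_mono (LinearMap.range_comp_le_range Y X)

theorem rank_mul_r (X Y : End F V) :
    finrank F (LinearMap.range (X * Y)) ≤ finrank F (LinearMap.range Y) :=
  LinearMap.range_comp Y X ▸ Submodule.finrank_map_le X _

theorem eq_zero_of_rank {X : End F V} (h : X ∈ F ∙ (1 : End F V))
    (h' : finrank F (LinearMap.range X) < finrank F V) : X = 0 := by
  obtain ⟨c, rfl⟩ := Submodule.mem_span_singleton.1 h
  by_contra h0
  rw [LinearMap.range_smul _ _ (by rintro rfl; simp at h0), End.one_eq_id, LinearMap.range_id,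
    finrank_top] at h'
  exact h'.false

theorem NE.eq_one (h2 : (2 : F) = 0) {E : Submodule F (End F V)}
    (h : ∀ y ∈ E, ∀ z ∈ E, y * z + z * y ∈ F ∙ (1 : End F V))
    (hc : ∀ Y, (∀ y ∈ E, Y * y = y * Y) → Y ∈ F ∙ (1 : End F V)) {r} (hr : r ∈ NE E)
    {X : Submodule F V} (hX : ∀ x, r x - x ∈ X) (hn : 4 * finrank F X < finrank F V) : r = 1 := by
  have h1 : finrank F (LinearMap.range (r.toLinearMap - 1)) ≤ finrank F X :=
    Submodule.finrank_mono (by rintro _ ⟨x, rfl⟩; exact hX x)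
  have h0 : r.toLinearMap * (r⁻¹).toLinearMap = 1 := LinearMap.ext r.apply_symm_apply
  have h3 : ∀ y ∈ E, r.toLinearMap * y = y * r.toLinearMap := fun y hy => by
    have h4 := sub_mem (NE.conj hr hy) hy
    have h5 : r.toLinearMap * y * (r⁻¹).toLinearMap - y = ((r.toLinearMap - 1) * y +
        -y * (r.toLinearMap - 1)) * (r⁻¹).toLinearMap := by
      rw [add_mul, neg_mul, neg_mul, mul_assoc y, sub_mul _ 1 (r⁻¹).toLinearMap, h0]
      noncomm_ring
    have h6 : finrank F (LinearMap.range (r.toLinearMap * y * (r⁻¹).toLinearMap - y)) ≤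
        2 * finrank F X := by
      rw [h5]
      linarith [rank_mul_l ((r.toLinearMap - 1) * y + -y * (r.toLinearMap - 1)) (r⁻¹).toLinearMap,
        rank_add ((r.toLinearMap - 1) * y) (-y * (r.toLinearMap - 1)),
        rank_mul_l (r.toLinearMap - 1) y, rank_mul_r (-y) (r.toLinearMap - 1)]
    generalize hz : r.toLinearMap * y * (r⁻¹).toLinearMap - y = z at h4 h6
    have h7 := eq_zero_of_rank (hc z fun y' hy' => by
      have := eq_zero_of_rank (h z h4 y' hy')
        (by linarith [rank_add (z * y') (y' * z), rank_mul_l z y', rank_mul_r y' z])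
      linear_combination (norm := module) this - h2 • (y' * z)) (by omega)
    rw [h7, sub_eq_zero] at hz
    conv_rhs => rw [← hz]
    exact LinearMap.ext fun x => by simp
  have h4 := eq_zero_of_rank (sub_mem (hc _ h3) (Submodule.mem_span_singleton_self _)) (by omega)
  exact LinearEquiv.toLinearMap_injective (sub_eq_zero.1 h4)

theorem anti_span {s : Set (End F V)}
    (h : ∀ y ∈ s, ∀ z ∈ s, y * z + z * y ∈ F ∙ (1 : End F V)) :
    ∀ y ∈ Submodule.span F s, ∀ z ∈ Submodule.span F s, y * z + z * y ∈ F ∙ (1 : End F V) :=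
  fun _ hy _ hz => Submodule.span_induction₂ (p := fun y z _ _ => y * z + z * y ∈ F ∙ (1 : End F V))
    (fun y z hy hz => h y hy z hz) (by simp) (by simp)
    (fun _ _ _ _ _ _ h h' => by convert add_mem h h' using 1; noncomm_ring)
    (fun _ _ _ _ _ _ h h' => by convert add_mem h h' using 1; noncomm_ring)
    (fun c _ _ _ _ h => by simpa using Submodule.smul_mem _ c h)
    (fun c _ _ _ _ h => by simpa using Submodule.smul_mem _ c h) hy hz

/-- Conjugation by a product of two commuting square zero elements. -/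
theorem conj_prod (h2 : (2 : F) = 0) {u u' y : End F V} (hu : u * u = 0) (hu' : u' * u' = 0)
    (h : u * u' = u' * u) {c c' : F} (h1 : c • 1 = u * y + y * u) (h1' : c' • 1 = u' * y + y * u')
    {g : V ≃ₗ[F] V} (hg : ∀ x, g x = x + (u * u') x) :
    g.toLinearMap * y * (g⁻¹).toLinearMap = y + c' • u + c • u' := by
  have h3 : g.toLinearMap = 1 + u * u' := LinearMap.ext hg
  have h4 : g.toLinearMap * y = (y + c' • u + c • u') * g.toLinearMap := by
    have e1 : u * (u * u') = 0 := by rw [← mul_assoc, hu, zero_mul]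
    have e2 : u' * (u * u') = 0 := by rw [h, ← mul_assoc, hu', zero_mul]
    have e3 := congrArg (u * ·) h1'
    have e4 := congrArg (· * u') h1
    simp only [h3, add_mul, mul_add, mul_one, one_mul, smul_mul_assoc, mul_smul_comm, e1, e2,
      mul_assoc] at e3 e4 ⊢
    linear_combination (norm := module) -e3 - e4 - h2 • (u * (y * u')) - h2 • (y * (u * u'))
  rw [h4, mul_assoc, show g.toLinearMap * (g⁻¹).toLinearMap = 1 from
    LinearMap.ext g.apply_symm_apply, mul_one]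

omit [FiniteDimensional F V]

/-- The elements acting slotwise on the pure vectors. -/
def PV.Act (p : PV Φ A B) : Subgroup (V ≃ₗ[F] V) where
  carrier := {g | ∃ s : Equiv.Perm ι, ∃ b : ι → U ≃ₗ[F] U,
    ∀ x, g (p.v x) = p.v fun i => b i (x (s.symm i))}
  one_mem' := ⟨1, 1, fun _ => rfl⟩
  mul_mem' := fun ⟨s, b, h⟩ ⟨s', b', h'⟩ => ⟨s * s', fun i => b i * b' (s.symm i), fun x => by
    rw [LinearEquiv.mul_apply, h', h]; rfl⟩
  inv_mem' := fun {g} ⟨s, b, h⟩ => ⟨s⁻¹, fun i => (b (s i))⁻¹, fun x => g.injective (by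
    simp [h, Equiv.Perm.inv_def])⟩

theorem PV.conj_e (p : PV Φ A B) {g : V ≃ₗ[F] V} {s : Equiv.Perm ι} {b : ι → U ≃ₗ[F] U}
    (h : ∀ x, g (p.v x) = p.v fun i => b i (x (s.symm i))) (i : ι) (a : End F U) :
    g.toLinearMap * (Φ.T i).e a * (g⁻¹).toLinearMap =
      (Φ.T (s i)).e ((b (s i)).toLinearMap * a * ((b (s i))⁻¹).toLinearMap) := by
  rw [show g.toLinearMap * (Φ.T i).e a = (Φ.T (s i)).e ((b (s i)).toLinearMap * a *
    ((b (s i))⁻¹).toLinearMap) * g.toLinearMap from p.ext' fun x => by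
      simp only [End.mul_apply, LinearEquiv.coe_coe, h, p.e_v]
      congr 1
      funext j
      obtain ⟨j, rfl⟩ := s.surjective j
      rcases eq_or_ne j i with rfl | hj <;> simp [*]]
  exact LinearMap.ext fun x => by simp

theorem PV.sim (p : PV Φ A B) {e f : U} (hef : A e f = 1) {g : V ≃ₗ[F] V} (hg : g ∈ UG B)
    {s : Equiv.Perm ι} {b : ι → U ≃ₗ[F] U} (h : ∀ x, g (p.v x) = p.v fun i => b i (x (s.symm i)))
    (i : ι) : ∃ l, ∀ x y, A x y = l * A (b i x) (b i y) :=
  ⟨∏ j ∈ Finset.univ.erase i, A (b j e) (b j f), fun x y => by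
    have := hg (p.v (update (fun _ => e) (s.symm i) x)) (p.v (update (fun _ => f) (s.symm i) y))
    rw [h, h, p.B_v, p.B_v, mul_right_inj' p.κ0, ← Finset.prod_erase_mul _ _ (Finset.mem_univ i),
      Fintype.prod_eq_single (s.symm i) (fun j hj => by simp [hj, hef])] at this
    simp only [update_self] at this
    rw [← this]
    congr 1
    exact Finset.prod_congr rfl fun j hj => by simp [Finset.ne_of_mem_erase hj]⟩

theorem conj_rk {b : U ≃ₗ[F] U} {l : F} (h : ∀ x y, A x y = l * A (b x) (b y)) (x y : U) :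
    b.toLinearMap * rk A x y * (b⁻¹).toLinearMap = l • rk A (b x) (b y) :=
  LinearMap.ext fun v => by simp [h y, mul_smul]

/-- A Clifford generating set. -/
structure Clf (A : U →ₗ[F] U →ₗ[F] F) (τ : Set (End F U)) (q : Prop) : Prop where
  anti : ∀ a ∈ τ, ∀ b ∈ τ, a * b + b * a ∈ F ∙ (1 : End F U)
  pow : Submodule.span F τ ^ 4 = ⊤
  sim : ∀ (b : U ≃ₗ[F] U) (l : F), (∀ x y, A x y = l * A (b x) (b y)) → ∀ a ∈ τ, ∃ a' ∈ τ, ∃ c : F,
    b.toLinearMap * a * (b⁻¹).toLinearMap = c • a'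
  ex : ∃ a ∈ τ, ∃ b ∈ τ, a * a = 0 ∧ Ad A a a ∧ a * b + b * a = 1 ∧ (q ∨ ∀ x, A x (a x) = 0)

theorem Gs.pf (γ : Gs A N) [FiniteDimensional F U] (hn : finrank F U = 4) (x y z w v : U) :
    (A y z * A w v - A y w * A z v + A y v * A z w) • x -
    (A x z * A w v - A x w * A z v + A x v * A z w) • y +
    (A x y * A w v - A x w * A y v + A x v * A y w) • z -
    (A x y * A z v - A x z * A y v + A x v * A y z) • w +
    (A x y * A z w - A x z * A y w + A x w * A y z) • v = 0 := by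
  let b := finBasisOfFinrankEq F U hn
  obtain ⟨x, rfl⟩ := b.equivFun.symm.surjective x
  obtain ⟨y, rfl⟩ := b.equivFun.symm.surjective y
  obtain ⟨z, rfl⟩ := b.equivFun.symm.surjective z
  obtain ⟨w, rfl⟩ := b.equivFun.symm.surjective w
  obtain ⟨v, rfl⟩ := b.equivFun.symm.surjective v
  simp only [Basis.equivFun_symm_apply, Fin.sum_univ_four, map_add, map_smul, LinearMap.add_apply,
    LinearMap.smul_apply, smul_eq_mul, γ.alt, γ.skew (b 1) (b 0), γ.skew (b 2) (b 0),
    γ.skew (b 3) (b 0), γ.skew (b 2) (b 1), γ.skew (b 3) (b 1), γ.skew (b 3) (b 2)]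
  match_scalars <;> ring

namespace Gs

variable (γ : Gs A N) [FiniteDimensional F U] (h2 : (2 : F) = 0)
include γ h2

theorem clf_two (hn : finrank F U = 2) : Clf A (TyN A) True where
  anti := by
    rintro _ ⟨x, rfl⟩ _ ⟨y, rfl⟩
    refine Submodule.mem_span_singleton.2 ⟨-A x y * A x y, ?_⟩
    rw [TMax.rk_mul, TMax.rk_mul, γ.skew y x, mul_comm, mul_smul, ← γ.ph_eq hn, ph]
    module
  pow := γ.tyN_pow
  sim := by
    rintro b l h _ ⟨x, rfl⟩
    exact ⟨_, ⟨b x, rfl⟩, l, conj_rk h x x⟩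
  ex := by
    obtain ⟨x, h0, -⟩ := γ.exists_iso
    obtain ⟨y, h1⟩ := γ.h.exists_eq_one h0
    refine ⟨_, ⟨x, rfl⟩, _, ⟨y, rfl⟩, by simp [TMax.rk_mul, γ.alt], ?_, ?_, .inl trivial⟩
    · convert γ.ad_rk x x using 1
      linear_combination (norm := module) h2 • rk A x x
    · have := γ.ph_eq hn x y
      rw [TMax.rk_mul, TMax.rk_mul, γ.skew y x, h1]
      rw [ph, h1] at this
      linear_combination (norm := module) this - h2 • (1 : End F U)

theorem ph_anti (hn : finrank F U = 4) {x y z w : U} (h : A x y = 0) (h' : A z w = 0) :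
    ph A x y * ph A z w + ph A z w * ph A x y = (A x z * A y w - A x w * A y z) • 1 :=
  LinearMap.ext fun v => by
    have := γ.pf hn x y z w v
    simp only [ph, h, h', LinearMap.add_apply, End.mul_apply, LinearMap.sub_apply, rk_apply, map_sub,
      map_smul, smul_eq_mul, γ.skew z x, γ.skew z y, γ.skew w x, γ.skew w y, LinearMap.smul_apply,
      End.one_apply] at this ⊢
    linear_combination (norm := module) this

theorem clf_four (hn : finrank F U = 4) : Clf A (TyP A) False where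
  anti := by
    rintro _ ⟨x, y, h, rfl⟩ _ ⟨z, w, h', rfl⟩
    exact Submodule.mem_span_singleton.2 ⟨_, (γ.ph_anti h2 hn h h').symm⟩
  pow := γ.tyP_pow hn.ge
  sim := by
    rintro b l h _ ⟨x, y, h1, rfl⟩
    obtain ⟨e, h0, -⟩ := γ.exists_iso
    obtain ⟨f, h3⟩ := γ.h.exists_eq_one h0
    refine ⟨_, ⟨b x, b y, (mul_eq_zero.1 ((h x y).symm.trans h1)).resolve_left ?_, rfl⟩, l, by
      rw [ph, ph, mul_sub, sub_mul, conj_rk h, conj_rk h, smul_sub]⟩
    rintro rfl
    simp [h e f] at h3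
  ex := by
    obtain ⟨x, h0, -⟩ := γ.exists_iso
    obtain ⟨y, w, h1, h3, h4, h5⟩ := γ.exists_pair hn.ge h0
    obtain ⟨f, h6⟩ := γ.h.exists_eq_one h0
    refine ⟨_, ⟨x, y, h1, rfl⟩, _, ⟨f - A w f • y, w, by simp [γ.skew f w, γ.skew y w, h5], rfl⟩,
      by simp [γ.ph_mul h1 h1, γ.alt], γ.ad_ph x y, ?_, .inr fun v => ?_⟩
    · rw [γ.ph_anti h2 hn h1 (by simp [γ.skew f w, γ.skew y w, h5])]
      simp only [map_sub, map_smul, h6, h1, h3, γ.skew y w, h5, smul_eq_mul]
      linear_combination (norm := module) -h2 • (1 : End F U)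
    · simp [ph, γ.skew v x, γ.skew v y, mul_comm]

end Gs

/-- The Clifford space of a family. -/
def Fam.CE (Φ : Fam ι F U W V) (τ : Set (End F U)) : Submodule F (End F V) :=
  Submodule.span F {y | ∃ i, ∃ a ∈ τ, y = (Φ.T i).e a}

namespace Clf

variable {τ : Set (End F U)} {q : Prop} (c : Clf A τ q) (h2 : (2 : F) = 0)
include c

theorem cen (Y : End F V) (h : ∀ y ∈ Φ.CE τ, Y * y = y * Y) : Y ∈ F ∙ (1 : End F V) := by
  obtain ⟨d, rfl⟩ := Φ.cen Y fun i a => by
    let S := (Subalgebra.centralizer F {Y}).comap (Φ.T i).e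
    have h1 : Submodule.span F τ ≤ S.toSubmodule := Submodule.span_le.2 fun a ha Z hZ =>
      hZ ▸ h _ (Submodule.subset_span ⟨i, a, ha, rfl⟩)
    have h3 : a ∈ S.toSubmodule ^ 4 := pow_le_pow_left' h1 4 (c.pow ▸ Submodule.mem_top)
    exact Submodule.pow_induction_on_left _ (C := (· ∈ S)) S.algebraMap_mem (fun _ _ => add_mem)
      (fun _ h _ => mul_mem h) h3 Y rfl
  exact Submodule.smul_mem _ _ (Submodule.mem_span_singleton_self _)

include h2 in
theorem anti_e {i j : ι} {a b} (ha : a ∈ τ) (hb : b ∈ τ) :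
    (Φ.T i).e a * (Φ.T j).e b + (Φ.T j).e b * (Φ.T i).e a ∈ F ∙ (1 : End F V) := by
  rcases eq_or_ne i j with rfl | h
  · obtain ⟨d, hd⟩ := Submodule.mem_span_singleton.1 (c.anti a ha b hb)
    exact Submodule.mem_span_singleton.2 ⟨d, by rw [← map_mul, ← map_mul, ← map_add, ← hd]; simp⟩
  · rw [Φ.cm_e h b a, ← two_smul F, h2, zero_smul]
    exact zero_mem _

variable [FiniteDimensional F V]

include h2 in
theorem anti' : ∀ y ∈ Φ.CE τ, ∀ z ∈ Φ.CE τ, y * z + z * y ∈ F ∙ (1 : End F V) :=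
  anti_span (by rintro _ ⟨i, a, ha, rfl⟩ _ ⟨j, b, hb, rfl⟩; exact c.anti_e h2 ha hb)

theorem mem_of_act (p : PV Φ A B) {e f : U} (hef : A e f = 1) {g} (hg : g ∈ UG B) (h : g ∈ p.Act) :
    g ∈ NE (Φ.CE τ) := mem_NE (by
  rintro _ ⟨i, a, ha, rfl⟩
  obtain ⟨s, b, h⟩ := h
  obtain ⟨l, hl⟩ := p.sim hef hg h (s i)
  obtain ⟨a', ha', d, hd⟩ := c.sim _ l hl a ha
  rw [p.conj_e h, hd, map_smul]
  exact Submodule.smul_mem _ _ (Submodule.subset_span ⟨_, _, ha', rfl⟩))

open QuadraticMap Cfsg.Lib.Orth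

include h2 in
theorem exists_extra [FiniteDimensional F U] [FiniteDimensional F W] [Nontrivial W] [Finite F]
    {Q : QuadraticForm F V} (p : PV Φ A (polarBilin Q)) (hs : ∀ x, Q (p.v x) = 0)
    (γ : Gs A N) (hQ : ND Q) (h5 : 5 ≤ finrank F V) {i j : ι} (hij : i ≠ j)
    (hq : q → ∃ l, l ≠ i ∧ l ≠ j) :
    ∃ g ∈ (commutator (O Q)).map (O Q).subtype, g ∈ NE (Φ.CE τ) ∧ g ∉ p.Act := by
  obtain ⟨a, ha, b, hb, h1, h3, h4, h6⟩ := c.ex
  have : Nontrivial V := Module.nontrivial_of_finrank_pos (R := F) (by omega)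
  have : Nontrivial ι := ⟨_, _, hij⟩
  have cp := p.cp γ.toGm
  have e1 : ∀ i, (Φ.T i).e a * (Φ.T i).e a = 0 := fun i => by rw [← map_mul, h1, map_zero]
  have e2 := Φ.cm_e hij.symm a a
  have e3 : (Φ.T i).e a * (Φ.T j).e a * (Φ.T i).e a = 0 := by
    rw [e2, mul_assoc, e1, mul_zero]
  have e4 := (h3.e (cp i)).mul (h3.e (cp j))
  have e5 : ∀ i, (1 : F) • 1 = (Φ.T i).e a * (Φ.T i).e b + (Φ.T i).e b * (Φ.T i).e a := fun i => by
    rw [← map_mul, ← map_mul, ← map_add, h4]; simp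
  have e6 : ∀ i, ¬ Cm (Φ.T i) ((Φ.T i).e b) := fun i h => one_ne_zero (α := End F V) (by
    have := e5 i
    rwa [h, ← two_smul F, h2, zero_smul, one_smul] at this)
  have e7 : ∀ i, ¬ Cm (Φ.T i) ((Φ.T i).e a) := fun i h => one_ne_zero (α := End F V) (by
    have := e5 i
    rwa [h, ← two_smul F, h2, zero_smul, one_smul] at this)
  rw [← e2] at e4
  obtain ⟨g, hg⟩ := exists_un (Y := (Φ.T i).e a * (Φ.T j).e a) (by rw [← mul_assoc, e3, zero_mul])
  have h7 : ∀ x y, polar Q ((Φ.T i).e a x) ((Φ.T i).e a y) = 0 := fun x y =>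
    (h3.e (cp i) x _).trans (by rw [← End.mul_apply, e1]; simp)
  have h8 := p.Q_eq_zero hs h7 fun x => by rw [p.e_v, hs]
  refine ⟨g, unip_omega hQ (not_exc_of_five_le h5) (P := LinearMap.range ((Φ.T i).e a))
    (by rintro _ ⟨x, rfl⟩; exact h8 x) g (p.mem_O hs (fun x y => ?_) fun x => ?_)
    (by rintro _ ⟨x, rfl⟩; rw [hg, ← End.mul_apply, e3]; simp)
    (fun x _ => ⟨(Φ.T j).e a x, by simp [hg]⟩), mem_NE ?_, fun ⟨s, b', h⟩ => ?_⟩
  · have : polarBilin Q (((Φ.T i).e a * (Φ.T j).e a) x) (((Φ.T i).e a * (Φ.T j).e a) y) = 0 := h7 _ _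
    simp only [hg, map_add, LinearMap.add_apply, e4 x y, this]
    linear_combination polarBilin Q x (((Φ.T i).e a * (Φ.T j).e a) y) * h2
  · rw [hg, Q_add, hs, End.mul_apply, h8, p.e_v, p.e_v]
    rcases h6 with h6 | h6
    · obtain ⟨l, h9, h10⟩ := hq h6
      simpa using p.B_eq_zero (i := l) (by simp [h9, h10, γ.alt])
    · simpa using p.B_eq_zero (i := i) (by simp [hij, h6])
  · rintro _ ⟨l, d, hd, rfl⟩
    obtain ⟨_, f1⟩ := Submodule.mem_span_singleton.1 (c.anti_e (Φ := Φ) h2 (i := i) (j := l) ha hd)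
    obtain ⟨_, f2⟩ := Submodule.mem_span_singleton.1 (c.anti_e (Φ := Φ) h2 (i := j) (j := l) ha hd)
    rw [conj_prod h2 (e1 i) (e1 j) e2 f1 f2 hg]
    exact add_mem (add_mem (Submodule.subset_span ⟨_, _, hd, rfl⟩) (Submodule.smul_mem _ _
      (Submodule.subset_span ⟨_, _, ha, rfl⟩))) (Submodule.smul_mem _ _
      (Submodule.subset_span ⟨_, _, ha, rfl⟩))
  · have f1 := conj_prod h2 (e1 i) (e1 j) e2 (e5 i) (c' := 0) (by
      rw [Φ.cm_e hij a b, ← two_smul F, h2, zero_smul, zero_smul]) hg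
    rw [p.conj_e h, zero_smul, add_zero, one_smul] at f1
    rcases eq_or_ne (s i) i with f2 | f2
    · rw [f2] at f1
      exact e7 j (sub_eq_of_eq_add' f1 ▸ (Φ.cm_e hij.symm _).sub (Φ.cm_e hij.symm _))
    · exact e6 i (sub_eq_of_eq_add f1 ▸ (Φ.cm_e f2.symm _).sub (Φ.cm_e hij _))

include h2 in
theorem exists_not_mem [Finite F] {Q : QuadraticForm F V} (hQ : ND Q) (hn : 9 ≤ finrank F V) :
    ∃ g ∈ (commutator (O Q)).map (O Q).subtype, g ∉ NE (Φ.CE τ) := by
  obtain ⟨u, x, h⟩ := exists_isHyp_of_three_le hQ (by omega)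
  obtain ⟨z, hz, h0, -⟩ := exists_singular_mem Q (hperp Q u x) (by
    have := h.finrank_hperp hQ; omega)
  refine ⟨_, ⟨_, eich_mem_commutator hQ (not_exc_of_five_le (by omega)) u z, rfl⟩, fun hr =>
    (h.eich_ne hQ hz h0).1 (Subtype.ext (NE.eq_one h2 (c.anti' h2) c.cen hr
      (X := (F ∙ u) ⊔ F ∙ z) (fun y => ?_) ?_))⟩
  · rw [eich_apply h.left (mem_hperp.1 hz).1]
    exact Submodule.mem_sup.2 ⟨(polar Q z y - Q z * polar Q u y) • u, Submodule.smul_mem _ _
      (Submodule.mem_span_singleton_self _), -polar Q u y • z, Submodule.smul_mem _ _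
      (Submodule.mem_span_singleton_self _), by module⟩
  · linarith [Submodule.finrank_add_le_finrank_add_finrank (F ∙ u) (F ∙ z),
      finrank_span_le (F := F) u, finrank_span_le (F := F) z]

end Clf

section Std

open Matrix Cfsg.Geo Cfsg.Lib.Asch Cfsg.Lib.Linear QuadraticMap Cfsg.Lib.Orth
open scoped MatrixGroups

variable {κ : Type} [Fintype κ] [DecidableEq κ] {k t : ℕ}

theorem PV.act_of_mem {Φ : Fam (Fin t) F (Fin k → F) W (κ → F)} {A} {B : _ →ₗ[F] _ →ₗ[F] F}
    (p : PV Φ A B) {e : κ ≃ (Fin t → Fin k)} {P : GL κ F} (h : ∀ x, p.v x = ppvec e P x) {g}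
    (hg : g ∈ tensorWreathSubgroup k t e P) : Unitary.glEquiv κ F g ∈ p.Act := by
  obtain ⟨g, rfl⟩ := (trGL e P).surjective g
  rw [tensorWreathSubgroup, mem_map_map_iff, MulEquiv.symm_apply_apply] at hg
  refine (Subgroup.closure_le (K := p.Act.comap ((Unitary.glEquiv κ F).toMonoidHom.comp
    (trGL e P).toMonoidHom))).2 ?_ hg
  rintro g (⟨a, ha⟩ | ⟨s, hs⟩)
  · refine ⟨1, fun i => Unitary.glEquiv _ F (a i), fun x => ?_⟩
    change Unitary.glEquiv κ F (trGL e P g) _ = _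
    rw [h, h, Unitary.glEquiv_apply, coe_trGL, ppvec, tr_mulVec, show g.1 = pureT fun i => (a i).1 from
      Matrix.ext ha, pureT_mulVec_ppv]
    rfl
  · refine ⟨s, 1, fun x => ?_⟩
    change Unitary.glEquiv κ F (trGL e P g) _ = _
    rw [h, h, Unitary.glEquiv_apply, coe_trGL, ppvec, tr_mulVec, ppvec]
    congr 2
    funext b
    change ∑ a, g.1 b a * ppv x a = _
    simp only [hs, ite_mul, one_mul, zero_mul, Finset.sum_ite_eq', Finset.mem_univ, if_true, ppv]
    exact Fintype.prod_equiv s _ _ fun i => by simp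

theorem exists_lt_tw_o [Fintype F] {f₁ : (Fin k → F) → (Fin k → F) → F} (h₁ : IsSymplecticForm f₁)
    {Q : QuadraticForm F (κ → F)} (hQ : ND Q) (hn : 13 ≤ Fintype.card κ)
    (ht : 2 ≤ t) (hq : ¬ Odd (Fintype.card F)) (hk : k ≤ 4) {e : κ ≃ (Fin t → Fin k)} {P : GL κ F}
    (hT : IsTensorPowerFormStructure id (polar Q) f₁ e P) (hs : ∀ x, Q (ppvec e P x) = 0) :
    ∃ K, tensorWreathSubgroup k t e P ⊓ omegaGL Q < K ∧ K < omegaGL Q := by
  have h2 : (2 : F) = 0 := by rwa [← Symp.two_ne_zero_iff_odd_card, not_not] at hq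
  obtain ⟨m, hm⟩ := Symp.even_finrank (B := bil (sform_of_symplectic h₁) 1)
    (fun v => by simp [h₁.alternating]) ⟨(ef_sp h₁).nondeg, (ef_sp h₁).nondeg'⟩
  have hn' := hn
  rw [Fintype.card_congr e, Fintype.card_pi_const, Fintype.card_fin] at hn'
  rw [finrank_fin_fun] at hm
  have h0 : k ≠ 0 := by
    rintro rfl
    rw [zero_pow (by omega)] at hn'
    omega
  obtain ⟨Φ, p, h1, -⟩ := exists_pv (sform_of_symplectic h₁) (B := polarBilin Q)
    (fun u v => polar_comm Q u v) (by omega) (by omega) hT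
  simp only [← h1] at hs
  have : Nontrivial (Fin (k ^ (t - 1)) → F) := Module.nontrivial_of_finrank_pos (R := F) (by
    simpa using pow_pos (by omega) _)
  have γ := gs_of (ef_sp h₁) (fun y => by simp [h₁.alternating]) (by simp; omega)
    (fun _ _ h => h.1) le_rfl
  obtain ⟨τ, q, c, h3⟩ : ∃ τ q, Clf (bil (sform_of_symplectic h₁) 1) τ q ∧ (q → 3 ≤ t) := by
    obtain rfl | rfl : k = 2 ∨ k = 4 := by omega
    · exact ⟨_, _, γ.clf_two h2 (by simp), fun _ => by_contra fun h =>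
        absurd (hn'.trans (Nat.pow_le_pow_right two_pos (show t ≤ 3 by omega))) (by norm_num)⟩
    · exact ⟨_, _, γ.clf_four h2 (by simp), False.elim⟩
  obtain ⟨x, h4, -⟩ := γ.exists_iso
  obtain ⟨y, h5⟩ := γ.h.exists_eq_one h4
  obtain ⟨g, h6, h7, h8⟩ := c.exists_extra h2 p hs γ hQ (by simp; omega) (i := ⟨0, by omega⟩)
    (j := ⟨1, ht⟩) (by simp) fun h => ⟨⟨2, h3 h⟩, by simp, by simp⟩
  obtain ⟨r, h9, h10⟩ := c.exists_not_mem (Φ := Φ) h2 hQ (by simp; omega)
  obtain ⟨g, rfl⟩ := (Unitary.glEquiv _ F).surjective g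
  obtain ⟨r, rfl⟩ := (Unitary.glEquiv _ F).surjective r
  exact ⟨(NE (Φ.CE τ)).comap (Unitary.glEquiv _ F).toMonoidHom ⊓ omegaGL Q, lt_of_le_not_ge
    (fun a ha => ⟨c.mem_of_act p h5 (O_le_UG (Subgroup.map_subtype_le _ ((glEquiv_mem_omega a).2 ha.2)))
      (p.act_of_mem h1 ha.1), ha.2⟩) fun h =>
      h8 (p.act_of_mem h1 (h ⟨h7, (glEquiv_mem_omega g).1 h6⟩).1),
    lt_of_le_not_ge inf_le_right fun h => h10 (h ((glEquiv_mem_omega r).1 h9)).1⟩

end Std

end Cfsg.Lib.TW
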