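import Cfsg.Agent.Lib.TW.Rad
import Cfsg.Agent.Lib.TMax.StdO
import Cfsg.Agent.Lib.TMax.ThreeB
import Cfsg.Agent.Lib.Asch.PowExtra
import Cfsg.Agent.Lib.Asch.Unitary

/-!
# Tensor-wreath subgroups of unitary groups are maximal
-/

set_option autoImplicit false
set_option linter.unusedSectionVars false

namespace Cfsg.Lib.TW

open Module Function Cfsg.Lib.Unitary Cfsg.Lib.TMax
open scoped commutatorElement

variable {F U W V : Type*} [Field F] [AddCommGroup U] [Module F U] [AddCommGroup W] [Module F W]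
  [AddCommGroup V] [Module F V] {σ : F →+* F} {ε ε' : F} {A : U →ₛₗ[σ] U →ₗ[F] F}
  {B : V →ₛₗ[σ] V →ₗ[F] F} {N : Subgroup (U ≃ₗ[F] U)} {M : Subgroup (V ≃ₗ[F] V)}
  {T : TF F U W V} {ι : Type*} [DecidableEq ι] [Fintype ι] {Φ : Fam ι F U W V}

/-- An additive group of endomorphisms normalised by `N ⊗ 1`. -/
def Cl (T : TF F U W V) (N : Subgroup (U ≃ₗ[F] U)) (S : AddSubgroup (End F V)) : Prop :=
  ∀ b ∈ N, ∀ β ∈ S, T.e b.toLinearMap * β * T.e (b⁻¹).toLinearMap ∈ S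

theorem TF.kr_coe (T : TF F U W V) (b : U ≃ₗ[F] U) : (T.kr b 1).toLinearMap = T.e b.toLinearMap :=
  LinearMap.ext (T.kr_one_apply b)

theorem cl_coeffs {i j : ι} (h : i ≠ j) (su : ∀ b ∈ N, (Φ.T i).kr b 1 ∈ M) {n : End F U}
    (hn : n * n = 0) : Cl (Φ.T i) N (coeffs M (Φ.T j) hn) := fun b hb β hβ => by
  simpa only [TF.kr_inv, inv_one, TF.kr_coe] using
    conj_mem_coeffs hβ (su b hb) ((Φ.T i).kr_coe b ▸ Φ.cm_e h.symm _)

theorem TF.coef_add_left (T : TF F U W V) (ψ χ : Dual F U) (c : F) (w : U) (β : End F V) :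
    T.coef (ψ + c • χ) w β = T.coef ψ w β + c • T.coef χ w β :=
  T.ext' fun _ _ => by simp [TF.coef, TF.c_add, TF.c_smul]

theorem TF.coef_add_right (T : TF F U W V) (ψ : Dual F U) (c : F) (w x : U) (β : End F V) :
    T.coef ψ (w + c • x) β = T.coef ψ w β + c • T.coef ψ x β :=
  T.ext' fun _ _ => by simp [TF.coef]

theorem TF.rk_mul_rk (T : TF F U W V) (x y z w : U) (β : End F V) :
    T.e (rk A x y) * β * T.e (rk A z w) = T.e (rk A x w) * T.coef (A y) z β := T.e_mul_e _ _ _ _ _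

namespace Cl

variable {S : AddSubgroup (End F V)} (h : Cl T N S) (γ : Gm ε A N)
include h

theorem conj {b} (hb : b ∈ N) (hb' : b ∈ UG A) {x y x' y' : U} {η η' : End F V} (h1 : Cm T η)
    (h2 : Cm T η') (h3 : T.e (rk A x y) * η + T.e (rk A x' y') * η' ∈ S) :
    T.e (rk A (b x) (b y)) * η + T.e (rk A (b x') (b y')) * η' ∈ S := by
  simpa only [mul_add, add_mul, ← conj_rk hb', map_mul, mul_assoc, h1 (b⁻¹).toLinearMap,
    h2 (b⁻¹).toLinearMap] using h b hb _ h3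

include γ

theorem delta {x : U} (hx : A x x = 0) {c : F} (hc : c + ε * σ c = 0) {β} (hβ : β ∈ S) :
    c • T.e (rk A x x) * β - β * c • T.e (rk A x x) -
      c • T.e (rk A x x) * β * c • T.e (rk A x x) ∈ S := by
  obtain ⟨b, hb, hb'⟩ := γ.h.exists_transv hx hc
  have h1 : b.toLinearMap = 1 + c • rk A x x := LinearMap.ext fun v => by simp [hb', mul_smul]
  have h2 : (b⁻¹).toLinearMap = 1 - c • rk A x x := LinearMap.ext fun v => b.injective (by
    simp [hb' v, hb' x, hx, mul_smul])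
  convert sub_mem (h b (γ.qe x hx hb) β hβ) hβ using 1
  rw [h1, h2, map_add, map_sub, map_one, map_smul]
  generalize c • T.e (rk A x x) = X
  noncomm_ring

theorem two {x y : U} (hx : A x x = 0) (hy : A y y = 0) (hxy : A x y = 0) {c : F}
    (hc : c + ε * σ c = 0) {β} (hβ : β ∈ S) : T.e (rk A y x) * (c * c) • T.coef (A y) x β +
      T.e (rk A x y) * (c * c) • T.coef (A x) y β ∈ S := by
  have h1 : T.e (rk A x x) * T.e (rk A y y) = 0 := T.e_r_mul hxy
  have h2 : ∀ Y, T.e (rk A y y) * (T.e (rk A x x) * Y) = 0 := fun Y => by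
    rw [← mul_assoc, show T.e (rk A y y) * T.e (rk A x x) = 0 from T.e_r_mul (γ.h.swap hxy), zero_mul]
  convert neg_mem (h.delta γ hy hc (h.delta γ hx hc hβ)) using 1
  simp only [mul_smul_comm, ← TF.rk_mul_rk _ y y x x, ← TF.rk_mul_rk _ x x y y, smul_mul_assoc,
    mul_sub, sub_mul, mul_assoc, h1, h2, mul_zero, smul_zero, smul_sub, smul_smul]
  abel

theorem long [FiniteDimensional F U] {x y : U} (hx : A x x = 0) (hxy : A x y = 0) (h0 : y ∉ F ∙ x)
    {η η' : End F V} (h1 : Cm T η) (h2 : Cm T η')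
    (h3 : T.e (rk A y x) * η + T.e (rk A x y) * η' ∈ S) (t : F) :
    T.e (rk A x x) * (t • η + σ t • η') ∈ S := by
  obtain ⟨z, h4, h5⟩ := γ.h.exists_perp_one h0 t
  obtain ⟨b, hb, hb'⟩ := γ.h.exists_E hx h4
  convert sub_mem (h.conj (γ.qe x hx hb) hb.1 h1 h2 h3) h3 using 1
  rw [hb.2.1, hb' y hxy, h5, show rk A (y + t • x) x = rk A y x + t • rk A x x from by
    ext; simp [smul_comm t], show rk A x (y + t • x) = rk A x y + σ t • rk A x x from by
    ext; simp [add_smul, mul_smul]]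
  simp only [map_add, map_smul, add_mul, mul_add, smul_mul_assoc, mul_smul_comm]
  abel

end Cl

variable [FiniteDimensional F U] [FiniteDimensional F W] [FiniteDimensional F V]

theorem cen_of_left (γ : Gm ε A N) (su : ∀ b ∈ N, T.kr b 1 ∈ M) (hB : EF σ ε' B) (cp : Cp A B T)
    (hM : M ≤ UG B) {w : U} (hw : A w w = 0) {g} (hg : g ∈ M) (h1 : ∀ x ∈ T.P (F ∙ w), g x = x)
    {a : U} (ha : A w a = 0) {H H' : End F V} (hH : Ad B H H') (hc : Cm T H')
    (h : ∀ z, g.toLinearMap * T.e (rk A a z) = T.e (rk A a z) + T.e (rk A w z) * H) :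
    Un M (T.e (rk A w w) * (H' - ε • H)) := by
  obtain ⟨b, hb, c, hb'⟩ := γ.h.exists_gE' hw ha
  have h2 : b.toLinearMap = 1 + rk A w a - ε • rk A a w + c • rk A w w :=
    LinearMap.ext fun v => by simp [hb', mul_smul]
  have L : ∀ z, g.toLinearMap * T.e (rk A w z) = T.e (rk A w z) + T.e (rk A w z) * 0 := fun z =>
    LinearMap.ext fun x => by simp [rk, TF.e_r, h1 _ (T.t_mem_P1 _ _)]
  have R := right_of_left γ hB cp (hM hg) (fun _ _ => by simp : Ad B 0 0) L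
  have R' := right_of_left γ hB cp (hM hg) hH h w
  have h3 : g.toLinearMap * T.e b.toLinearMap * (g⁻¹).toLinearMap =
      T.e b.toLinearMap + T.e (rk A w w) * (H' - ε • H) := by
    have h4 : g.toLinearMap * (g⁻¹).toLinearMap = 1 := LinearMap.ext g.apply_symm_apply
    have h5 : ∀ Y, H * (T.e Y * (g⁻¹).toLinearMap) = H * T.e Y * (g⁻¹).toLinearMap := fun Y =>
      (mul_assoc _ _ _).symm
    have h6 : T.e (rk A w w) * H * (g⁻¹).toLinearMap = T.e (rk A w w) * H := by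
      have := (hH.symm hB).cm γ.h hB cp hc
      rw [← this, mul_assoc, R]; simp
    simp only [h2, map_add, map_sub, map_smul, map_one, mul_add, mul_sub, add_mul, sub_mul, mul_one,
      mul_smul_comm, smul_mul_assoc, L, h, R, R', h4, h6, mul_zero, zero_mul, add_zero, hc _]
    module
  have hk := su b (γ.qe w hw hb)
  refine ⟨_, mul_mem (inv_mem hk) (mul_mem (mul_mem hg hk) (inv_mem hg)), fun x => ?_⟩
  rw [LinearEquiv.mul_apply, LinearEquiv.coe_inv, LinearEquiv.symm_apply_eq, map_add]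
  have := LinearMap.congr_fun h3 x
  rw [← TF.kr_coe] at this
  refine this.trans ?_
  simp [rk, TF.e_r, hb.2.1]

variable {l : F} (hl : σ l ≠ l) (γ : Gm 1 A N)
include hl γ

theorem good_of_scalar (su : ∀ b ∈ N, T.kr b 1 ∈ M) (hB : EF σ ε' B) (cp : Cp A B T)
    (hM : M ≤ UG B) (h : ∀ w, w ≠ 0 → A w w = 0 → ∀ β, Cm T β → Un M (T.e (rk A w w) * β) →
      ∃ c : F, β = c • 1) : GoodF A B N M T := by
  refine ⟨cp, su, fun w h0 hw g hg h1 h2 => rad_of_scalar γ su hB cp h0 hw hM hg h1 (fun a ha => ?_)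
    (h w h0 hw)⟩
  obtain ⟨H, h3, h4⟩ := exists_left h0 h2 ha
  obtain ⟨H', h5⟩ := hB.exists_adj H
  have h6 := Ad.cm h5 γ.h hB cp h3
  obtain ⟨c₁, e1⟩ := h w h0 hw _ (h6.sub (h3.smul _)) (cen_of_left γ su hB cp hM hw hg h1 ha h5 h6 h4)
  obtain ⟨c₂, e2⟩ := h w h0 hw _ ((h6.smul _).sub ((h3.smul l).smul _)) (cen_of_left γ su hB cp hM hw
    hg h1 (a := l • a) (by simp [ha]) (Ad.smul h5 l) (h6.smul _) fun z => by
      simpa [show rk A (l • a) z = l • rk A a z by simpa using rk_smul l 1 a z] using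
        congrArg (l • ·) (h4 z))
  have e3 : H = ((σ l - l)⁻¹ * (c₂ - σ l * c₁)) • 1 := by
    rw [mul_smul, eq_inv_smul_iff₀ (sub_ne_zero.2 hl)]
    linear_combination (norm := module) e2 - σ l • e1
  obtain ⟨f, hf⟩ := γ.h.exists_eq_one h0
  exact ⟨_, fun u => by simpa [hf, e3] using LinearMap.congr_fun (h4 w) (T.t f u)⟩

theorem nd_unit {β : End F V} (h : ¬ Cm T β) : ∃ w ψ, RF 1 A w ψ ∧ T.coef ψ w β ≠ 0 := by
  by_contra h0
  push Not at h0
  obtain ⟨c, hc0, hc⟩ := γ.tr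
  obtain ⟨e₀, h1, h2⟩ := γ.exists_iso
  refine h (cm_of_scalar fun χ u => γ.h.scalar_of_fix γ.t3 h1 h2
    (β := T.d χ ∘ₗ β ∘ₗ T.t.flip u) fun e he => ?_)
  have h3 : ∀ s, A s s = 0 → A s ((T.d χ ∘ₗ β ∘ₗ T.t.flip u) s) = 0 := fun s hs => by
    rcases eq_or_ne s 0 with rfl | hs0
    · simp
    have := LinearMap.congr_fun (h0 s _ ⟨hs0, hs, c, hc0, hc, rfl⟩) (T.t s u)
    have h4 : T.c (A s) (β (T.t s u)) = 0 := T.t_inj hs0 (by simpa [TF.coef, TF.c_smul, hc0] using this)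
    simp [TF.apply_d, h4]
  generalize T.d χ ∘ₗ β ∘ₗ T.t.flip u = b at h3
  rcases eq_or_ne e 0 with rfl | he0
  · simp
  obtain ⟨f, hf, hef⟩ := γ.h.exists_hyp he0 he
  have hfe : A f e = 1 := by rw [γ.h.flip, hef, map_one, mul_one]
  have K : ∀ y, A y y = 0 → A e y = 1 → c * A y (b e) + σ c * A e (b y) = 0 := fun y hy hy' => by
    have := h3 (y + c • e) (by simpa [hy, he, hy', γ.h.flip e y] using hc)
    simpa [h3 y hy, h3 e he] using this
  have K' : ∀ z, A e z = 0 → A f z = 0 → c * A z (b e) + σ c * A e (b z) = 0 := fun z h4 h5 => by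
    obtain ⟨d, hd⟩ := γ.h.tv z
    have := K (f + z - d • e) (by
      simp [hf, he, hef, hfe, h4, h5, γ.h.swap h4, γ.h.swap h5, hd]) (by simp [he, hef, h4])
    simp only [map_add, map_sub, map_smul, LinearMap.map_smulₛₗ, LinearMap.add_apply,
      LinearMap.sub_apply, LinearMap.smul_apply, h3 e he, smul_eq_mul] at this
    linear_combination this - K f hf hef
  refine γ.h.mem_of_perp fun s hs => ?_
  have h4 := γ.decomp he hf hef s
  have h5 := K' _ h4.1 h4.2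
  have h6 := K' (l • _) (by rw [map_smul, h4.1, smul_zero]) (by rw [map_smul, h4.2, smul_zero])
  rw [A.map_smulₛₗ, map_smul, map_smul, LinearMap.smul_apply] at h6
  have h7 := (mul_eq_zero.1 (show (c * (σ l - l)) * A (s - A e s • f - (1 * A f s) • e) (b e) = 0 by
    simp only [smul_eq_mul] at h6
    linear_combination h6 - l * h5)).resolve_left (mul_ne_zero hc0 (sub_ne_zero.2 hl))
  simpa [mem_perp_singleton.1 hs, h3 e he] using h7

theorem sand_four (hn : 4 ≤ finrank F U) (su : ∀ i, ∀ b ∈ N, (Φ.T i).kr b 1 ∈ M) :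
    Φ.Sand (RF 1 A) M := by
  rintro i j hij w ψ hw β hβ h x _ ⟨h0, hx, c, -, hc, rfl⟩
  have hS := cl_coeffs (M := M) hij (su i) (r_sq hw.zero)
  obtain ⟨y, h1, h2, h3⟩ := γ.exists_line hn h0
  have key := fun y h1 h2 h3 => hS.long γ hx h2 h3 (((Φ.T i).cm_coef _ _ _).smul _)
    (((Φ.T i).cm_coef _ _ _).smul _) (hS.two γ hx (y := y) h1 h2 hc ⟨hβ, h⟩) (l / (l - σ l))
  have := sub_mem (key (y + (1 : F) • x) (by simp [h1, hx, h2, γ.h.swap h2]) (by simp [h2, hx])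
    fun h => h3 (by simpa using sub_mem h (Submodule.mem_span_singleton_self x))) (key y h1 h2 h3)
  convert this.2 using 2
  have h4 : σ (l / (l - σ l)) = 1 - l / (l - σ l) := by
    rw [map_div₀, map_sub, γ.h.invol]
    have := sub_ne_zero.2 hl
    have := sub_ne_zero.2 hl.symm
    field_simp
    ring
  rw [map_add, LinearMap.map_smulₛₗ, TF.coef_add_left, TF.coef_add_right, r_eq_rk, map_smul,
    smul_mul_assoc, smul_mul_assoc, mul_smul_comm, TF.rk_mul_rk, h4, map_one]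
  simp only [mul_add, smul_add, mul_smul_comm]
  module

omit hl in
theorem tri_unit {q : ℕ} (hσ : IsBar q σ) (h3 : 3 ≤ finrank F U) {c : F} (hc0 : c ≠ 0)
    (hc : c + 1 * σ c = 0) (τ : F) : Fam.Tri (RF 1 A) (c ^ 3 * τ) (c ^ 3 * σ τ) := by
  obtain ⟨e, h0, he⟩ := γ.exists_iso
  obtain ⟨f, hf, hef⟩ := γ.h.exists_hyp h0 he
  have hfe : A f e = 1 := by rw [γ.h.flip, hef, map_one, mul_one]
  have h := γ.h.isHerm hσ
  obtain ⟨z, h1, h2⟩ := h.exists_nonisotropic_perp (W := Submodule.span F {e, f}) fun h1 => by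
    obtain ⟨z, h2, h4⟩ := exists_ker_pair h3 (A e) (A f)
    exact h2 (Submodule.disjoint_def.1 (h.disjoint_hypPerp he hef) z (h1 (mem_perp_pair.2 h4))
      (mem_perp_pair.2 h4))
  obtain ⟨h4, h5⟩ := mem_perp_pair.1 h1
  obtain ⟨a, ha⟩ := hσ.exists_norm_eq (μ := -(τ + σ τ) / A z z)
    (by simp [hσ.invol, h.self_fixed, add_comm])
  refine ⟨e, _, f, _, f + a • z + τ • e, _, ⟨h0, he, c, hc0, hc, rfl⟩,
    ⟨fun h => by simp [h] at hef, hf, c, hc0, hc, rfl⟩,
    ⟨fun h => by simpa [he, hef, h4] using congrArg (A e) h, ?_, c, hc0, hc, rfl⟩, ?_, ?_⟩ <;>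
  simp [he, hf, hef, hfe, h4, h5, γ.h.swap h4, γ.h.swap h5]
  · field_simp at ha
    linear_combination ha
  · ring
  · ring

omit hl in
theorem max_unit {q : ℕ} (hσ : IsBar q σ) [Nontrivial W] [Nontrivial ι] (p : PV Φ A B)
    (hB : EF σ 1 B) (hM : M ≤ UG B) (su : ∀ i, ∀ b ∈ N, (Φ.T i).kr b 1 ∈ M)
    (hP : ∀ σ τ : Equiv.Perm ι, ∃ g ∈ M, Φ.IsPerm ⁅σ, τ⁆ g) (h3 : 3 ≤ finrank F U)
    (hq : q ≠ 2 ∨ 4 ≤ finrank F U) (hT : Tor A N ∨ 4 ≤ finrank F U) :
    (∀ g ∈ M, Φ.Wr g) ∨ ∀ z, z ≠ 0 → B z z = 0 → QE B z ≤ M := by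
  have := hσ.finite
  have := γ.nontrivial
  obtain ⟨l, hl⟩ := hσ.exists_ne
  by_cases hG : ∀ i, GoodF A B N M (Φ.T i)
  · refine .inl fun g hg => Fam.wr_of_not_bad γ.two fun i j =>
      γ.not_bad hB hM h3 hT ?_ (hG j) ((hG i).smul hM hg)
    rcases eq_or_ne q 2 with rfl | h2
    · exact .inr ⟨hq.resolve_left (by simp), by simpa using hσ.cast_q,
        .inr fun n => hσ.exists_root_real (map_one σ)⟩
    · exact .inl (hσ.exists_fixed_ne h2)
  have hS : Φ.Sand (RF 1 A) M := hq.elim (fun h =>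
    let ⟨_, h1, h2, h4⟩ := hσ.exists_fixed_ne h; Fam.sand_of_fixed γ su h1 h2 h4)
    fun h => sand_four hl γ h su
  obtain ⟨j, hj⟩ := not_forall.1 hG
  have := mt (good_of_scalar hl γ (su j) hB (p.cp γ j) hM) hj
  push Not at this
  obtain ⟨w, h0, hw, β, hβ, h1, h2⟩ := this
  obtain ⟨c, hc0, hc⟩ := γ.tr
  obtain ⟨J, hJ, hQ⟩ := hS.exists_Q (fun i β => nd_unit hl γ) ⟨h0, hw, c, hc0, hc, rfl⟩
    (hβ.smul c⁻¹) (fun ⟨d, hd⟩ => h2 (c * d) (by rw [mul_smul, ← hd, smul_inv_smul₀ hc0]))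
    (by simpa [r_eq_rk, smul_smul, hc0] using h1)
  replace hQ := hQ.univ hJ fun J hJ hQ b hb => hS.step (Fam.tr_form γ su) (fun _ _ h => h.zero) hP
    (tri_unit γ hσ h3 hc0 hc l) (tri_unit γ hσ h3 hc0 hc 1)
    (fun n h => hl (by simpa [hc0] using h.symm)) hJ hQ hb
  exact .inr fun z => p.QE_le_all γ hB hM su hc0 hc (p.tv_of_Q γ hB hM su hQ) (.inl h3)

omit hl γ

theorem gm_unit {q : ℕ} (hσ : IsBar q σ) (hA : EF σ 1 A) (h2 : 2 ≤ finrank F U) :
    Gm 1 A (SUG A) := by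
  have := hσ.finite
  have h := hA.isHerm hσ
  refine ⟨hA, fun X hX => ?_, ?_, fun e he => ?_, SUG_le_UG, h2⟩
  · by_cases hd : Disjoint X (perp A X)
    · obtain ⟨v, h0, hv⟩ := (h.restrict hd).exists_isotropic hX
      exact ⟨v, v.2, by simpa using h0, hv⟩
    · obtain ⟨v, hv, h0⟩ := Submodule.exists_mem_ne_zero_of_ne_bot (mt disjoint_iff.2 hd)
      exact ⟨v, hv.1, h0, hv.2 v hv.1⟩
  · obtain ⟨c, h1, h2⟩ := hσ.exists_skew
    exact ⟨c, h1, by simp [h2]⟩
  · rcases eq_or_ne e 0 with rfl | h0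
    · intro g hg
      rw [show g = 1 from LinearEquiv.ext fun v => by simpa using hg.2.2 v (by simp)]
      exact one_mem _
    · exact h.QE_le_SUG h0 he

theorem tor_unit {q : ℕ} (hσ : IsBar q σ) (hA : EF σ 1 A) (h3 : finrank F U = 3) (hq : q ≠ 2) :
    Tor A (SUG A) := by
  have h := hA.isHerm hσ
  obtain ⟨μ, h1, h2, h4⟩ := hσ.exists_fixed_ne hq
  obtain ⟨a, ha⟩ := hσ.exists_norm_eq h1
  have h0 : a ≠ 0 := by rintro rfl; simp [h2.symm] at ha
  have h0' : σ a ≠ 0 := by simpa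
  refine ⟨a, (σ a)⁻¹, σ a / a, fun h => h4 (by rw [← ha]; nth_rw 1 [← h]; exact inv_mul_cancel₀ h0'),
    fun h => h4 ?_, fun e f he hf hef => ?_⟩
  · have h5 : a = σ a * σ a := by field_simp at h; linear_combination h
    have h6 := congrArg σ h5
    rw [map_mul, hσ.invol] at h6
    refine mul_left_cancel₀ h0 ?_
    rw [← ha]
    linear_combination (-1 : F) * h5 - σ a * h6
  have h5 : σ a / a ≠ 0 := div_ne_zero h0' h0
  obtain ⟨b, hb, e1, e2, e3⟩ := h.exists_levi he hf hef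
    (g := LinearEquiv.smulOfNeZero F (hypPerp A e f) _ h5) (fun u v => by
      simp [hσ.invol]; field_simp) h0 (by
      have := h.finrank_hypPerp he hef
      change LinearMap.det ((σ a / a) • LinearMap.id (R := F) (M := hypPerp A e f)) = _
      rw [LinearMap.det_smul, show finrank F (hypPerp A e f) = 1 by omega]
      simp)
  exact ⟨b, hb, e1, e2, fun z h6 h7 => e3 ⟨z, mem_hypPerp.2 ⟨h6, h7⟩⟩⟩

/-- The action of the first factor. -/
noncomputable def TF.krHom (T : TF F U W V) : (U ≃ₗ[F] U) →* V ≃ₗ[F] V :=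
  MonoidHom.mk' (fun b => T.kr b 1) fun a b => by rw [T.kr_mul, mul_one]

theorem Cp.unip [Nontrivial U] (h : Cp A B T) (hB : EF σ ε' B) {G G' : Subgroup (V ≃ₗ[F] V)} {w : U}
    (hu : Unip B G G' (T.P (F ∙ w))) {b} (hb : b ∈ QE A w) (hG : T.kr b 1 ∈ G) : T.kr b 1 ∈ G' :=
  hu _ hG (fun x hx => by
    obtain ⟨u, rfl⟩ := T.mem_P1.1 hx
    simp [hb.2.1]) fun x hx => by
    simpa using T.kr_sub_mem (κ := 1) (w := w) (fun y hy => by
      obtain ⟨c, hc⟩ := hb.2.2 y hy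
      simp [hc, Submodule.mem_span_singleton]) ((h.mem_perp hB).1 hx)

section Std

open Matrix Cfsg.Geo Cfsg.Lib.Asch Cfsg.Lib.Linear
open scoped MatrixGroups

variable {κ : Type} [Fintype κ] [DecidableEq κ] {k t : ℕ}

theorem exists_pv {f : (κ → F) → (κ → F) → F} {f₁ : (Fin k → F) → (Fin k → F) → F}
    (h₁ : SForm σ ε f₁) {B : (κ → F) →ₛₗ[σ] (κ → F) →ₗ[F] F} (hB : ∀ u v, B u v = f v u)
    (hk : 0 < k) (ht : 0 < t) {e : κ ≃ (Fin t → Fin k)} {P : GL κ F}
    (hT : IsTensorPowerFormStructure σ f f₁ e P) :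
    ∃ Φ : Fam (Fin t) F (Fin k → F) (Fin (k ^ (t - 1)) → F) (κ → F), ∃ p : PV Φ (bil h₁ 1) B,
      (∀ x, p.v x = ppvec e P x) ∧ (∀ g, Φ.Wr (glEquiv κ F g) → g ∈ tensorWreathSubgroup k t e P) ∧
      ∀ s, ∃ g, Φ.IsPerm s (glEquiv κ F g) ∧ ∀ x, glEquiv κ F g (p.v x) = p.v (x ∘ s.symm) := by
  obtain ⟨Φ, h1, h2, h3⟩ := exists_fam (F := F) hk ht e P
  obtain ⟨c, hc, hT⟩ := hT
  let φ := (LinearEquiv.funCongrLeft F F e).trans (glEquiv κ F P)
  let v : MultilinearMap F (fun _ : Fin t => Fin k → F) (κ → F) :=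
    φ.toLinearMap.compMultilinearMap (MultilinearMap.pi fun a : Fin t → Fin k =>
      (MultilinearMap.mkPiAlgebra F (Fin t) F).compLinearMap fun i => LinearMap.proj (a i))
  have hv : ∀ x, v x = ppvec e P x := fun x => rfl
  refine ⟨Φ, ⟨v, c, hc, fun a x => ?_, fun S hS z => ?_, fun x y => ?_⟩, hv, h2,
    fun s => ⟨_, h3 s, fun x => ?_⟩⟩
  · rw [h1, hv, hv, toLin'_apply, ppvec, tr_mulVec, pureT_mulVec_ppv, ppvec]
    simp
  · obtain ⟨z, rfl⟩ := φ.surjective z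
    rw [← Finset.univ_sum_single z, map_sum]
    refine sum_mem fun a _ => ?_
    have i₀ : Fin t := ⟨0, ht⟩
    convert hS fun i => Pi.single (a i) (if i = i₀ then z a else 1)
    refine congrArg φ (funext fun b => ?_)
    simp [Pi.single_apply, Finset.prod_ite_zero, funext_iff]
  · rw [hB, hv, hv, ppvec, ppvec, hT]
    congr 1
    have : σ ∘ ppv x = ppv fun i => σ ∘ x i := funext fun a => map_prod σ _ _
    change formOfGram σ (pureT fun _ => gramMatrix f₁) _ _ = _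
    rw [formOfGram_eq, this, pureT_mulVec_ppv, ppv_dot]
    exact Finset.prod_congr rfl fun i _ => by rw [bil_apply, one_mul, h₁.eq_dot]
  · change _ = v _
    rw [hv, hv, glEquiv_apply, coe_trGL, ppvec, tr_mulVec, ppvec]
    congr 2
    funext b
    change ∑ a, (if a = b ∘ s then 1 else 0) * ppv x a = _
    simp only [ite_mul, one_mul, zero_mul, Finset.sum_ite_eq', Finset.mem_univ, if_true, ppv]
    exact Fintype.prod_equiv s _ _ fun i => by simp

theorem PV.perm_mem {Φ : Fam ι F U W V} (p : PV Φ A B) {g : V ≃ₗ[F] V} {s : Equiv.Perm ι}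
    (h : ∀ x, g (p.v x) = p.v (x ∘ s.symm)) : g ∈ UG B :=
  p.mem_UG fun x y => by
    rw [h, h, p.B_v, p.B_v]
    exact congrArg _ (Fintype.prod_equiv s.symm _ _ fun _ => rfl)

theorem isMaximalIn_unit [Fintype F] {q n : ℕ} (hF : Fintype.card F = q ^ 2) (hn : 5 ≤ n)
    (hk : 3 ≤ k) (ht : 2 ≤ t) (hq : ¬ (q = 2 ∧ k = 3)) {e : Fin n ≃ (Fin t → Fin k)}
    {P : GL (Fin n) F} {f₁ : (Fin k → F) → (Fin k → F) → F} (h₁ : IsUnitaryFormPow q f₁)
    (hT : IsTensorPowerFormStructure (fun x : F => x ^ q) (hermForm n F q) f₁ e P) :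
    IsMaximalIn (GU n F q ⊓ specialLinear (Fin n) F)
      (tensorWreathSubgroup k t e P ⊓ (GU n F q ⊓ specialLinear (Fin n) F)) := by
  obtain ⟨σ, hσ⟩ := exists_isBar hF
  refine isMaximalIn_inf ((amb_su hF (by omega) (by omega)).not_pow (by omega) ht (by simpa) e P)
    fun M hM hM' g hg hg' => ?_
  have key : ∀ g, g ∈ GU n F q ⊓ specialLinear (Fin n) F ↔
      glEquiv (Fin n) F g ∈ SUG (stdForm σ (Fin n)) := fun g => by
    rw [mem_SUG, hσ.glEquiv_mem_UG, det_glEquiv]; rfl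
  have h₁' := sform_of_unitaryPow hσ h₁
  rw [show (fun x : F => x ^ q) = σ from funext fun x => (hσ.eq x).symm] at hT
  obtain ⟨Φ, p, -, h2, h3⟩ := exists_pv h₁' (fun u v => (hσ.hermForm_eq v u).symm) (by omega)
    (by omega) hT
  have hA : EF σ 1 (bil h₁' 1) := ef_bil h₁' one_ne_zero (map_one σ) (.inl rfl) fun s => by
    simpa [eq_comm] using hσ.exists_trace_eq (s := f₁ s s) (by rw [← one_mul (σ _), ← h₁'.herm])
  have γ := gm_unit hσ hA (by simp; omega)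
  have := γ.nontrivial
  have hB : EF σ 1 (stdForm σ (Fin n)) := hσ.isHerm.ef
  have : Nontrivial (Fin (k ^ (t - 1)) → F) := Module.nontrivial_of_finrank_pos (R := F) (by
    simpa using pow_pos (by omega) _)
  have : Nontrivial (Fin t) := Fin.nontrivial_iff_two_le.2 ht
  have h4 : ∀ g, Φ.Wr g → g ∈ SUG (stdForm σ (Fin n)) → g ∈ M.map (glEquiv (Fin n) F).toMonoidHom :=
    fun g h h' => by
      obtain ⟨g, rfl⟩ := (glEquiv (Fin n) F).surjective g
      exact ⟨g, hM ⟨h2 g h, (key g).2 h'⟩, rfl⟩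
  refine (max_unit (M := M.map (glEquiv (Fin n) F).toMonoidHom) γ hσ p hB
    (by rintro _ ⟨g, hg, rfl⟩; exact ((key g).1 (hM' hg)).1) (fun i b hb => h4 _ (Φ.wr_kr i b) ?_)
    (fun s s' => ?_) (by simpa) (by simp; omega) ?_).elim
    (fun h => (hg' (h2 g (h _ ⟨g, hg, rfl⟩))).elim) fun h g hg => ?_
  · rw [← (hA.isHerm hσ).TG_eq_SUG hσ (by simp; omega)] at hb
    refine TG_le (N := (SUG _).comap (Φ.T i).krHom) (fun u c hu hc => ?_) hb
    have : transv (bil h₁' 1) u c hu hc ∈ QE (bil h₁' 1) u := (hA.isHerm hσ).transv_mem_QE _ _ _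
    exact (p.cp γ i).unip hB (hB.unip_SUG _) this ((p.cp γ i).kr_mem this.1)
  · obtain ⟨a, e1, e2⟩ := h3 s
    obtain ⟨b, e3, e4⟩ := h3 s'
    refine ⟨_, h4 _ (e1.comm e3).wr (mem_SUG.2 ⟨?_, ?_⟩), e1.comm e3⟩
    · exact mul_mem (mul_mem (mul_mem (p.perm_mem e2) (p.perm_mem e4)) (inv_mem (p.perm_mem e2)))
        (inv_mem (p.perm_mem e4))
    · rw [map_commutatorElement, commutatorElement_eq_one_iff_mul_comm.2 (mul_comm _ _)]
  · rcases hk.eq_or_lt with rfl | hk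
    · exact .inl (tor_unit hσ hA (by simp) (by omega))
    · exact .inr (by simpa)
  · have := (key g).1 hg
    rw [← hσ.isHerm.TG_eq_SUG hσ (by simp; omega)] at this
    obtain ⟨g', h5, h6⟩ := TG_le (N := M.map (glEquiv (Fin n) F).toMonoidHom) (fun u c hu hc => by
      rcases eq_or_ne u 0 with rfl | h0
      · rw [show transv _ 0 c hu hc = 1 from LinearEquiv.ext fun v => by simp]; exact one_mem _
      · exact h u h0 hu (hσ.isHerm.transv_mem_QE _ _ _)) this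
    rwa [← (glEquiv (Fin n) F).injective h6]

end Std

end Cfsg.Lib.TW
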